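import Mathlib
import Cfsg.Prelude.Def_RootSubgroups
import Cfsg.Agent.Lib.Invol.BaerSuzuki
import Cfsg.Agent.Lib.Invol.Basic

/-! Root involutions: elementary lemmas on triples (Timmesfeld), the isolated vertices. -/

set_option autoImplicit false

namespace Cfsg.Agent.Lib.Root

open Cfsg

section pure

variable {G : Type*} [Group G]

theorem ri_orderOf_conj (g x : G) : orderOf (g * x * g⁻¹) = orderOf x :=
  (SemiconjBy.orderOf_eq g (x := x) (y := g * x * g⁻¹) (by simp [SemiconjBy])).symm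

theorem ri_orderOf_swap (a b : G) : orderOf (b * a) = orderOf (a * b) :=
  SemiconjBy.orderOf_eq a (x := b * a) (y := a * b) (by simp [SemiconjBy, mul_assoc])

/-- Cancellation for an involution. -/
theorem ri_cancel {u : G} (hu : u * u = 1) (y : G) : u * (u * y) = y := by
  rw [← mul_assoc, hu, one_mul]

/-- A dihedral group of order eight: the central element. -/
theorem ri_four_comm {a x : G} (ha : a * a = 1) (hx : x * x = 1) (h4 : (a * x) ^ 4 = 1) :
    x * (a * (x * (a * x))) = a * (x * a) := by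
  have h1 : a * x * (a * x) * (a * x) * (a * x) = 1 := by
    have := h4
    simpa [pow_succ, mul_assoc] using this
  have h2 : (a * (x * a)) * (x * (a * (x * (a * x)))) = 1 := by
    simpa [mul_assoc] using h1
  have h3 : x * (a * (x * (a * x))) = (a * (x * a))⁻¹ := eq_inv_of_mul_eq_one_right h2
  rw [h3]
  have ha' : a⁻¹ = a := inv_eq_of_mul_eq_one_left ha
  have hx' : x⁻¹ = x := inv_eq_of_mul_eq_one_left hx
  simp [mul_assoc, ha', hx']

theorem ri_four_comm' {a x : G} (ha : a * a = 1) (hx : x * x = 1) (h4 : (a * x) ^ 4 = 1) (y : G) :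
    x * (a * (x * (a * (x * y)))) = a * (x * (a * y)) := by
  have := congrArg (· * y) (ri_four_comm ha hx h4)
  simpa [mul_assoc] using this

/-- the square of a product of two commuting involutions -/
theorem ri_conj_of_odd {d x : G} (hd : d * d = 1) (hx : x * x = 1) (h : Odd (orderOf (d * x))) :
    ∃ g : G, x = g * d * g⁻¹ := by
  obtain ⟨k, hk⟩ := h
  refine ⟨(d * x) ^ (k : ℤ), ?_⟩
  rw [Lib.Invol.conj_by_zpow hd hx]
  have h1 : (d * x) ^ ((2 * k + 1 : ℕ) : ℤ) = 1 := by
    rw [zpow_natCast, ← hk, pow_orderOf_eq_one]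
  have h2 : (d * x) ^ (-(2 * (k : ℤ))) = d * x := by
    have h3 : -(2 * (k : ℤ)) = 1 - ((2 * k + 1 : ℕ) : ℤ) := by push_cast; ring
    rw [h3, zpow_sub, h1]
    simp
  rw [h2, ← mul_assoc, hd, one_mul]

/-- two involutions with `(ab)^4 = 1` generate a 2-group -/
theorem ri_pair_pgroup {a b : G} (ha : a * a = 1) (hb : b * b = 1) (h4 : (a * b) ^ 4 = 1) :
    IsPGroup 2 (Subgroup.closure ({a, b} : Set G)) := by
  rintro ⟨g, hg⟩
  rcases Lib.Invol.mem_closure_pair ha hb hg with ⟨m, rfl⟩ | ⟨m, rfl⟩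
  · refine ⟨2, Subtype.ext ?_⟩
    show ((a * b) ^ m) ^ (2 ^ 2) = 1
    have : (2 : ℕ) ^ 2 = 4 := by norm_num
    rw [this, ← zpow_natCast, ← zpow_mul, mul_comm, zpow_mul, zpow_natCast, h4, one_zpow]
  · refine ⟨1, Subtype.ext ?_⟩
    show (a * (a * b) ^ m) ^ (2 ^ 1) = 1
    rw [pow_one, pow_two]
    exact Lib.Invol.x_zpow_sq ha hb m

end pure

section root

variable {G : Type*} [Group G] {D : Set G}

theorem ri_sq (hD : IsRootInvolutionSet D) {d : G} (hd : d ∈ D) : d * d = 1 :=
  Lib.Invol.mul_self_of_orderOf_eq_two (hD.orderOf_eq d hd)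

theorem ri_inv (hD : IsRootInvolutionSet D) {d : G} (hd : d ∈ D) : d⁻¹ = d :=
  inv_eq_of_mul_eq_one_left (ri_sq hD hd)

theorem ri_ne_one (hD : IsRootInvolutionSet D) {d : G} (hd : d ∈ D) : d ≠ 1 := by
  rintro rfl
  have := hD.orderOf_eq 1 hd
  simp at this

theorem ri_conj' (hD : IsRootInvolutionSet D) {d : G} (hd : d ∈ D) {c : G} (hc : c ∈ D) :
    c * d * c ∈ D := by
  have := hD.conj_mem d hd c
  rwa [ri_inv hD hc] at this

/-- Lemma 1: if `p, q` commute, `pq ∈ D` and `r` is an odd partner of `q`, then `p, r` do not commute. -/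
theorem ri_lem1 (hD : IsRootInvolutionSet D) {p q r : G} (hp : p ∈ D) (hq : q ∈ D) (hr : r ∈ D)
    (hpq : p * q = q * p) (hpqD : p * q ∈ D) (hodd : Odd (orderOf (q * r))) (hne : q ≠ r)
    (hpr : p * r = r * p) : False := by
  have hcomm : Commute p (q * r) := by
    show p * (q * r) = q * r * p
    rw [← mul_assoc, hpq, mul_assoc, hpr, mul_assoc]
  have hco : Nat.Coprime (orderOf p) (orderOf (q * r)) := by
    rw [hD.orderOf_eq p hp]
    exact Nat.coprime_two_left.mpr hodd
  have hord := hcomm.orderOf_mul_eq_mul_orderOf_of_coprime hco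
  rw [hD.orderOf_eq p hp] at hord
  have hm1 : orderOf (q * r) ≠ 1 := by
    intro h
    have h1 : q * r = 1 := orderOf_eq_one_iff.mp h
    apply hne
    have := eq_inv_of_mul_eq_one_left h1
    rwa [ri_inv hD hr] at this
  have heq : p * q * r = p * (q * r) := mul_assoc _ _ _
  rcases hD.pair _ hpqD r hr with h | h | h
  · have h2 : (p * q * r) ^ 2 = 1 := by
      rw [pow_two]
      calc p * q * r * (p * q * r) = p * q * (r * (p * q)) * r := by group
        _ = p * q * (p * q * r) * r := by rw [h]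
        _ = (p * q) * (p * q) * (r * r) := by group
        _ = 1 := by rw [ri_sq hD hpqD, ri_sq hD hr, one_mul]
    have h3 := orderOf_dvd_of_pow_eq_one h2
    rw [heq, hord] at h3
    have h4 : orderOf (q * r) ∣ 1 := by
      have := Nat.dvd_of_mul_dvd_mul_left (by norm_num : 0 < 2) (by simpa using h3 : 2 * orderOf (q * r) ∣ 2 * 1)
      exact this
    exact hm1 (Nat.dvd_one.mp h4)
  · rw [heq, hord] at h
    exact (Nat.not_even_iff_odd.mpr h) (even_two_mul _)
  · have h3 := h.1
    rw [heq, hord] at h3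
    obtain ⟨k, hk⟩ := hodd
    omega

/-- Lemma 3: if `a, b, ab ∈ D` commute and `x` is an odd partner of `b`, then `x` is an odd partner of
`a` or of `ab`. -/
theorem ri_lem3 (hD : IsRootInvolutionSet D) {a b x : G} (ha : a ∈ D) (hb : b ∈ D) (hx : x ∈ D)
    (hab : a * b = b * a) (hc : a * b ∈ D) (hodd : Odd (orderOf (b * x))) (hne : b ≠ x) :
    (Odd (orderOf (a * x)) ∧ a ≠ x) ∨ (Odd (orderOf (a * b * x)) ∧ a * b ≠ x) := by
  have haa := ri_sq hD ha
  have hbb := ri_sq hD hb
  have hxx := ri_sq hD hx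
  have hca : a * b * b = a := by rw [mul_assoc, hbb, mul_one]
  have hcb : (a * b) * b = b * (a * b) := by rw [mul_assoc, hbb, mul_one, ← mul_assoc, ← hab, mul_assoc, hbb, mul_one]
  -- `a` and `x` do not commute
  have h1 : ¬ (a * x = x * a) := fun h => ri_lem1 hD ha hb hx hab hc hodd hne h
  have h2 : ¬ (a * b * x = x * (a * b)) := fun h =>
    ri_lem1 hD hc hb hx hcb (by rw [hca]; exact ha) hodd hne h
  rcases hD.pair a ha x hx with h | h | ⟨h4a, hz1⟩
  · exact absurd h h1
  · left
    refine ⟨h, ?_⟩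
    rintro rfl
    exact h1 rfl
  rcases hD.pair (a * b) hc x hx with h | h | ⟨h4c, hz2⟩
  · exact absurd h h2
  · right
    refine ⟨h, ?_⟩
    intro h3
    apply h2
    rw [h3]
  exfalso
  set c := a * b with hcdef
  have hcc : c * c = 1 := ri_sq hD hc
  have hca' : c * a = b := by
    rw [hab, mul_assoc, haa, mul_one]
  have hac' : a * c = b := by
    rw [hcdef, ← mul_assoc, haa, one_mul]
  have hcaY : ∀ y, c * (a * y) = b * y := fun y => by rw [← mul_assoc, hca']
  have hacY : ∀ y, a * (c * y) = b * y := fun y => by rw [← mul_assoc, hac']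
  have h4a' : (a * x) ^ 4 = 1 := by rw [← h4a]; exact pow_orderOf_eq_one _
  have h4c' : (c * x) ^ 4 = 1 := by rw [← h4c]; exact pow_orderOf_eq_one _
  have hfa := ri_four_comm' haa hxx h4a'
  have hfc := ri_four_comm' hcc hxx h4c'
  set z1 := (a * x) ^ 2 with hz1def
  set z2 := (c * x) ^ 2 with hz2def
  have hz1e : z1 = a * (x * (a * x)) := by rw [hz1def, pow_two]; simp [mul_assoc]
  have hz2e : z2 = c * (x * (c * x)) := by rw [hz2def, pow_two]; simp [mul_assoc]
  have hp : c * x * c ∈ D := ri_conj' hD hx hc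
  have hq : c * z1 * c ∈ D := ri_conj' hD hz1 hc
  have hxc : ∀ y, x * (x * y) = y := ri_cancel hxx
  have hcc' : ∀ y, c * (c * y) = y := ri_cancel hcc
  have haa' : ∀ y, a * (a * y) = y := ri_cancel haa
  have e1 : c * x * c * (c * z1 * c) = b * (x * b) := by
    rw [hz1e]
    simp only [mul_assoc, hcc']
    rw [hfa, hcaY, hac']
  have e2 : c * z1 * c * (c * x * c) = b * (x * b) := by
    rw [hz1e]
    simp only [mul_assoc, hcc', hxc]
    rw [hcaY, hac']
  refine ri_lem1 hD (p := c * x * c) (q := c * z1 * c) (r := z2) hp hq hz2 ?_ ?_ ?_ ?_ ?_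
  · -- commute
    rw [e1, e2]
  · rw [e1]
    have := ri_conj' hD hx hb
    rwa [mul_assoc] at this
  · have hq2 : c * z1 * c * z2 = (b * x) ^ 2 := by
      rw [hz1e, hz2e, pow_two]
      simp only [mul_assoc, hcaY, hcc', hxc, hacY]
    rw [hq2, Nat.Coprime.orderOf_pow (Nat.coprime_two_right.mpr hodd)]
    exact hodd
  · intro h3
    have h4 : c * z1 * c * z2 = 1 := by
      rw [h3]; exact ri_sq hD hz2
    have hq2 : c * z1 * c * z2 = (b * x) ^ 2 := by
      rw [hz1e, hz2e, pow_two]
      simp only [mul_assoc, hcaY, hcc', hxc, hacY]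
    rw [hq2] at h4
    have h5 := orderOf_dvd_of_pow_eq_one h4
    have h6 : orderOf (b * x) = 1 := by
      have hcop : Nat.Coprime (orderOf (b * x)) 2 := Nat.coprime_two_right.mpr hodd
      exact Nat.Coprime.eq_one_of_dvd hcop h5
    have h7 : b * x = 1 := orderOf_eq_one_iff.mp h6
    apply hne
    have := eq_inv_of_mul_eq_one_left h7
    rwa [ri_inv hD hx] at this
  · -- `c x c` commutes with `z2`
    rw [hz2e]
    simp only [mul_assoc, hcc', hxc]
    have h8 : x * (c * (x * (c * (x * c)))) = c * (x * (c * c)) := hfc c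
    rw [h8, hcc, mul_one]
    rw [← mul_assoc c c, hcc, one_mul]

/-- Symmetry of the odd adjacency. -/
theorem ri_odd_symm {a b : G} (h : Odd (orderOf (a * b))) : Odd (orderOf (b * a)) := by
  rw [ri_orderOf_swap]; exact h

theorem ri_adj_symm {a b : G} (h : OddAdj D a b) : OddAdj D b a :=
  ⟨h.2.1, h.1, h.2.2.1.symm, ri_odd_symm h.2.2.2⟩

theorem ri_adj_conj (hD : IsRootInvolutionSet D) {a b : G} (h : OddAdj D a b) (g : G) :
    OddAdj D (g * a * g⁻¹) (g * b * g⁻¹) := by
  refine ⟨hD.conj_mem a h.1 g, hD.conj_mem b h.2.1 g, ?_, ?_⟩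
  · intro h1
    apply h.2.2.1
    simpa using h1
  · have : g * a * g⁻¹ * (g * b * g⁻¹) = g * (a * b) * g⁻¹ := by group
    rw [this, ri_orderOf_conj]
    exact h.2.2.2

theorem ri_reach_symm {a b : G} (h : Relation.ReflTransGen (OddAdj D) a b) :
    Relation.ReflTransGen (OddAdj D) b a :=
  by
    induction h with
    | refl => exact .refl
    | tail _ hbc ih => exact Relation.ReflTransGen.head (ri_adj_symm hbc) ih

theorem ri_comp_eq {a b : G} (h : Relation.ReflTransGen (OddAdj D) a b) :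
    elemComponentOf (OddAdj D) D a = elemComponentOf (OddAdj D) D b := by
  ext c
  constructor
  · rintro ⟨hc, hac⟩
    exact ⟨hc, (ri_reach_symm h).trans hac⟩
  · rintro ⟨hc, hbc⟩
    exact ⟨hc, h.trans hbc⟩

/-- The set `W` of isolated vertices. -/
def riW (D : Set G) : Set G := {w | IsIsolatedElem (OddAdj D) D w}

theorem riW_conj (hD : IsRootInvolutionSet D) {w : G} (hw : w ∈ riW D) (g : G) :
    g * w * g⁻¹ ∈ riW D := by
  refine ⟨hD.conj_mem w hw.1 g, fun b => ⟨fun h => ?_, fun h => ?_⟩⟩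
  · have := ri_adj_conj hD h g⁻¹
    have e : g⁻¹ * (g * w * g⁻¹) * g⁻¹⁻¹ = w := by group
    rw [e] at this
    exact (hw.2 _).1 this
  · have := ri_adj_conj hD h g⁻¹
    have e : g⁻¹ * (g * w * g⁻¹) * g⁻¹⁻¹ = w := by group
    rw [e] at this
    exact (hw.2 _).2 this

theorem riW_normal (hD : IsRootInvolutionSet D) : (Subgroup.closure (riW D)).Normal := by
  constructor
  intro n hn g
  induction hn using Subgroup.closure_induction with
  | mem x hx => exact Subgroup.subset_closure (riW_conj hD hx g)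
  | one => simp
  | mul x y _ _ hx hy =>
    have : g * (x * y) * g⁻¹ = (g * x * g⁻¹) * (g * y * g⁻¹) := by group
    rw [this]; exact mul_mem hx hy
  | inv x _ hx =>
    have : g * x⁻¹ * g⁻¹ = (g * x * g⁻¹)⁻¹ := by group
    rw [this]; exact inv_mem hx

/-- An element not isolated has an odd partner. -/
theorem ri_exists_adj {b : G} (hb : b ∈ D) (h : b ∉ riW D) : ∃ x, OddAdj D b x := by
  by_contra hcon
  push Not at hcon
  apply h
  refine ⟨hb, fun c => ⟨hcon c, fun h2 => hcon c (ri_adj_symm h2)⟩⟩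

/-- Elements of a nontrivial component have an odd partner. -/
theorem ri_exists_adj_of_comp {a : G} (h : ∃ a' ∈ elemComponentOf (OddAdj D) D a, a' ≠ a) :
    ∃ y, OddAdj D a y := by
  obtain ⟨a', ⟨_, h1⟩, h2⟩ := h
  rcases Relation.ReflTransGen.cases_head h1 with h3 | ⟨c, h3, _⟩
  · exact absurd h3.symm h2
  · exact ⟨c, h3⟩

/-- `X_a ⊆ D_i ∪ W`. -/
theorem ri_partners (hD : IsRootInvolutionSet D) {a y : G} (ha : a ∈ D) (hy : OddAdj D a y) :
    productPartners D a ⊆ elemComponentOf (OddAdj D) D a ∪ riW D := by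
  rintro b ⟨⟨hb, hba, hne⟩, hbaD⟩
  by_cases hW : b ∈ riW D
  · exact Or.inr hW
  left
  refine ⟨hb, ?_⟩
  obtain ⟨x, hx⟩ := ri_exists_adj hb hW
  have hbaD' : a * b ∈ D := by rw [← hba]; exact hbaD
  have e1 := ri_lem3 hD ha hb hx.2.1 hba.symm hbaD' hx.2.2.2 hx.2.2.1
  have e2 := ri_lem3 hD hb ha hy.2.1 hba hbaD hy.2.2.2 hy.2.2.1
  have hxD := hx.2.1
  have hyD := hy.2.1
  have hxb : OddAdj D x b := ri_adj_symm hx
  rcases e1 with ⟨o1, n1⟩ | ⟨o1, n1⟩
  · have : OddAdj D a x := ⟨ha, hxD, n1, o1⟩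
    exact (Relation.ReflTransGen.single this).trans (Relation.ReflTransGen.single hxb)
  rcases e2 with ⟨o2, n2⟩ | ⟨o2, n2⟩
  · have h1 : OddAdj D b y := ⟨hb, hyD, n2, o2⟩
    exact (Relation.ReflTransGen.single hy).trans (Relation.ReflTransGen.single (ri_adj_symm h1))
  rw [hba] at o2 n2
  have h3 : OddAdj D (a * b) x := ⟨hbaD', hxD, n1, o1⟩
  have h4 : OddAdj D (a * b) y := ⟨hbaD', hyD, n2, o2⟩
  exact ((Relation.ReflTransGen.single hy).trans (Relation.ReflTransGen.single (ri_adj_symm h4))).trans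
    ((Relation.ReflTransGen.single h3).trans (Relation.ReflTransGen.single hxb))

/-- Facts about the square of a product of order four. -/
theorem ri_four_partner (hD : IsRootInvolutionSet D) {a b : G} (ha : a ∈ D) (hb : b ∈ D)
    (h4 : orderOf (a * b) = 4) (hz : (a * b) ^ 2 ∈ D) : (a * b) ^ 2 ∈ productPartners D a := by
  have haa := ri_sq hD ha
  have hbb := ri_sq hD hb
  have h4' : (b * a) ^ 4 = 1 := by
    have : orderOf (b * a) = 4 := by rw [ri_orderOf_swap]; exact h4
    rw [← this]; exact pow_orderOf_eq_one _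
  have hz' : (a * b) ^ 2 = a * (b * (a * b)) := by rw [pow_two]; simp [mul_assoc]
  have hc : a * (b * (a * (b * a))) = b * (a * b) := ri_four_comm hbb haa h4'
  have hca' : ∀ y, a * (a * y) = y := ri_cancel haa
  have e1 : (a * b) ^ 2 * a = a * (a * b) ^ 2 := by
    rw [hz']
    simp only [mul_assoc, hca']
    exact hc
  refine ⟨⟨hz, e1, ?_⟩, ?_⟩
  · intro h5
    rw [h5] at e1
    -- `z = a` gives `b a b = 1`
    rw [hz'] at h5
    have h6 : b * (a * b) = 1 := by
      have := congrArg (a * ·) h5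
      simpa [hca', haa] using this
    have h7 : a = 1 := by
      have h8 : b * (b * (a * b)) * b = 1 := by
        rw [h6, mul_one, hbb]
      simpa [mul_assoc, hbb, ri_cancel hbb] using h8
    exact ri_ne_one hD ha h7
  · rw [hz']
    have := hD.conj_mem a ha (a * b)
    have e : a * b * a * (a * b)⁻¹ = a * (b * (a * (b * a))) := by
      rw [mul_inv_rev, ri_inv hD ha, ri_inv hD hb]
      simp only [mul_assoc]
    rw [e] at this
    simp only [mul_assoc]
    exact this

end root

end Cfsg.Agent.Lib.Root
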