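import Mathlib
import Cfsg.Agent.Lib.Root.RankOne

/-!
Abstract root subgroups: first consequences of the three cases.
-/

set_option autoImplicit false

namespace Cfsg.Agent.Lib.Root

open Cfsg

variable {G : Type*} [Group G]

lemma mem_normalizer_of_commute {E : Subgroup G} {z : G} (h : ∀ x ∈ E, z * x = x * z) :
    z ∈ Subgroup.normalizer (E : Set G) := by
  rw [Subgroup.mem_normalizer_iff]
  intro y
  constructor
  · intro hy
    rw [h y hy]
    simpa using hy
  · intro hy
    have hw := h _ hy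
    have h1 : y = z⁻¹ * ((z * y * z⁻¹) * z) := by group
    rw [h1, ← hw]
    simpa using hy

/-- Conjugates in the kernel. -/
def kernelOn (C D : Subgroup G) : Subgroup G where
  carrier := {y | y ∈ C ⊔ D ∧ ∀ E ∈ unipotentSubgroups C D, conjBy E y = E}
  one_mem' := ⟨Subgroup.one_mem _, fun E _ => conjBy_one E⟩
  mul_mem' := by
    rintro a b ⟨ha, ha'⟩ ⟨hb, hb'⟩
    exact ⟨Subgroup.mul_mem _ ha hb, fun E hE => by rw [conjBy_mul, hb' E hE, ha' E hE]⟩
  inv_mem' := by
    rintro a ⟨ha, ha'⟩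
    refine ⟨Subgroup.inv_mem _ ha, fun E hE => ?_⟩
    have := conjBy_inv_conjBy E a
    rwa [ha' E hE] at this

lemma mem_kernelOn {C D : Subgroup G} {y : G} :
    y ∈ kernelOn C D ↔ y ∈ C ⊔ D ∧ ∀ E ∈ unipotentSubgroups C D, conjBy E y = E := Iff.rfl

lemma le_sup_of_mem_unipotent {C D E : Subgroup G} (hE : E ∈ unipotentSubgroups C D) : E ≤ C ⊔ D := by
  obtain ⟨x, hx, rfl⟩ := hE
  have := conjBy_le (le_sup_left : C ≤ C ⊔ D) x
  rwa [conjBy_eq_self_of_mem hx] at this

/-- Elements of the kernel are central. -/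
lemma kernelOn_commute {C D : Subgroup G} (h : IsRankOnePair C D) {k : G} (hk : k ∈ kernelOn C D)
    {x : G} (hx : x ∈ C ⊔ D) : k * x = x * k := by
  have hnorm : ∀ y ∈ C ⊔ D, y ∈ Subgroup.normalizer ((kernelOn C D : Subgroup G) : Set G) := by
    intro y hy
    have hconj : ∀ y ∈ C ⊔ D, ∀ k ∈ kernelOn C D, y * k * y⁻¹ ∈ kernelOn C D := by
      rintro y hy k ⟨hk, hk'⟩
      refine ⟨Subgroup.mul_mem _ (Subgroup.mul_mem _ hy hk) (Subgroup.inv_mem _ hy), fun E hE => ?_⟩
      have hE' := conj_mem_unipotent hE (Subgroup.inv_mem _ hy)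
      rw [conjBy_mul, conjBy_mul, hk' _ hE', conjBy_conjBy_inv]
    rw [Subgroup.mem_normalizer_iff]
    intro k
    constructor
    · exact hconj y hy k
    · intro hk2
      have := hconj y⁻¹ (Subgroup.inv_mem _ hy) _ hk2
      simpa [mul_assoc] using this
  exact h.commute_of_mem_of_normalizes
    (fun z hz => mem_normalizer_of_conj_le ((mem_kernelOn.mp hz).2 C left_mem_unipotent))
    (fun z hz => mem_normalizer_of_conj_le ((mem_kernelOn.mp hz).2 D h.right_mem_unipotent))
    (fun y hy => hnorm y ((le_sup_left : C ≤ C ⊔ D) hy))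
    (fun y hy => hnorm y ((le_sup_right : D ≤ C ⊔ D) hy)) hk hx

/-- If `y ∈ ⟨C,D⟩` and all `y x y⁻¹ x⁻¹` (`x ∈ E`) lie in a subgroup centralizing `E`, `y`
normalizes `E`. -/
lemma conjBy_eq_of_commutators {C D E F : Subgroup G} (h : IsRankOnePair C D)
    (hE : E ∈ unipotentSubgroups C D) {y : G} (hy : y ∈ C ⊔ D)
    (hF : ∀ c ∈ F, ∀ x ∈ E, c * x = x * c) (hc : ∀ x ∈ E, y * x * y⁻¹ * x⁻¹ ∈ F) :
    conjBy E y = E := by
  apply h.conjBy_eq_of_le_normalizer hE hy
  intro x hx
  have h1 : y * x * y⁻¹ = (y * x * y⁻¹ * x⁻¹) * x := by group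
  rw [h1]
  exact Subgroup.mul_mem _ (mem_normalizer_of_commute (hF _ (hc x hx))) (Subgroup.le_normalizer hx)

/-- The non-rank-one cases force normalizing. -/
lemma conjBy_eq_of_not_rankOne {S : Set (Subgroup G)} {C D E P : Subgroup G}
    (h : IsRankOnePair C D) (hE : E ∈ unipotentSubgroups C D) {y : G} (hy : y ∈ C ⊔ D) (hyP : y ∈ P)
    (hcase : ⁅P, E⁆ = ⊥ ∨ RootCommutatorCase S P E) : conjBy E y = E := by
  rcases hcase with h0 | h0
  · apply conjBy_eq_of_commutators h hE hy (F := ⊥)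
    · intro c hc x _
      rw [Subgroup.mem_bot.mp hc]
      simp
    · intro x hx
      rw [← h0]
      exact Subgroup.commutator_mem_commutator hyP hx
  · apply conjBy_eq_of_commutators h hE hy (F := ⁅P, E⁆)
    · intro c hc x hx
      exact h0.2.1 c hc x ((le_sup_right : E ≤ P ⊔ E) hx)
    · intro x hx
      exact Subgroup.commutator_mem_commutator hyP hx

section
variable {S : Set (Subgroup G)}

lemma mem_of_mem_unipotent (hS : IsRootSubgroupSet S) {C D E : Subgroup G} (hC : C ∈ S)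
    (hE : E ∈ unipotentSubgroups C D) : E ∈ S := by
  obtain ⟨x, -, rfl⟩ := hE
  exact hS.conj_mem C hC x

/-- A member of `S` in a rank one group: either a conjugate, or in the kernel. -/
lemma mem_unipotent_or_kernel (hS : IsRootSubgroupSet S) {C D P : Subgroup G} (hC : C ∈ S)
    (h : IsRankOnePair C D) (hP : P ∈ S) (hle : P ≤ C ⊔ D) :
    P ∈ unipotentSubgroups C D ∨ P ≤ kernelOn C D := by
  by_cases hPm : P ∈ unipotentSubgroups C D
  · exact Or.inl hPm
  · right
    intro y hy
    refine ⟨hle hy, fun E hE => ?_⟩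
    have hES := mem_of_mem_unipotent hS hC hE
    rcases hS.pair P hP E hES with h0 | h0 | h0
    · exact conjBy_eq_of_not_rankOne (S := S) h hE (hle hy) hy (Or.inl h0)
    · by_cases hy1 : y = 1
      · rw [hy1, conjBy_one]
      · exfalso
        apply hPm
        obtain ⟨e, he, -, hee⟩ := h0.cond_left y hy hy1
        have h1 : conjBy E y⁻¹ ∈ unipotentSubgroups C D :=
          conj_mem_unipotent hE (Subgroup.inv_mem _ (hle hy))
        rw [← hee] at h1
        have h2 := conj_mem_unipotent h1 (x := e) (le_sup_of_mem_unipotent hE he)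
        rwa [conjBy_conjBy_inv] at h2
    · exact conjBy_eq_of_not_rankOne h hE (hle hy) hy (Or.inr h0)

/-- A rank one partner of a non-trivial subgroup cannot centralize... The key of 5028. -/
lemma eq_of_not_isolated (hS : IsRootSubgroupSet S) {A D B : Subgroup G} (hAD : IsRankOnePair A D)
    (hD : D ∈ S) (hB : B ∈ S) {d : G} (hdA : d ∈ A) (hdB : d ∈ B) (hd1 : d ≠ 1) : A = B := by
  by_contra hne
  rcases hS.pair B hB D hD with h0 | h0 | h0
  · apply hd1
    apply hAD.eq_one_of_mem_normalizer hdA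
    apply mem_normalizer_of_conj_le
    exact conjBy_eq_of_not_rankOne (S := S) hAD hAD.right_mem_unipotent
      ((le_sup_left : A ≤ A ⊔ D) hdA) hdB (Or.inl h0)
  · obtain ⟨u, hu, rfl⟩ := exists_conj_of_rankOne hAD h0 hdA hd1 hdB hd1 rfl
    have hmem : conjBy A u ∈ unipotentSubgroups A D :=
      conj_mem_unipotent left_mem_unipotent ((le_sup_right : D ≤ A ⊔ D) hu)
    have hp := (hAD.of_mem_unipotent left_mem_unipotent hmem hne).1
    exact hd1 (hp.eq_one_of_mem_normalizer hdA (Subgroup.le_normalizer hdB))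
  · apply hd1
    apply hAD.eq_one_of_mem_normalizer hdA
    apply mem_normalizer_of_conj_le
    exact conjBy_eq_of_not_rankOne hAD hAD.right_mem_unipotent
      ((le_sup_left : A ≤ A ⊔ D) hdA) hdB (Or.inr h0)

/-- 5025. -/
lemma not_mem_rootElements (hS : IsRootSubgroupSet S) {A B : Subgroup G} (hB : B ∈ S)
    (hAB : IsRankOnePair A B) {z : G}
    (hz : z ∈ Subgroup.centralizer ((A ⊔ B : Subgroup G) : Set G)) (hz1 : z ≠ 1) :
    ∀ a ∈ A, a ≠ 1 → z * a ∉ rootElements S := by
  rintro a ha ha1 ⟨hc1, C, hC, hc⟩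
  have hzc : ∀ x ∈ A ⊔ B, z * x = x * z := fun x hx =>
    (Subgroup.mem_centralizer_iff.mp hz x hx).symm
  set c := z * a with hcdef
  have hcomm : ∀ x ∈ B, c * x * c⁻¹ * x⁻¹ = a * x * a⁻¹ * x⁻¹ := by
    intro x hx
    have h1 := hzc x ((le_sup_right : B ≤ A ⊔ B) hx)
    have h2 : z * (a * x * a⁻¹) = (a * x * a⁻¹) * z := by
      apply hzc
      exact Subgroup.mul_mem _ (Subgroup.mul_mem _ ((le_sup_left : A ≤ A ⊔ B) ha)
        ((le_sup_right : B ≤ A ⊔ B) hx)) (Subgroup.inv_mem _ ((le_sup_left : A ≤ A ⊔ B) ha))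
    calc c * x * c⁻¹ * x⁻¹ = (z * (a * x * a⁻¹)) * z⁻¹ * x⁻¹ := by rw [hcdef]; group
      _ = a * x * a⁻¹ * x⁻¹ := by rw [h2]; group
  have hcase : ∀ F : Subgroup G, (∀ c' ∈ F, ∀ x ∈ B, c' * x = x * c') →
      (∀ x ∈ B, c * x * c⁻¹ * x⁻¹ ∈ F) → False := by
    intro F hF hcF
    apply ha1
    apply hAB.eq_one_of_mem_normalizer ha
    apply mem_normalizer_of_conj_le
    apply conjBy_eq_of_commutators hAB hAB.right_mem_unipotent ((le_sup_left : A ≤ A ⊔ B) ha) hF
    intro x hx
    rw [← hcomm x hx]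
    exact hcF x hx
  rcases hS.pair C hC B hB with h0 | h0 | h0
  · refine hcase ⊥ ?_ ?_
    · intro c' hc' x _
      rw [Subgroup.mem_bot.mp hc']
      simp
    · intro x hx
      rw [← h0]
      exact Subgroup.commutator_mem_commutator hc hx
  · -- rank one
    have he : conjBy B a⁻¹ = conjBy B c⁻¹ := by
      have h1 : c⁻¹ = a⁻¹ * z⁻¹ := by rw [hcdef]; group
      have h2 : conjBy B z⁻¹ = B := by
        apply mem_normalizer_iff_conjBy.mp
        apply Subgroup.inv_mem
        exact mem_normalizer_of_commute (fun x hx => hzc x ((le_sup_right : B ≤ A ⊔ B) hx))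
      rw [h1, conjBy_mul, h2]
    obtain ⟨u, hu, rfl⟩ := exists_conj_of_rankOne hAB h0 ha ha1 hc hc1 he
    have hmem : conjBy A u ∈ unipotentSubgroups A B :=
      conj_mem_unipotent left_mem_unipotent ((le_sup_right : B ≤ A ⊔ B) hu)
    have hle := le_sup_of_mem_unipotent hmem
    have han : a ∈ Subgroup.normalizer ((conjBy A u : Subgroup G) : Set G) := by
      have h1 : a = z⁻¹ * c := by rw [hcdef]; group
      rw [h1]
      refine Subgroup.mul_mem _ (Subgroup.inv_mem _ ?_) (Subgroup.le_normalizer hc)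
      exact mem_normalizer_of_commute (fun x hx => hzc x (hle hx))
    have hCA := hAB.eq_left_of_normalizes hmem ha ha1 han
    rw [hCA] at hc
    have hzA : z ∈ A := by
      have h1 : z = c * a⁻¹ := by rw [hcdef]; group
      rw [h1]
      exact A.mul_mem hc (A.inv_mem ha)
    apply hz1
    apply hAB.eq_one_of_mem_normalizer hzA
    exact mem_normalizer_of_commute (fun x hx => hzc x ((le_sup_right : B ≤ A ⊔ B) hx))
  · refine hcase ⁅C, B⁆ ?_ ?_
    · intro c' hc' x hx
      exact h0.2.1 c' hc' x ((le_sup_right : B ≤ C ⊔ B) hx)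
    · intro x hx
      exact Subgroup.commutator_mem_commutator hc hx

/-- A non isolated member has a rank one partner. -/
lemma exists_partner {A : Subgroup G} (hA : ¬ IsIsolatedIn (FAdj S) S A) (hAS : A ∈ S) :
    ∃ D ∈ S, IsRankOnePair A D := by
  by_contra hcon
  push Not at hcon
  apply hA
  refine ⟨hAS, fun B => ⟨?_, ?_⟩⟩
  · rintro ⟨-, hB, hp⟩
    exact hcon B hB hp
  · rintro ⟨hB, -, hp⟩
    exact hcon B hB hp.symm

end

end Cfsg.Agent.Lib.Root
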