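import Mathlib
import Cfsg.Agent.Lib.Root.Sigma

/-!
Abstract root subgroups: the commutator case.
-/

set_option autoImplicit false

namespace Cfsg.Agent.Lib.Root

open Cfsg
open scoped commutatorElement

variable {G : Type*} [Group G] {S : Set (Subgroup G)}

lemma cm_mem {A B : Subgroup G} {a b : G} (ha : a ∈ A) (hb : b ∈ B) :
    a * b * a⁻¹ * b⁻¹ ∈ ⁅A, B⁆ :=
  Subgroup.commutator_mem_commutator ha hb

/-- Conjugates stay in the commutator of two subgroups. -/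
lemma commutator_conj_left {A B : Subgroup G} {a c : G} (ha : a ∈ A) (hc : c ∈ ⁅A, B⁆) :
    a * c * a⁻¹ ∈ ⁅A, B⁆ := by
  rw [Subgroup.commutator_def] at hc ⊢
  induction hc using Subgroup.closure_induction with
  | mem x hx =>
    obtain ⟨a', ha', b', hb', rfl⟩ := hx
    have e : a * ⁅a', b'⁆ * a⁻¹ = ⁅a * a', b'⁆ * ⁅a, b'⁆⁻¹ := by
      simp only [commutatorElement_def]; group
    rw [e]
    refine Subgroup.mul_mem _ (Subgroup.subset_closure ⟨_, A.mul_mem ha ha', _, hb', rfl⟩)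
      (Subgroup.inv_mem _ (Subgroup.subset_closure ⟨_, ha, _, hb', rfl⟩))
  | one => simp
  | mul x y _ _ hx hy =>
    have : a * (x * y) * a⁻¹ = (a * x * a⁻¹) * (a * y * a⁻¹) := by group
    rw [this]; exact Subgroup.mul_mem _ hx hy
  | inv x _ hx =>
    have : a * x⁻¹ * a⁻¹ = (a * x * a⁻¹)⁻¹ := by group
    rw [this]; exact Subgroup.inv_mem _ hx

lemma commutator_conj_right {A B : Subgroup G} {b c : G} (hb : b ∈ B) (hc : c ∈ ⁅A, B⁆) :
    b * c * b⁻¹ ∈ ⁅A, B⁆ := by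
  rw [Subgroup.commutator_comm] at hc ⊢
  exact commutator_conj_left hb hc

lemma sup_le_normalizer_commutator (A B : Subgroup G) :
    A ⊔ B ≤ Subgroup.normalizer ((⁅A, B⁆ : Subgroup G) : Set G) := by
  have key : ∀ x : G, (∀ c ∈ ⁅A, B⁆, x * c * x⁻¹ ∈ ⁅A, B⁆) → (∀ c ∈ ⁅A, B⁆, x⁻¹ * c * x⁻¹⁻¹ ∈ ⁅A, B⁆) →
      x ∈ Subgroup.normalizer ((⁅A, B⁆ : Subgroup G) : Set G) := by
    intro x h1 h2
    rw [Subgroup.mem_normalizer_iff]
    intro c
    constructor
    · exact h1 c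
    · intro hc
      have := h2 _ hc
      simpa [mul_assoc] using this
  apply sup_le
  · intro a ha
    exact key a (fun c hc => commutator_conj_left ha hc)
      (fun c hc => commutator_conj_left (A.inv_mem ha) hc)
  · intro b hb
    exact key b (fun c hc => commutator_conj_right hb hc)
      (fun c hc => commutator_conj_right (B.inv_mem hb) hc)

lemma commutator_le_sup (A B : Subgroup G) : ⁅A, B⁆ ≤ A ⊔ B := by
  rw [Subgroup.commutator_le]
  intro a ha b hb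
  rw [commutatorElement_def]
  have ha' : a ∈ A ⊔ B := (le_sup_left : A ≤ A ⊔ B) ha
  have hb' : b ∈ A ⊔ B := (le_sup_right : B ≤ A ⊔ B) hb
  exact Subgroup.mul_mem _ (Subgroup.mul_mem _ (Subgroup.mul_mem _ ha' hb') (Subgroup.inv_mem _ ha'))
    (Subgroup.inv_mem _ hb')

/-- A rank one pair does not commute. -/
lemma _root_.Cfsg.IsRankOnePair.commutator_ne_bot {A B : Subgroup G} (h : IsRankOnePair A B) :
    ⁅A, B⁆ ≠ ⊥ := by
  intro h0
  obtain ⟨a, ha, ha1⟩ := h.exists_ne_one_left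
  apply ha1
  apply h.eq_one_of_mem_normalizer ha
  apply mem_normalizer_of_commute
  intro x hx
  have : a * x * a⁻¹ * x⁻¹ ∈ ⁅A, B⁆ := cm_mem ha hx
  rw [h0, Subgroup.mem_bot] at this
  have h2 : a * x * a⁻¹ = x := mul_inv_eq_one.mp this
  exact mul_inv_eq_iff_eq_mul.mp h2

lemma comm_of_mem_of_S (hS : IsRootSubgroupSet S) {A : Subgroup G} (hA : A ∈ S) {x y : G}
    (hx : x ∈ A) (hy : y ∈ A) : x * y = y * x := by
  have := (hS.commutative A hA).is_comm.comm ⟨x, hx⟩ ⟨y, hy⟩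
  exact congrArg Subtype.val this

/-- The commutator of a rank one pair of members is not a member. -/
lemma commutator_notMem_of_rankOne (hS : IsRootSubgroupSet S) {A B : Subgroup G} (hA : A ∈ S)
    (hB : B ∈ S) (h : IsRankOnePair A B) : ⁅A, B⁆ ∉ S := by
  intro hC
  rcases mem_unipotent_or_kernel hS hA h hC (commutator_le_sup A B) with hu | hk
  · obtain ⟨x, hx, hxe⟩ := hu
    -- `A` would be normal in `⟨A, B⟩`
    obtain ⟨b, hb, hb1⟩ := h.exists_ne_one_right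
    apply hb1
    apply h.eq_one_of_mem_normalizer' hb
    have h1 : x * b * x⁻¹ ∈ Subgroup.normalizer ((⁅A, B⁆ : Subgroup G) : Set G) := by
      apply sup_le_normalizer_commutator A B
      exact Subgroup.mul_mem _ (Subgroup.mul_mem _ hx
        ((le_sup_right : B ≤ A ⊔ B) hb)) (Subgroup.inv_mem _ hx)
    rw [hxe, mem_normalizer_iff_conjBy, ← conjBy_mul] at h1
    have e : x * b * x⁻¹ * x = x * b := by group
    rw [e, conjBy_mul] at h1
    rw [mem_normalizer_iff_conjBy]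
    exact conjBy_injective x h1
  · obtain ⟨a, ha, ha1⟩ := h.exists_ne_one_left
    obtain ⟨b, hb, hb1⟩ := h.exists_ne_one_right
    apply ha1
    -- `b⁻¹ a b = a w` with `w` central in `⟨A, B⟩`
    obtain ⟨a', ha', -, hc⟩ := h.cond_right b hb hb1
    set w := a⁻¹ * b⁻¹ * a * b with hw
    have hwC : w ∈ ⁅A, B⁆ := by
      have := cm_mem (A.inv_mem ha) (B.inv_mem hb)
      simpa [hw] using this
    have hwc := fun x hx => kernelOn_commute h (hk hwC) (x := x) hx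
    have hy : b⁻¹ * a * b ∈ conjBy A b⁻¹ := by
      rw [mem_conjBy]
      simpa [mul_assoc] using ha
    rw [← hc, mem_conjBy] at hy
    have hya : b⁻¹ * a * b = a * w := by
      rw [hw]; group
    have hy2 : b⁻¹ * a * b ∈ B := by
      have h3 : a'⁻¹⁻¹ * (b⁻¹ * a * b) * a'⁻¹ = b⁻¹ * a * b := by
        rw [inv_inv, hya]
        have h4 : a' * a = a * a' := comm_of_mem_of_S hS hA ha' ha
        have h5 := hwc a' ((le_sup_left : A ≤ A ⊔ B) ha')
        calc a' * (a * w) * a'⁻¹ = (a' * a) * w * a'⁻¹ := by group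
          _ = a * (a' * w) * a'⁻¹ := by rw [h4]; group
          _ = a * (w * a') * a'⁻¹ := by rw [h5]
          _ = a * w := by group
      rwa [h3] at hy
    have haB : a ∈ B := by
      have h3 := B.mul_mem (B.mul_mem hb hy2) (B.inv_mem hb)
      have e : b * (b⁻¹ * a * b) * b⁻¹ = a := by group
      rwa [e] at h3
    apply h.eq_one_of_mem_normalizer ha
    apply mem_normalizer_of_commute
    intro x hx
    exact comm_of_mem_of_S hS hB haB hx

/-- The commutator being a member forces the commutator case. -/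
lemma commCase_of_mem (hS : IsRootSubgroupSet S) {A B : Subgroup G} (hA : A ∈ S)
    (hB : B ∈ S) (hC : ⁅A, B⁆ ∈ S) : RootCommutatorCase S A B := by
  rcases hS.pair A hA B hB with h0 | h0 | h0
  · exact absurd h0 (hS.ne_bot _ hC)
  · exact absurd hC (commutator_notMem_of_rankOne hS hA hB h0)
  · exact h0

section CommCase

variable {A B : Subgroup G}

lemma _root_.Cfsg.RootCommutatorCase.symm (hc : RootCommutatorCase S A B) :
    RootCommutatorCase S B A := by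
  obtain ⟨h1, h2, h3, h4⟩ := hc
  have hcomm : ⁅B, A⁆ = ⁅A, B⁆ := Subgroup.commutator_comm B A
  refine ⟨hcomm ▸ h1, ?_, ?_, ?_⟩
  · intro c hc x hx
    rw [hcomm] at hc
    rw [sup_comm] at hx
    exact h2 c hc x hx
  · intro b hb hb1
    rw [hcomm, ← h4 b hb hb1]
    apply le_antisymm
    · rw [Subgroup.closure_le]
      rintro _ ⟨a, ha, rfl⟩
      have : b * a * b⁻¹ * a⁻¹ = (a * b * a⁻¹ * b⁻¹)⁻¹ := by group
      simp only []
      rw [this]
      exact Subgroup.inv_mem _ (Subgroup.subset_closure ⟨a, ha, rfl⟩)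
    · rw [Subgroup.closure_le]
      rintro _ ⟨a, ha, rfl⟩
      have : a * b * a⁻¹ * b⁻¹ = (b * a * b⁻¹ * a⁻¹)⁻¹ := by group
      simp only []
      rw [this]
      exact Subgroup.inv_mem _ (Subgroup.subset_closure ⟨a, ha, rfl⟩)
  · intro a ha ha1
    rw [hcomm, ← h3 a ha ha1]
    apply le_antisymm
    · rw [Subgroup.closure_le]
      rintro _ ⟨b, hb, rfl⟩
      have : b * a * b⁻¹ * a⁻¹ = (a * b * a⁻¹ * b⁻¹)⁻¹ := by group
      simp only []
      rw [this]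
      exact Subgroup.inv_mem _ (Subgroup.subset_closure ⟨b, hb, rfl⟩)
    · rw [Subgroup.closure_le]
      rintro _ ⟨b, hb, rfl⟩
      have : a * b * a⁻¹ * b⁻¹ = (b * a * b⁻¹ * a⁻¹)⁻¹ := by group
      simp only []
      rw [this]
      exact Subgroup.inv_mem _ (Subgroup.subset_closure ⟨b, hb, rfl⟩)

/-- `c` in the commutator is central in `⟨A,B⟩`: in the form for `A`. -/
lemma _root_.Cfsg.RootCommutatorCase.comm_left (hc : RootCommutatorCase S A B) {c x : G}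
    (hcc : c ∈ ⁅A, B⁆) (hx : x ∈ A) : c * x = x * c :=
  hc.2.1 c hcc x ((le_sup_left : A ≤ A ⊔ B) hx)

lemma _root_.Cfsg.RootCommutatorCase.comm_right (hc : RootCommutatorCase S A B) {c x : G}
    (hcc : c ∈ ⁅A, B⁆) (hx : x ∈ B) : c * x = x * c :=
  hc.2.1 c hcc x ((le_sup_right : B ≤ A ⊔ B) hx)

lemma _root_.Cfsg.RootCommutatorCase.cm_mul_right (hc : RootCommutatorCase S A B) {a b b' : G}
    (ha : a ∈ A) (hb' : b' ∈ B) (hb : b ∈ B) :
    a * (b * b') * a⁻¹ * (b * b')⁻¹ = (a * b * a⁻¹ * b⁻¹) * (a * b' * a⁻¹ * b'⁻¹) := by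
  have h1 := hc.comm_right (cm_mem ha hb') (B.inv_mem hb)
  have e1 : a * (b * b') * a⁻¹ * (b * b')⁻¹ = a * b * a⁻¹ * ((a * b' * a⁻¹ * b'⁻¹) * b⁻¹) := by group
  rw [e1, h1]
  group

lemma _root_.Cfsg.RootCommutatorCase.cm_mul_left (hc : RootCommutatorCase S A B) {a a' b : G}
    (ha : a ∈ A) (ha' : a' ∈ A) (hb : b ∈ B) :
    (a * a') * b * (a * a')⁻¹ * b⁻¹ = (a * b * a⁻¹ * b⁻¹) * (a' * b * a'⁻¹ * b⁻¹) := by
  have h1 := hc.comm_left (cm_mem ha' hb) ha
  have h2 := hc.2.1 _ (cm_mem ha' hb) _ (commutator_le_sup A B (cm_mem ha hb))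
  have e1 : (a * a') * b * (a * a')⁻¹ * b⁻¹ = a * (a' * b * a'⁻¹ * b⁻¹) * b * a⁻¹ * b⁻¹ := by group
  rw [e1, ← h1]
  rw [← h2]
  group

/-- The commutators of a fixed non-identity `a` with `B` exhaust the commutator. -/
lemma _root_.Cfsg.RootCommutatorCase.surj_right (hc : RootCommutatorCase S A B) {a c : G}
    (ha : a ∈ A) (ha1 : a ≠ 1) (hcc : c ∈ ⁅A, B⁆) : ∃ b ∈ B, a * b * a⁻¹ * b⁻¹ = c := by
  rw [← hc.2.2.1 a ha ha1] at hcc
  induction hcc using Subgroup.closure_induction with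
  | mem x hx => exact hx
  | one => exact ⟨1, B.one_mem, by simp⟩
  | mul x y hx hy ihx ihy =>
    obtain ⟨b, hb, rfl⟩ := ihx
    obtain ⟨b', hb', rfl⟩ := ihy
    exact ⟨b * b', B.mul_mem hb hb', hc.cm_mul_right ha hb' hb⟩
  | inv x hx ihx =>
    obtain ⟨b, hb, rfl⟩ := ihx
    refine ⟨b⁻¹, B.inv_mem hb, ?_⟩
    have h1 := hc.cm_mul_right ha (B.inv_mem hb) hb
    have h2 : a * (b * b⁻¹) * a⁻¹ * (b * b⁻¹)⁻¹ = 1 := by group
    rw [h2] at h1
    exact (eq_inv_of_mul_eq_one_right h1.symm)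

lemma _root_.Cfsg.RootCommutatorCase.surj_left (hc : RootCommutatorCase S A B) {b c : G}
    (hb : b ∈ B) (hb1 : b ≠ 1) (hcc : c ∈ ⁅A, B⁆) : ∃ a ∈ A, a * b * a⁻¹ * b⁻¹ = c := by
  rw [← hc.2.2.2 b hb hb1] at hcc
  induction hcc using Subgroup.closure_induction with
  | mem x hx => exact hx
  | one => exact ⟨1, A.one_mem, by simp⟩
  | mul x y hx hy ihx ihy =>
    obtain ⟨a, ha, rfl⟩ := ihx
    obtain ⟨a', ha', rfl⟩ := ihy
    exact ⟨a * a', A.mul_mem ha ha', hc.cm_mul_left ha ha' hb⟩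
  | inv x hx ihx =>
    obtain ⟨a, ha, rfl⟩ := ihx
    refine ⟨a⁻¹, A.inv_mem ha, ?_⟩
    have h1 := hc.cm_mul_left ha (A.inv_mem ha) hb
    have h2 : (a * a⁻¹) * b * (a * a⁻¹)⁻¹ * b⁻¹ = 1 := by group
    rw [h2] at h1
    exact (eq_inv_of_mul_eq_one_right h1.symm)

lemma mem_sup_of_commute {A C : Subgroup G} (h : ∀ a ∈ A, ∀ c ∈ C, a * c = c * a) {x : G}
    (hx : x ∈ A ⊔ C) : ∃ a ∈ A, ∃ c ∈ C, x = a * c := by
  rw [Subgroup.sup_eq_closure] at hx
  induction hx using Subgroup.closure_induction with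
  | mem x hx =>
    rcases hx with hx | hx
    · exact ⟨x, hx, 1, C.one_mem, by simp⟩
    · exact ⟨1, A.one_mem, x, hx, by simp⟩
  | one => exact ⟨1, A.one_mem, 1, C.one_mem, by simp⟩
  | mul x y _ _ ihx ihy =>
    obtain ⟨a, ha, c, hc, rfl⟩ := ihx
    obtain ⟨a', ha', c', hc', rfl⟩ := ihy
    refine ⟨a * a', A.mul_mem ha ha', c * c', C.mul_mem hc hc', ?_⟩
    calc a * c * (a' * c') = a * (c * a') * c' := by group
      _ = a * (a' * c) * c' := by rw [h a' ha' c hc]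
      _ = a * a' * (c * c') := by group
  | inv x _ ihx =>
    obtain ⟨a, ha, c, hc, rfl⟩ := ihx
    refine ⟨a⁻¹, A.inv_mem ha, c⁻¹, C.inv_mem hc, ?_⟩
    have h1 : a⁻¹ * c⁻¹ = c⁻¹ * a⁻¹ := h _ (A.inv_mem ha) _ (C.inv_mem hc)
    rw [mul_inv_rev, h1]

section NonIsolated

variable {A B D : Subgroup G}

/-- `A` meets the commutator trivially. -/
lemma inf_commutator_eq_bot (hS : IsRootSubgroupSet S) (hc : RootCommutatorCase S A B)
    (hAD : IsRankOnePair A D) (hD : D ∈ S) : A ⊓ ⁅A, B⁆ = ⊥ := by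
  rw [eq_bot_iff]
  rintro y ⟨hy1, hy2⟩
  rw [Subgroup.mem_bot]
  by_contra hy
  have hEq : A = ⁅A, B⁆ := eq_of_not_isolated hS hAD hD hc.1 hy1 hy2 hy
  apply hS.ne_bot _ hc.1
  rw [eq_bot_iff, Subgroup.commutator_le]
  intro a ha b hb
  have ha' : a ∈ ⁅A, B⁆ := hEq ▸ ha
  have := hc.comm_right ha' hb
  rw [Subgroup.mem_bot, commutatorElement_eq_one_iff_mul_comm]
  exact this

lemma ne_commutator (hS : IsRootSubgroupSet S) (hc : RootCommutatorCase S A B)
    (hAD : IsRankOnePair A D) (hD : D ∈ S) : A ≠ ⁅A, B⁆ := by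
  intro h
  have h0 := inf_commutator_eq_bot hS hc hAD hD
  rw [← h, inf_idem] at h0
  exact hAD.ne_bot_left h0

/-- A non-identity element of `B` moves `A`. -/
lemma conjBy_ne_of_ne_one (hS : IsRootSubgroupSet S) (hc : RootCommutatorCase S A B)
    (hAD : IsRankOnePair A D) (hD : D ∈ S) {b : G} (hb : b ∈ B) (hb1 : b ≠ 1) : conjBy A b ≠ A := by
  intro he
  have hinf := inf_commutator_eq_bot hS hc hAD hD
  have hall : ∀ x ∈ A, x * b * x⁻¹ * b⁻¹ = 1 := by
    intro x hx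
    have h1 : b * x * b⁻¹ ∈ A := by
      have := conj_mem_conjBy (g := b) hx
      rwa [he] at this
    have h2 : x * b * x⁻¹ * b⁻¹ ∈ A := by
      have e : x * b * x⁻¹ * b⁻¹ = x * (b * x * b⁻¹)⁻¹ := by group
      rw [e]
      exact A.mul_mem hx (A.inv_mem h1)
    have h3 : x * b * x⁻¹ * b⁻¹ ∈ A ⊓ ⁅A, B⁆ := ⟨h2, cm_mem hx hb⟩
    rwa [hinf, Subgroup.mem_bot] at h3
  apply hS.ne_bot _ hc.1
  rw [eq_bot_iff]
  intro c hcc
  obtain ⟨a, ha, rfl⟩ := hc.surj_left hb hb1 hcc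
  rw [Subgroup.mem_bot]
  exact hall a ha

/-- Injectivity of the commutator pairing. -/
lemma eq_one_of_cm_eq_one (hS : IsRootSubgroupSet S) (hA : A ∈ S) (hc : RootCommutatorCase S A B)
    (hAD : IsRankOnePair A D) (hD : D ∈ S) {a b : G} (ha : a ∈ A) (ha1 : a ≠ 1) (hb : b ∈ B)
    (h : a * b * a⁻¹ * b⁻¹ = 1) : b = 1 := by
  by_contra hb1
  apply conjBy_ne_of_ne_one hS hc hAD hD hb hb1
  have h1 : a ∈ conjBy A b := by
    rw [mem_conjBy]
    have h2 : a * b = b * a := by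
      have : a * b * a⁻¹ = b := mul_inv_eq_one.mp h
      exact mul_inv_eq_iff_eq_mul.mp this
    have e : b⁻¹ * a * b = a := by
      rw [mul_assoc, h2]; group
    rwa [e]
  exact (eq_of_not_isolated hS hAD hD (hS.conj_mem A hA b) ha h1 ha1).symm

/-- A partner of `A` does not commute with the commutator. -/
lemma commutator_ne_bot_of_partner (hS : IsRootSubgroupSet S) (hA : A ∈ S)
    (hc : RootCommutatorCase S A B) (hAD : IsRankOnePair A D) (hD : D ∈ S) :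
    ⁅D, ⁅A, B⁆⁆ ≠ ⊥ := by
  intro h0
  obtain ⟨a, ha, ha1⟩ := hAD.exists_ne_one_left
  have hCne := hS.ne_bot _ hc.1
  -- some `b` moves `a`
  obtain ⟨c, hcc, hc1⟩ := (Subgroup.bot_or_exists_ne_one _).resolve_left hCne
  obtain ⟨b, hb, hbc⟩ := hc.surj_right ha ha1 hcc
  have hzC : b * a * b⁻¹ * a⁻¹ ∈ ⁅A, B⁆ := by
    have e : b * a * b⁻¹ * a⁻¹ = (a * b * a⁻¹ * b⁻¹)⁻¹ := by group
    rw [e]; exact Subgroup.inv_mem _ (cm_mem ha hb)
  have hz1 : b * a * b⁻¹ * a⁻¹ ≠ 1 := by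
    intro h1
    apply hc1
    have e : a * b * a⁻¹ * b⁻¹ = (b * a * b⁻¹ * a⁻¹)⁻¹ := by group
    rw [← hbc, e, h1, inv_one]
  have hzD : b * a * b⁻¹ * a⁻¹ ∈ Subgroup.centralizer ((A ⊔ D : Subgroup G) : Set G) := by
    have hle : A ⊔ D ≤ Subgroup.centralizer ({b * a * b⁻¹ * a⁻¹} : Set G) := by
      apply sup_le
      · intro x hx
        rw [Subgroup.mem_centralizer_singleton_iff]
        exact (hc.comm_left hzC hx).symm
      · intro x hx
        rw [Subgroup.mem_centralizer_singleton_iff]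
        have : ⁅x, b * a * b⁻¹ * a⁻¹⁆ ∈ ⁅D, ⁅A, B⁆⁆ := Subgroup.commutator_mem_commutator hx hzC
        rw [h0, Subgroup.mem_bot, commutatorElement_eq_one_iff_mul_comm] at this
        exact this
    rw [Subgroup.mem_centralizer_iff]
    intro x hx
    have := hle hx
    rw [Subgroup.mem_centralizer_singleton_iff] at this
    exact this
  apply not_mem_rootElements hS hD hAD hzD hz1 a ha ha1
  have e : b * a * b⁻¹ * a⁻¹ * a = b * a * b⁻¹ := by group
  rw [e]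
  refine ⟨?_, conjBy A b, hS.conj_mem A hA b, conj_mem_conjBy ha⟩
  intro h1
  apply ha1
  have : a = b⁻¹ * (b * a * b⁻¹) * b := by group
  rw [this, h1]
  group

/-- A member inside the commutator is the commutator. -/
lemma eq_commutator_of_le (hS : IsRootSubgroupSet S) (hA : A ∈ S)
    (hc : RootCommutatorCase S A B) (hAD : IsRankOnePair A D) (hD : D ∈ S) {E : Subgroup G}
    (hE : E ∈ S) (hle : E ≤ ⁅A, B⁆) : E = ⁅A, B⁆ := by
  obtain ⟨e, he, he1⟩ := (Subgroup.bot_or_exists_ne_one _).resolve_left (hS.ne_bot _ hE)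
  rcases hS.pair D hD _ hc.1 with h0 | h0 | h0
  · exact absurd h0 (commutator_ne_bot_of_partner hS hA hc hAD hD)
  · exact (eq_of_not_isolated hS h0.symm hD hE (hle he) he he1).symm
  · rcases hS.pair D hD E hE with h1 | h1 | h1
    · exfalso
      apply hS.ne_bot _ h0.1
      rw [eq_bot_iff]
      intro c hcc
      obtain ⟨d, hd, rfl⟩ := h0.surj_left (hle he) he1 hcc
      have := cm_mem (A := D) (B := E) hd he
      rwa [h1] at this
    · exact eq_of_not_isolated hS h1.symm hD hc.1 he (hle he) he1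
    · apply le_antisymm hle
      intro c hcc
      obtain ⟨d, hd, hd1⟩ := hAD.exists_ne_one_right
      have hEq : ⁅D, E⁆ = ⁅D, ⁅A, B⁆⁆ := (h1.2.2.2 e he he1).symm.trans (h0.2.2.2 e (hle he) he1)
      have hx : d * c * d⁻¹ * c⁻¹ ∈ ⁅D, E⁆ := hEq ▸ cm_mem hd hcc
      obtain ⟨e', he', h'⟩ := h1.surj_right hd hd1 hx
      have h2 : d * (e' * c⁻¹) * d⁻¹ * (e' * c⁻¹)⁻¹ = 1 := by
        rw [h0.cm_mul_right hd (Subgroup.inv_mem _ hcc) (hle he'), h']
        have h3 := h0.cm_mul_right hd (Subgroup.inv_mem _ hcc) hcc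
        have h4 : d * (c * c⁻¹) * d⁻¹ * (c * c⁻¹)⁻¹ = 1 := by group
        rw [h4] at h3
        exact h3.symm
      have h3 : e' * c⁻¹ = 1 := eq_one_of_cm_eq_one hS hD h0 hAD.symm hA hd hd1
        (Subgroup.mul_mem _ (hle he') (Subgroup.inv_mem _ hcc)) h2
      have h4 : c = e' := by
        have := mul_inv_eq_one.mp h3
        exact this.symm
      rw [h4]; exact he'

lemma conjBy_le_sup_commutator {b : G} (hb : b ∈ B) : conjBy A b ≤ A ⊔ ⁅A, B⁆ := by
  intro x hx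
  have hx' := mem_conjBy.mp hx
  set a := b⁻¹ * x * b with ha
  have e : x = (b * a * b⁻¹ * a⁻¹)⁻¹⁻¹ * a := by
    rw [ha]; group
  rw [e]
  refine Subgroup.mul_mem _ ((le_sup_right : ⁅A, B⁆ ≤ A ⊔ ⁅A, B⁆) ?_) ((le_sup_left : A ≤ A ⊔ ⁅A, B⁆) hx')
  rw [inv_inv]
  have e2 : b * a * b⁻¹ * a⁻¹ = (a * b * a⁻¹ * b⁻¹)⁻¹ := by group
  rw [e2]
  exact Subgroup.inv_mem _ (cm_mem hx' hb)

/-- Every element of `AC` lies in `C` or in a conjugate `A^b`. -/
lemma mem_commutator_or_conj (hc : RootCommutatorCase S A B) {x : G} (hx : x ∈ A ⊔ ⁅A, B⁆) :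
    x ∈ ⁅A, B⁆ ∨ ∃ b ∈ B, x ∈ conjBy A b := by
  obtain ⟨a, ha, c, hcc, rfl⟩ := mem_sup_of_commute
    (fun a ha c hc' => (hc.comm_left hc' ha).symm) hx
  by_cases ha1 : a = 1
  · left
    rw [ha1, one_mul]
    exact hcc
  · right
    obtain ⟨b, hb, hbe⟩ := hc.symm.surj_left ha ha1 (Subgroup.commutator_comm B A ▸ hcc)
    refine ⟨b, hb, ?_⟩
    have h1 : a * c = b * a * b⁻¹ := by
      rw [(hc.comm_left hcc ha).symm, ← hbe]
      group
    rw [h1]
    exact conj_mem_conjBy ha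

/-- The members of `S` in `AC`. -/
theorem membersIn_sup_commutator (hS : IsRootSubgroupSet S) (hA : A ∈ S)
    (hc : RootCommutatorCase S A B) (hAD : IsRankOnePair A D) (hD : D ∈ S) :
    membersIn S (A ⊔ ⁅A, B⁆) = (fun b : G => conjBy A b) '' (B : Set G) ∪ {⁅A, B⁆} := by
  ext E
  constructor
  · rintro ⟨hE, hEle⟩
    by_cases h : E ≤ ⁅A, B⁆
    · right
      exact eq_commutator_of_le hS hA hc hAD hD hE h
    · left
      rw [SetLike.not_le_iff_exists] at h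
      obtain ⟨x, hxE, hxC⟩ := h
      rcases mem_commutator_or_conj hc (hEle hxE) with h1 | ⟨b, hb, hxb⟩
      · exact absurd h1 hxC
      · refine ⟨b, hb, ?_⟩
        have hx1 : x ≠ 1 := by
          rintro rfl
          exact hxC (Subgroup.one_mem _)
        exact eq_of_not_isolated hS (hAD.conj b) (hS.conj_mem D hD b) hE hxb hxE hx1
  · rintro (⟨b, hb, rfl⟩ | rfl)
    · exact ⟨hS.conj_mem A hA b, conjBy_le_sup_commutator hb⟩
    · exact ⟨hc.1, le_sup_right⟩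

/-- These members partition `AC`. -/
theorem partition_sup_commutator (hS : IsRootSubgroupSet S) (hA : A ∈ S)
    (hc : RootCommutatorCase S A B) (hAD : IsRankOnePair A D) (hD : D ∈ S) :
    IsSubgroupPartition (A ⊔ ⁅A, B⁆) (membersIn S (A ⊔ ⁅A, B⁆)) := by
  refine ⟨fun C hC => hC.2, ?_, ?_⟩
  · intro x hx hx1
    rcases mem_commutator_or_conj hc hx with h1 | ⟨b, hb, hxb⟩
    · exact ⟨_, ⟨hc.1, le_sup_right⟩, h1⟩
    · exact ⟨_, ⟨hS.conj_mem A hA b, conjBy_le_sup_commutator hb⟩, hxb⟩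
  · intro C hC E hE hne
    rw [membersIn_sup_commutator hS hA hc hAD hD] at hC hE
    by_contra hinf
    obtain ⟨x, ⟨hxC, hxE⟩, hx1⟩ := (Subgroup.bot_or_exists_ne_one (C ⊓ E)).resolve_left hinf
    apply hne
    rcases hC with ⟨b, hb, rfl⟩ | hC
    · rcases hE with ⟨b', hb', rfl⟩ | hE
      · exact eq_of_not_isolated hS (hAD.conj b) (hS.conj_mem D hD b)
          (hS.conj_mem A hA b') hxC hxE hx1
      · rw [Set.mem_singleton_iff] at hE
        rw [hE] at hxE ⊢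
        exact eq_of_not_isolated hS (hAD.conj b) (hS.conj_mem D hD b) hc.1 hxC hxE hx1
    · rw [Set.mem_singleton_iff] at hC
      rcases hE with ⟨b', hb', rfl⟩ | hE
      · rw [hC] at hxC ⊢
        exact (eq_of_not_isolated hS (hAD.conj b') (hS.conj_mem D hD b') hc.1 hxE hxC hx1).symm
      · rw [Set.mem_singleton_iff] at hE
        rw [hC, hE]

/-- `A` is a line partner of `C`. -/
theorem mem_linePartners_commutator (hS : IsRootSubgroupSet S) (hA : A ∈ S)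
    (hc : RootCommutatorCase S A B) (hAD : IsRankOnePair A D) (hD : D ∈ S) :
    A ∈ linePartners S ⁅A, B⁆ := by
  refine ⟨⟨hA, ne_commutator hS hc hAD hD, ?_⟩, ?_⟩
  · rw [eq_bot_iff, Subgroup.commutator_le]
    intro c hcc a ha
    rw [Subgroup.mem_bot, commutatorElement_eq_one_iff_mul_comm]
    exact hc.comm_left hcc ha
  · rw [sup_comm]
    exact partition_sup_commutator hS hA hc hAD hD

/-- The isomorphism `B ≃ C` attached to `a`. -/
theorem exists_cm_equiv (hS : IsRootSubgroupSet S) (hA : A ∈ S)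
    (hc : RootCommutatorCase S A B) (hAD : IsRankOnePair A D) (hD : D ∈ S) {a : G} (ha : a ∈ A)
    (ha1 : a ≠ 1) :
    ∃ φ : ↥B ≃* ↥⁅A, B⁆, ∀ b : ↥B, (φ b : G) = a⁻¹ * (b : G)⁻¹ * a * b := by
  classical
  have haa : a⁻¹ ∈ A := A.inv_mem ha
  have ha11 : a⁻¹ ≠ 1 := inv_ne_one.mpr ha1
  have hcm : ∀ b : ↥B, a⁻¹ * (b : G)⁻¹ * a * b ∈ ⁅A, B⁆ := by
    intro b
    have := cm_mem haa (B.inv_mem b.2)
    simpa using this
  have hmul : ∀ b b' : ↥B, a⁻¹ * ((b * b' : ↥B) : G)⁻¹ * a * ((b * b' : ↥B) : G) =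
      (a⁻¹ * (b : G)⁻¹ * a * b) * (a⁻¹ * (b' : G)⁻¹ * a * b') := by
    intro b b'
    have h1 := hc.cm_mul_right haa (B.inv_mem b.2) (B.inv_mem b'.2)
    have h2 := comm_of_mem_of_S hS hc.1 (hcm b') (hcm b)
    simp only [inv_inv] at h1
    have e : ((b * b' : ↥B) : G)⁻¹ = (b' : G)⁻¹ * (b : G)⁻¹ := by
      simp [Subgroup.coe_mul]
    rw [e, ← h2]
    have e2 : a⁻¹ * ((b' : G)⁻¹ * (b : G)⁻¹) * a * ((b * b' : ↥B) : G) =
        a⁻¹ * ((b' : G)⁻¹ * (b : G)⁻¹) * a⁻¹⁻¹ * ((b' : G)⁻¹ * (b : G)⁻¹)⁻¹ := by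
      simp [Subgroup.coe_mul]
    rw [e2]
    have e3 := hc.cm_mul_right haa (B.inv_mem b.2) (B.inv_mem b'.2)
    rw [e3]
    simp
  let f : ↥B →* ↥⁅A, B⁆ :=
    { toFun := fun b => ⟨a⁻¹ * (b : G)⁻¹ * a * b, hcm b⟩
      map_one' := by
        apply Subtype.ext
        simp
      map_mul' := fun b b' => Subtype.ext (hmul b b') }
  have hinj : Function.Injective f := by
    rw [injective_iff_map_eq_one]
    intro b hb
    have h1 : a⁻¹ * (b : G)⁻¹ * a * b = 1 := congrArg Subtype.val hb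
    have h2 : a⁻¹ * (b : G)⁻¹ * a⁻¹⁻¹ * (b : G)⁻¹⁻¹ = 1 := by simpa using h1
    have h3 := eq_one_of_cm_eq_one hS hA hc hAD hD haa ha11 (B.inv_mem b.2) h2
    apply Subtype.ext
    simpa using h3
  have hsurj : Function.Surjective f := by
    rintro ⟨c, hcc⟩
    obtain ⟨b, hb, hbe⟩ := hc.surj_right haa ha11 hcc
    refine ⟨⟨b⁻¹, B.inv_mem hb⟩, Subtype.ext ?_⟩
    change a⁻¹ * (b⁻¹)⁻¹ * a * b⁻¹ = c
    rw [← hbe]
    simp
  exact ⟨MulEquiv.ofBijective f ⟨hinj, hsurj⟩, fun b => rfl⟩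

end NonIsolated

end CommCase

end Cfsg.Agent.Lib.Root
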