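import Mathlib
import Cfsg.Agent.Lib.Root.CommCase

/-!
Abstract root subgroups: the graph of rank one pairs.
-/

set_option autoImplicit false

namespace Cfsg.Agent.Lib.Root

open Cfsg

variable {G : Type*} [Group G] {S : Set (Subgroup G)}

/-- Elements of the commutator are central when the pair does not form a rank one pair. -/
lemma central_of_cases {P Q : Subgroup G} (h : ⁅P, Q⁆ = ⊥ ∨ RootCommutatorCase S P Q) {c x : G}
    (hc : c ∈ ⁅P, Q⁆) (hx : x ∈ P ⊔ Q) : c * x = x * c := by
  rcases h with h | h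
  · rw [h, Subgroup.mem_bot] at hc
    rw [hc]; simp
  · exact h.2.1 c hc x hx

lemma conjBy_eq_of_commute {E : Subgroup G} {z : G} (h : ∀ x ∈ E, z * x = x * z) : conjBy E z = E :=
  mem_normalizer_iff_conjBy.mp (mem_normalizer_of_commute h)

/-- The key lemma: if `ab` lies in a member `E`, any partner of `B` is a partner of `A` or `E`. -/
lemma rankOne_of_mem_mul (hS : IsRootSubgroupSet S) {A B E D : Subgroup G} (hA : A ∈ S) (hB : B ∈ S)
    (hE : E ∈ S) (hD : D ∈ S) (hDB : IsRankOnePair D B) {a b : G} (ha : a ∈ A) (hb : b ∈ B)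
    (hb1 : b ≠ 1) (he : a * b ∈ E) : IsRankOnePair D A ∨ IsRankOnePair D E := by
  by_contra hcon
  push Not at hcon
  obtain ⟨hnA, hnE⟩ := hcon
  have h1 : ⁅D, A⁆ = ⊥ ∨ RootCommutatorCase S D A := by
    rcases hS.pair D hD A hA with h0 | h0 | h0
    · exact Or.inl h0
    · exact absurd h0 hnA
    · exact Or.inr h0
  have h2 : ⁅D, E⁆ = ⊥ ∨ RootCommutatorCase S D E := by
    rcases hS.pair D hD E hE with h0 | h0 | h0
    · exact Or.inl h0
    · exact absurd h0 hnE
    · exact Or.inr h0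
  obtain ⟨d, hd, hd1⟩ := hDB.exists_ne_one_left
  set e := a * b with hedef
  set fA := d * a * d⁻¹ * a⁻¹ with hfA
  set fE := d * e * d⁻¹ * e⁻¹ with hfE
  have hfAm : fA ∈ ⁅D, A⁆ := cm_mem hd ha
  have hfEm : fE ∈ ⁅D, E⁆ := cm_mem hd he
  have hfAa : fA * a = a * fA := central_of_cases h1 hfAm ((le_sup_right : A ≤ D ⊔ A) ha)
  have hfEe : fE * e = e * fE := central_of_cases h2 hfEm ((le_sup_right : E ≤ D ⊔ E) he)
  have hfAD : ∀ x ∈ D, fA * x = x * fA := fun x hx =>
    central_of_cases h1 hfAm ((le_sup_left : D ≤ D ⊔ A) hx)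
  have hfED : ∀ x ∈ D, fE * x = x * fE := fun x hx =>
    central_of_cases h2 hfEm ((le_sup_left : D ≤ D ⊔ E) hx)
  -- the formula for `d b d⁻¹`
  have hform : d * b⁻¹ * d⁻¹ = fE⁻¹ * b⁻¹ * fA := by
    have e1 : d * a * d⁻¹ = a * fA := by rw [← hfAa, hfA]; group
    have e2 : d * e * d⁻¹ = e * fE := by rw [← hfEe, hfE]; group
    have e3 : b = a⁻¹ * e := by rw [hedef]; group
    have e4 : d * b * d⁻¹ = (d * a * d⁻¹)⁻¹ * (d * e * d⁻¹) := by rw [e3]; group
    have e5 : d * b⁻¹ * d⁻¹ = (d * b * d⁻¹)⁻¹ := by group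
    rw [e5, e4, e1, e2]
    rw [e3]
    group
  -- the conjugate
  set T := conjBy D b⁻¹ with hT
  have hTS : T ∈ S := hS.conj_mem D hD _
  have hTu : T ∈ unipotentSubgroups D B :=
    conj_mem_unipotent left_mem_unipotent (B.inv_mem hb |> (le_sup_right : B ≤ D ⊔ B))
  have hTD : T ≠ D := by
    intro h
    apply hb1
    apply hDB.eq_one_of_mem_normalizer' hb
    apply Subgroup.inv_mem_iff _ |>.mp
    rw [mem_normalizer_iff_conjBy]
    exact h
  have hdT : conjBy T d ≠ T := by
    intro h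
    apply hTD
    exact hDB.eq_left_of_normalizes hTu hd hd1 (mem_normalizer_iff_conjBy.mpr h)
  have hdD : conjBy D d⁻¹ = D := conjBy_eq_self_of_mem (D.inv_mem hd)
  have hc1 : conjBy T d = conjBy D (d * b⁻¹ * d⁻¹) := by
    rw [conjBy_mul, conjBy_mul, hdD]
  have hc2 : conjBy D (fE⁻¹ * b⁻¹ * fA) = conjBy T fE⁻¹ := by
    rw [conjBy_mul, conjBy_mul, conjBy_eq_of_commute hfAD]
  have hkey : conjBy T d = conjBy T fE⁻¹ := by rw [hc1, hform, hc2]
  -- case analysis
  have hE' : RootCommutatorCase S D E := by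
    rcases h2 with h0 | h0
    · exfalso
      rw [h0, Subgroup.mem_bot] at hfEm
      rw [hfEm, inv_one, conjBy_one] at hkey
      exact hdT hkey
    · exact h0
  have hF : ⁅D, E⁆ ∈ S := hE'.1
  have hgm : fE⁻¹ ∈ ⁅D, E⁆ := Subgroup.inv_mem _ hfEm
  have hg1 : fE⁻¹ ≠ 1 := by
    intro h
    rw [h, conjBy_one] at hkey
    exact hdT hkey
  have hrank : IsRankOnePair T (conjBy T d) :=
    (hDB.of_mem_unipotent hTu (conj_mem_unipotent hTu ((le_sup_left : D ≤ D ⊔ B) hd)) hdT.symm).1
  rcases hS.pair T hTS _ hF with h0 | h0 | h0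
  · -- commuting
    apply hdT
    rw [hkey]
    apply conjBy_eq_of_commute
    intro x hx
    have := cm_mem hx hgm
    rw [h0, Subgroup.mem_bot] at this
    have h3 : x * fE⁻¹ * x⁻¹ = fE⁻¹ := mul_inv_eq_one.mp this
    exact (mul_inv_eq_iff_eq_mul.mp h3).symm
  · -- rank one: `F` is a conjugate of `D`
    obtain ⟨t, ht, -, hte⟩ := h0.cond_right (fE⁻¹)⁻¹ (Subgroup.inv_mem _ hgm) (inv_ne_one.mpr hg1)
    rw [inv_inv, ← hkey] at hte
    have h3 : ⁅D, E⁆ = conjBy (conjBy T d) t := by
      rw [← hte, conjBy_conjBy_inv]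
    have hle := le_sup_of_mem_unipotent hTu
    have hFu : ⁅D, E⁆ ∈ unipotentSubgroups D B := by
      rw [h3]
      exact conj_mem_unipotent (conj_mem_unipotent hTu ((le_sup_left : D ≤ D ⊔ B) hd)) (hle ht)
    have hcomm : ⁅⁅D, E⁆, D⁆ = ⊥ := by
      rw [eq_bot_iff, Subgroup.commutator_le]
      intro c hcc x hx
      rw [Subgroup.mem_bot, commutatorElement_eq_one_iff_mul_comm]
      exact hE'.comm_left hcc hx
    by_cases hFD : ⁅D, E⁆ = D
    · have hbot : ⁅D, E⁆ = ⊥ := by
        rw [eq_bot_iff, Subgroup.commutator_le]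
        intro u hu v hv
        have hu' : u ∈ ⁅D, E⁆ := by rw [hFD]; exact hu
        rw [Subgroup.mem_bot, commutatorElement_eq_one_iff_mul_comm]
        exact hE'.comm_right hu' hv
      rw [hFD] at hbot
      exact hS.ne_bot _ hD hbot
    · have hp := (hDB.of_mem_unipotent hFu left_mem_unipotent hFD).1
      exact hp.commutator_ne_bot hcomm
  · -- commutator case
    apply hrank.commutator_ne_bot
    rw [eq_bot_iff, Subgroup.commutator_le]
    intro z hz x hx
    rw [hkey] at hx
    have hy := mem_conjBy.mp hx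
    rw [inv_inv] at hy
    set y := fE * x * fE⁻¹ with hydef
    set g := fE⁻¹ with hg
    have hxform : x = g * y * g⁻¹ := by
      rw [hydef, hg]; group
    have hk : g * y * g⁻¹ * y⁻¹ ∈ ⁅T, ⁅D, E⁆⁆ := by
      have e : g * y * g⁻¹ * y⁻¹ = (y * g * y⁻¹ * g⁻¹)⁻¹ := by group
      rw [e]
      exact Subgroup.inv_mem _ (cm_mem hy hgm)
    have hkz := h0.comm_left hk hz
    have hyz : y * z = z * y := comm_of_mem_of_S hS hTS hy hz
    rw [Subgroup.mem_bot, commutatorElement_eq_one_iff_mul_comm]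
    have e : x = (g * y * g⁻¹ * y⁻¹) * y := by rw [hxform]; group
    rw [e]
    set k := g * y * g⁻¹ * y⁻¹
    calc z * (k * y) = (z * k) * y := by group
      _ = (k * z) * y := by rw [hkz]
      _ = k * (z * y) := by group
      _ = k * (y * z) := by rw [hyz]
      _ = k * y * z := by group

/-- Rank one partners are connected. -/
lemma fAdj_symm {A B : Subgroup G} (h : FAdj S A B) : FAdj S B A := ⟨h.2.1, h.1, h.2.2.symm⟩

lemma reach_symm {A B : Subgroup G} (h : Relation.ReflTransGen (FAdj S) A B) :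
    Relation.ReflTransGen (FAdj S) B A :=
  by
  induction h with
  | refl => exact .refl
  | tail _ hab ih => exact Relation.ReflTransGen.head (fAdj_symm hab) ih

/-- Line partners with partners are in one component. -/
lemma reach_of_linePartner (hS : IsRootSubgroupSet S) {A B D D' : Subgroup G} (hA : A ∈ S)
    (hBl : B ∈ linePartners S A) (hD : D ∈ S) (hAD : IsRankOnePair A D) (hD' : D' ∈ S)
    (hBD : IsRankOnePair B D') : Relation.ReflTransGen (FAdj S) A B := by
  obtain ⟨⟨hB, hne, hcomm⟩, hpart⟩ := hBl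
  obtain ⟨a, ha, ha1⟩ := hAD.exists_ne_one_left
  obtain ⟨b, hb, hb1⟩ := hBD.exists_ne_one_left
  have hab : a * b ≠ 1 := by
    intro h
    have hb' : b = a⁻¹ := by
      exact (inv_eq_of_mul_eq_one_right h).symm
    have hbA : b ∈ A := by rw [hb']; exact A.inv_mem ha
    exact hne (eq_of_not_isolated hS hAD hD hB hbA hb hb1).symm
  have hmem : a * b ∈ A ⊔ B :=
    Subgroup.mul_mem _ ((le_sup_left : A ≤ A ⊔ B) ha) ((le_sup_right : B ≤ A ⊔ B) hb)
  obtain ⟨E, ⟨hE, -⟩, hxE⟩ := hpart.2.1 _ hmem hab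
  have hba : b * a = a * b := by
    have := cm_mem ha hb
    rw [hcomm, Subgroup.mem_bot] at this
    have h3 : a * b * a⁻¹ = b := mul_inv_eq_one.mp this
    exact (mul_inv_eq_iff_eq_mul.mp h3).symm
  -- `D'` is a partner of `A` or of `E`
  rcases rankOne_of_mem_mul hS hA hB hE hD' hBD.symm ha hb hb1 hxE with h1 | h1
  · -- `A - D' - B`
    exact (Relation.ReflTransGen.single ⟨hA, hD', h1.symm⟩).tail ⟨hD', hB, hBD.symm⟩
  · rcases rankOne_of_mem_mul hS hB hA hE hD hAD.symm hb ha ha1 (by rw [hba]; exact hxE) with h2 | h2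
    · exact (Relation.ReflTransGen.single ⟨hA, hD, hAD⟩).tail ⟨hD, hB, h2⟩
    · -- `A - D - E - D' - B`
      have p1 : Relation.ReflTransGen (FAdj S) A E :=
        (Relation.ReflTransGen.single ⟨hA, hD, hAD⟩).tail ⟨hD, hE, h2⟩
      have p2 : Relation.ReflTransGen (FAdj S) E B :=
        (Relation.ReflTransGen.single ⟨hE, hD', h1.symm⟩).tail ⟨hD', hB, hBD.symm⟩
      exact p1.trans p2

/-- A member different from something in its component has a partner. -/
lemma exists_partner_of_reach {A B : Subgroup G} (h : Relation.ReflTransGen (FAdj S) A B)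
    (hne : B ≠ A) : ∃ D ∈ S, IsRankOnePair A D := by
  rcases Relation.ReflTransGen.cases_head h with h0 | ⟨c, hc, -⟩
  · exact absurd h0.symm hne
  · exact ⟨c, hc.2.1, hc.2.2⟩

lemma componentOf_eq_of_reach {A B : Subgroup G} (h : Relation.ReflTransGen (FAdj S) A B) :
    componentOf (FAdj S) S A = componentOf (FAdj S) S B := by
  ext C
  constructor
  · rintro ⟨hC, hAC⟩
    exact ⟨hC, (reach_symm h).trans hAC⟩
  · rintro ⟨hC, hBC⟩
    exact ⟨hC, h.trans hBC⟩

/-- Conjugation of a member by an element of a member stays in the component. -/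
lemma reach_conj (hS : IsRootSubgroupSet S) {E T D : Subgroup G} (hE : E ∈ S) (hT : T ∈ S)
    (hED : IsRankOnePair E D) (hDS : D ∈ S) {t : G} (ht : t ∈ T)
    (hpart : ∃ D' ∈ S, IsRankOnePair T D') :
    Relation.ReflTransGen (FAdj S) E (conjBy E t) := by
  by_cases ht1 : t = 1
  · rw [ht1, conjBy_one]
  by_cases hfix : conjBy E t = E
  · rw [hfix]
  rcases hS.pair T hT E hE with h0 | h0 | h0
  · exfalso
    apply hfix
    apply conjBy_eq_of_commute
    intro x hx
    have := cm_mem ht hx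
    rw [h0, Subgroup.mem_bot] at this
    have h3 : t * x * t⁻¹ = x := mul_inv_eq_one.mp this
    exact mul_inv_eq_iff_eq_mul.mp h3
  · -- rank one
    have hu : conjBy E t ∈ unipotentSubgroups T E := by
      have := conj_mem_unipotent h0.right_mem_unipotent ((le_sup_left : T ≤ T ⊔ E) ht)
      exact this
    have hp := (h0.of_mem_unipotent h0.right_mem_unipotent hu (Ne.symm hfix)).1
    exact Relation.ReflTransGen.single ⟨hE, hS.conj_mem E hE t, hp⟩
  · -- commutator case
    have hc := h0.symm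
    obtain ⟨D', hD', hTD'⟩ := hpart
    have hFm : conjBy E t ≤ E ⊔ ⁅E, T⁆ := conjBy_le_sup_commutator ht
    set F := conjBy E t with hF
    have hFS : F ∈ S := hS.conj_mem E hE t
    have hcomm : ⁅E, F⁆ = ⊥ := by
      rw [eq_bot_iff, Subgroup.commutator_le]
      intro u hu v hv
      rw [Subgroup.mem_bot, commutatorElement_eq_one_iff_mul_comm]
      obtain ⟨a, ha, c, hcc, rfl⟩ := mem_sup_of_commute
        (fun a ha c hc' => (hc.comm_left hc' ha).symm) (hFm hv)
      have h1 := comm_of_mem_of_S hS hE hu ha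
      have h2 := hc.comm_left hcc hu
      calc u * (a * c) = (u * a) * c := by group
        _ = a * (u * c) := by rw [h1]; group
        _ = a * (c * u) := by rw [h2]
        _ = a * c * u := by group
    have hsup : E ⊔ F = E ⊔ ⁅E, T⁆ := by
      apply le_antisymm
      · exact sup_le le_sup_left hFm
      · apply sup_le le_sup_left
        intro c hcc
        obtain ⟨x, hx, hxe⟩ := h0.surj_right ht ht1 (Subgroup.commutator_comm E T ▸ hcc)
        rw [← hxe]
        have e : t * x * t⁻¹ * x⁻¹ = (t * x * t⁻¹) * x⁻¹ := rfl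
        rw [e]
        exact Subgroup.mul_mem _ ((le_sup_right : F ≤ E ⊔ F) (conj_mem_conjBy hx))
          ((le_sup_left : E ≤ E ⊔ F) (E.inv_mem hx))
    have hl : F ∈ linePartners S E := by
      refine ⟨⟨hFS, hfix, hcomm⟩, ?_⟩
      rw [hsup]
      exact partition_sup_commutator hS hE hc hED hDS
    exact reach_of_linePartner hS hE hl hDS hED (hS.conj_mem D hDS t) (hED.conj t)

end Cfsg.Agent.Lib.Root
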