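import Mathlib
import Cfsg.Agent.Lib.Root.Connected

/-!
Abstract root subgroups: `X = ⟨B, D⟩` acting on `N = AC`, `C = [A,B]`, `A = [D,C]`.
-/

set_option autoImplicit false

namespace Cfsg.Agent.Lib.Root

open Cfsg

variable {G : Type*} [Group G] {S : Set (Subgroup G)}

lemma comm_group_fact {M : Type*} [CommGroup M] (x y u v w : M)
    (h : (x * y * u)⁻¹ * (u * v) * (u * v) * w = y * u * v * (v * w)) : x * y * y = 1 := by
  have h' := congrArg Additive.ofMul h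
  simp only [ofMul_mul, ofMul_inv] at h'
  apply Additive.ofMul.injective
  simp only [ofMul_mul, ofMul_one]
  generalize Additive.ofMul x = X at *
  generalize Additive.ofMul y = Y at *
  generalize Additive.ofMul u = U at *
  generalize Additive.ofMul v = V at *
  generalize Additive.ofMul w = W at *
  have e : X + Y + Y = (Y + U + V + (V + W)) - (-(X + Y + U) + (U + V) + (U + V) + W) := by abel
  rw [e, ← h', sub_self]

section Natural

variable {A B D : Subgroup G}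

/-- `A ⊔ C` is commutative. -/
lemma sup_commutator_comm (hS : IsRootSubgroupSet S) (hA : A ∈ S)
    (hc : RootCommutatorCase S A B) {x y : G} (hx : x ∈ A ⊔ ⁅A, B⁆) (hy : y ∈ A ⊔ ⁅A, B⁆) :
    x * y = y * x := by
  obtain ⟨a, ha, c, hcc, rfl⟩ := mem_sup_of_commute
    (fun a ha c hc' => (hc.comm_left hc' ha).symm) hx
  obtain ⟨a', ha', c', hcc', rfl⟩ := mem_sup_of_commute
    (fun a ha c hc' => (hc.comm_left hc' ha).symm) hy
  have h1 := comm_of_mem_of_S hS hA ha ha'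
  have h2 := comm_of_mem_of_S hS hc.1 hcc hcc'
  have h3 := hc.comm_left hcc ha'
  have h4 := hc.comm_left hcc' ha
  calc a * c * (a' * c') = (a * (c * a')) * c' := by group
    _ = (a * (a' * c)) * c' := by rw [h3]
    _ = (a * a') * (c * c') := by group
    _ = (a' * a) * (c' * c) := by rw [h1, h2]
    _ = a' * (a * c') * c := by group
    _ = a' * (c' * a) * c := by rw [h4]
    _ = a' * c' * (a * c) := by group

/-- The main computation: `⟨B, D⟩` cannot be of class two. -/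
lemma false_of_commuting (hS : IsRootSubgroupSet S) (hA : A ∈ S) (hB : B ∈ S) (hD : D ∈ S)
    (hc : RootCommutatorCase S A B) (hcd : RootCommutatorCase S D ⁅A, B⁆)
    (hDC : ⁅D, ⁅A, B⁆⁆ = A) (hP : ∀ b ∈ B, ∀ d ∈ D, (b * d * b⁻¹) * d = d * (b * d * b⁻¹)) :
    False := by
  obtain ⟨b, hb, hb1⟩ := (Subgroup.bot_or_exists_ne_one _).resolve_left (hS.ne_bot _ hB)
  obtain ⟨d, hd, hd1⟩ := (Subgroup.bot_or_exists_ne_one _).resolve_left (hS.ne_bot _ hD)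
  have hcc : ∀ x ∈ ⁅A, B⁆, b * x * b⁻¹ = x := by
    intro x hx
    rw [← hc.comm_right hx hb]
    group
  have haD : ∀ a ∈ A, d * a * d⁻¹ = a := by
    intro a ha
    have ha' : a ∈ ⁅D, ⁅A, B⁆⁆ := by rw [hDC]; exact ha
    rw [← hcd.comm_left ha' hd]
    group
  have hcA : ∀ c ∈ ⁅A, B⁆, d * c * d⁻¹ * c⁻¹ ∈ A := by
    intro c hc'
    have := cm_mem hd hc'
    rwa [hDC] at this
  have hbA : ∀ a ∈ A, b * a * b⁻¹ * a⁻¹ ∈ ⁅A, B⁆ := by
    intro a ha
    have := cm_mem hb ha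
    rwa [Subgroup.commutator_comm] at this
  have hN₁ : A ≤ A ⊔ ⁅A, B⁆ := le_sup_left
  have hN₂ : ⁅A, B⁆ ≤ A ⊔ ⁅A, B⁆ := le_sup_right
  -- the relation
  have hQ : ∀ c ∈ ⁅A, B⁆, ∀ a ∈ A, ∀ c' ∈ ⁅A, B⁆, ∀ a' ∈ A,
      d * c * d⁻¹ * c⁻¹ = a → b * a * b⁻¹ * a⁻¹ = c' → d * c' * d⁻¹ * c'⁻¹ = a' →
      (b * a' * b⁻¹ * a'⁻¹) * a' * a' = 1 := by
    intro c hc₀ a ha c' hc' a' ha' e1' e3' e4'
    have hc'' := hbA a' ha'
    set c'' := b * a' * b⁻¹ * a'⁻¹ with hc''def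
    have e1 : d * c * d⁻¹ = a * c := by rw [← e1']; group
    have e2 : b * c * b⁻¹ = c := hcc c hc₀
    have e3 : b * a * b⁻¹ = c' * a := by rw [← e3']; group
    have e4 : d * c' * d⁻¹ = a' * c' := by rw [← e4']; group
    have e5 : d * a * d⁻¹ = a := haD a ha
    have e6 : b * a' * b⁻¹ = c'' * a' := by rw [hc''def]; group
    have e7 : b * c' * b⁻¹ = c' := hcc c' hc'
    have e8 : b⁻¹ * a * b = c'⁻¹ * a := by
      have h1 : b⁻¹ * c' * b = c' := by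
        have : c' = b⁻¹ * (b * c' * b⁻¹) * b := by group
        rw [e7] at this
        exact this.symm
      have h2 : a = b⁻¹ * (b * a * b⁻¹) * b := by group
      rw [e3] at h2
      have h3 : b⁻¹ * (c' * a) * b = (b⁻¹ * c' * b) * (b⁻¹ * a * b) := by group
      rw [h3, h1] at h2
      rw [eq_inv_mul_iff_mul_eq]
      exact h2.symm
    have e9 : b⁻¹ * c * b = c := by
      have : c = b⁻¹ * (b * c * b⁻¹) * b := by group
      rw [e2] at this
      exact this.symm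
    -- way 1
    have w1 : (b * d * b⁻¹) * (d * c * d⁻¹) * (b * d * b⁻¹)⁻¹ =
        (c'' * a' * c')⁻¹ * (c' * a) * (c' * a) * c := by
      rw [e1]
      have h1 : (b * d * b⁻¹) * (a * c) * (b * d * b⁻¹)⁻¹ =
          b * (d * ((b⁻¹ * a * b) * (b⁻¹ * c * b)) * d⁻¹) * b⁻¹ := by group
      rw [h1, e8, e9]
      have h2 : d * (c'⁻¹ * a * c) * d⁻¹ = (d * c' * d⁻¹)⁻¹ * (d * a * d⁻¹) * (d * c * d⁻¹) := by group
      rw [h2, e4, e5, e1]
      have h3 : b * ((a' * c')⁻¹ * a * (a * c)) * b⁻¹ =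
          ((b * a' * b⁻¹) * (b * c' * b⁻¹))⁻¹ * (b * a * b⁻¹) * (b * a * b⁻¹) * (b * c * b⁻¹) := by group
      rw [h3, e6, e7, e3, e2]
    -- way 2
    have w2 : d * ((b * d * b⁻¹) * c * (b * d * b⁻¹)⁻¹) * d⁻¹ = a' * c' * a * (a * c) := by
      have h1 : (b * d * b⁻¹) * c * (b * d * b⁻¹)⁻¹ = b * (d * (b⁻¹ * c * b) * d⁻¹) * b⁻¹ := by group
      rw [h1, e9, e1]
      have h2 : b * (a * c) * b⁻¹ = (b * a * b⁻¹) * (b * c * b⁻¹) := by group
      rw [h2, e3, e2]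
      have h3 : d * (c' * a * c) * d⁻¹ = (d * c' * d⁻¹) * (d * a * d⁻¹) * (d * c * d⁻¹) := by group
      rw [h3, e4, e5, e1]
    have heq : (b * d * b⁻¹) * (d * c * d⁻¹) * (b * d * b⁻¹)⁻¹ =
        d * ((b * d * b⁻¹) * c * (b * d * b⁻¹)⁻¹) * d⁻¹ := by
      have h1 := hP b hb d hd
      have h2 : (b * d * b⁻¹) * (d * c * d⁻¹) * (b * d * b⁻¹)⁻¹ =
          ((b * d * b⁻¹) * d) * c * ((b * d * b⁻¹) * d)⁻¹ := by
        have : ((b * d * b⁻¹) * d)⁻¹ = d⁻¹ * (b * d * b⁻¹)⁻¹ := by group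
        rw [this]; group
      have h3 : d * ((b * d * b⁻¹) * c * (b * d * b⁻¹)⁻¹) * d⁻¹ =
          (d * (b * d * b⁻¹)) * c * (d * (b * d * b⁻¹))⁻¹ := by
        have : (d * (b * d * b⁻¹))⁻¹ = (b * d * b⁻¹)⁻¹ * d⁻¹ := by group
        rw [this]; group
      rw [h2, h3, h1]
    rw [w1, w2] at heq
    -- pass to the commutative group `N`
    let _ : CommGroup ↥(A ⊔ ⁅A, B⁆) :=
      { (inferInstance : Group ↥(A ⊔ ⁅A, B⁆)) with
        mul_comm := fun x y => Subtype.ext (sup_commutator_comm hS hA hc x.2 y.2) }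
    have := comm_group_fact (⟨c'', hN₂ hc''⟩ : ↥(A ⊔ ⁅A, B⁆)) ⟨a', hN₁ ha'⟩ ⟨c', hN₂ hc'⟩
      ⟨a, hN₁ ha⟩ ⟨c, hN₂ hc₀⟩ (Subtype.ext heq)
    exact congrArg Subtype.val this
  -- every element of `C` lies in `A`
  have hle : ⁅A, B⁆ ≤ A := by
    intro c₀ hc₀
    have hc₀' : c₀ ∈ ⁅B, A⁆ := by rw [Subgroup.commutator_comm]; exact hc₀
    obtain ⟨a', ha', rfl⟩ := hc.symm.surj_right hb hb1 hc₀'
    have ha'' : a' ∈ ⁅D, ⁅A, B⁆⁆ := by rw [hDC]; exact ha'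
    obtain ⟨c', hc', e4'⟩ := hcd.surj_right hd hd1 ha''
    have hc'' : c' ∈ ⁅B, A⁆ := by rw [Subgroup.commutator_comm]; exact hc'
    obtain ⟨a, ha, e3'⟩ := hc.symm.surj_right hb hb1 hc''
    have ha₁ : a ∈ ⁅D, ⁅A, B⁆⁆ := by rw [hDC]; exact ha
    obtain ⟨c, hc₁, e1'⟩ := hcd.surj_right hd hd1 ha₁
    have h := hQ c hc₁ a ha c' hc' a' ha' e1' e3' e4'
    have h2 : b * a' * b⁻¹ * a'⁻¹ = (a' * a')⁻¹ := by
      rw [eq_inv_iff_mul_eq_one, ← mul_assoc]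
      exact h
    rw [h2]
    exact A.inv_mem (A.mul_mem ha' ha')
  apply hS.ne_bot _ hA
  rw [← hDC, eq_bot_iff, Subgroup.commutator_le]
  intro u hu c hc'
  rw [Subgroup.mem_bot, commutatorElement_eq_one_iff_mul_comm]
  have hc'A := hle hc'
  have ha' : c ∈ ⁅D, ⁅A, B⁆⁆ := by rw [hDC]; exact hc'A
  exact (hcd.comm_left ha' hu).symm

/-- `B, D` form a rank one pair. -/
lemma rankOne_of_natural (hS : IsRootSubgroupSet S) (hA : A ∈ S) (hB : B ∈ S) (hD : D ∈ S)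
    (hc : RootCommutatorCase S A B) (hcd : RootCommutatorCase S D ⁅A, B⁆)
    (hDC : ⁅D, ⁅A, B⁆⁆ = A) : IsRankOnePair B D := by
  have hgen : (⁅B, D⁆ = ⊥ ∨ RootCommutatorCase S B D) → False := by
    intro h
    apply false_of_commuting hS hA hB hD hc hcd hDC
    intro b hb d hd
    have hm := cm_mem hb hd
    have h1 := central_of_cases h hm ((le_sup_right : D ≤ B ⊔ D) hd)
    have e : b * d * b⁻¹ = (b * d * b⁻¹ * d⁻¹) * d := by group
    rw [e]
    calc (b * d * b⁻¹ * d⁻¹) * d * d = ((b * d * b⁻¹ * d⁻¹) * d) * d := rfl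
      _ = (d * (b * d * b⁻¹ * d⁻¹)) * d := by rw [h1]
      _ = d * ((b * d * b⁻¹ * d⁻¹) * d) := by group
  rcases hS.pair B hB D hD with h0 | h0 | h0
  · exact (hgen (Or.inl h0)).elim
  · exact h0
  · exact (hgen (Or.inr h0)).elim

/-- The fixed points in `N` of a subgroup. -/
def fixIn (N T : Subgroup G) : Subgroup G := N ⊓ Subgroup.centralizer (T : Set G)

lemma mem_fixIn {N T : Subgroup G} {y : G} : y ∈ fixIn N T ↔ y ∈ N ∧ ∀ t ∈ T, t * y = y * t := by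
  rw [fixIn, Subgroup.mem_inf, Subgroup.mem_centralizer_iff]
  rfl

lemma fixIn_conj {N T : Subgroup G} {x : G} (hx : conjBy N x = N) :
    fixIn N (conjBy T x) = conjBy (fixIn N T) x := by
  ext y
  rw [mem_fixIn, mem_conjBy, mem_fixIn]
  constructor
  · rintro ⟨hy, hT⟩
    refine ⟨?_, ?_⟩
    · rw [← hx, mem_conjBy] at hy
      exact hy
    · intro t ht
      have h1 := hT (x * t * x⁻¹) (conj_mem_conjBy ht)
      have e1 : t * (x⁻¹ * y * x) = x⁻¹ * ((x * t * x⁻¹) * y) * x := by group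
      have e2 : x⁻¹ * y * x * t = x⁻¹ * (y * (x * t * x⁻¹)) * x := by group
      rw [e1, e2, h1]
  · rintro ⟨hy, hT⟩
    refine ⟨?_, ?_⟩
    · rw [← hx, mem_conjBy]
      exact hy
    · intro t ht
      have h1 := hT _ (mem_conjBy.mp ht)
      have e1 : t * y = x * ((x⁻¹ * t * x) * (x⁻¹ * y * x)) * x⁻¹ := by group
      have e2 : y * t = x * ((x⁻¹ * y * x) * (x⁻¹ * t * x)) * x⁻¹ := by group
      rw [e1, e2, h1]

/-- The package of facts on `X = ⟨B,D⟩` acting on `N = AC`. -/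
structure NaturalData (S : Set (Subgroup G)) (A B D : Subgroup G) : Prop where
  hS : IsRootSubgroupSet S
  hA : A ∈ S
  hB : B ∈ S
  hD : D ∈ S
  hc : RootCommutatorCase S A B
  hcd : RootCommutatorCase S D ⁅A, B⁆
  hDC : ⁅D, ⁅A, B⁆⁆ = A

namespace NaturalData

variable (H : NaturalData S A B D)
include H

lemma rankOne : IsRankOnePair B D :=
  rankOne_of_natural H.hS H.hA H.hB H.hD H.hc H.hcd H.hDC

lemma fix_right : fixIn (A ⊔ ⁅A, B⁆) B = ⁅A, B⁆ := by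
  have hp := H.rankOne
  apply le_antisymm
  · intro y hy
    obtain ⟨hyN, hyB⟩ := mem_fixIn.mp hy
    obtain ⟨a, ha, c, hcc, rfl⟩ := mem_sup_of_commute
      (fun a ha c hc' => (H.hc.comm_left hc' ha).symm) hyN
    obtain ⟨b, hb, hb1⟩ := hp.exists_ne_one_left
    have h1 := hyB b hb
    have h2 := H.hc.comm_right hcc hb
    have h3 : b * a * b⁻¹ * a⁻¹ = 1 := by
      have e : b * a = a * b := by
        have : b * (a * c) * c⁻¹ = a * c * b * c⁻¹ := by rw [h1]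
        have e1 : b * (a * c) * c⁻¹ = b * a := by group
        have e2 : a * c * b * c⁻¹ = a * (c * b) * c⁻¹ := by group
        rw [e1, e2, h2] at this
        rw [this]; group
      rw [e]; group
    have h4 := eq_one_of_cm_eq_one H.hS H.hB H.hc.symm hp H.hD hb hb1 ha h3
    rw [h4, one_mul]
    exact hcc
  · intro c hcc
    rw [mem_fixIn]
    exact ⟨(le_sup_right : ⁅A, B⁆ ≤ A ⊔ ⁅A, B⁆) hcc, fun t ht => (H.hc.comm_right hcc ht).symm⟩

lemma fix_left : fixIn (A ⊔ ⁅A, B⁆) D = A := by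
  have hp := H.rankOne
  have hcomD : ∀ a ∈ A, ∀ t ∈ D, t * a = a * t := by
    intro a ha t ht
    have ha' : a ∈ ⁅D, ⁅A, B⁆⁆ := by rw [H.hDC]; exact ha
    exact (H.hcd.comm_left ha' ht).symm
  apply le_antisymm
  · intro y hy
    obtain ⟨hyN, hyD⟩ := mem_fixIn.mp hy
    obtain ⟨a, ha, c, hcc, rfl⟩ := mem_sup_of_commute
      (fun a ha c hc' => (H.hc.comm_left hc' ha).symm) hyN
    obtain ⟨d, hd, hd1⟩ := hp.exists_ne_one_right
    have h1 := hyD d hd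
    have h2 := hcomD a ha d hd
    have h3 : d * c * d⁻¹ * c⁻¹ = 1 := by
      have e : d * c = c * d := by
        have e1 : d * (a * c) = a * (d * c) := by
          calc d * (a * c) = (d * a) * c := by group
            _ = (a * d) * c := by rw [h2]
            _ = a * (d * c) := by group
        rw [e1, mul_assoc] at h1
        exact mul_left_cancel h1
      rw [e]; group
    have h4 := eq_one_of_cm_eq_one H.hS H.hD H.hcd hp.symm H.hB hd hd1 hcc h3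
    rw [h4, mul_one]
    exact ha
  · intro a ha
    rw [mem_fixIn]
    exact ⟨(le_sup_left : A ≤ A ⊔ ⁅A, B⁆) ha, fun t ht => hcomD a ha t ht⟩

lemma conj_right_le {b : G} (hb : b ∈ B) : conjBy (A ⊔ ⁅A, B⁆) b ≤ A ⊔ ⁅A, B⁆ := by
  rw [conjBy_sup]
  apply sup_le (conjBy_le_sup_commutator hb)
  have : conjBy ⁅A, B⁆ b = ⁅A, B⁆ := conjBy_eq_of_commute
    (fun x hx => (H.hc.comm_right hx hb).symm)
  rw [this]
  exact le_sup_right

lemma conj_left_le {d : G} (hd : d ∈ D) : conjBy (A ⊔ ⁅A, B⁆) d ≤ A ⊔ ⁅A, B⁆ := by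
  rw [conjBy_sup]
  have h1 : conjBy A d = A := conjBy_eq_of_commute (fun x hx => by
    have ha' : x ∈ ⁅D, ⁅A, B⁆⁆ := by rw [H.hDC]; exact hx
    exact (H.hcd.comm_left ha' hd).symm)
  rw [h1]
  apply sup_le le_sup_left
  have h2 := conjBy_le_sup_commutator (A := ⁅A, B⁆) (B := D) hd
  have h3 : ⁅⁅A, B⁆, D⁆ = A := by rw [Subgroup.commutator_comm]; exact H.hDC
  rw [h3] at h2
  rwa [sup_comm] at h2

/-- `X` normalizes `N`. -/
lemma conj_N {x : G} (hx : x ∈ B ⊔ D) : conjBy (A ⊔ ⁅A, B⁆) x = A ⊔ ⁅A, B⁆ := by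
  have hle : B ⊔ D ≤ Subgroup.normalizer ((A ⊔ ⁅A, B⁆ : Subgroup G) : Set G) := by
    apply sup_le
    · intro b hb
      apply mem_normalizer_of_conj_le
      apply le_antisymm (H.conj_right_le hb)
      have := conjBy_le (H.conj_right_le (B.inv_mem hb)) b
      rwa [conjBy_conjBy_inv] at this
    · intro d hd
      apply mem_normalizer_of_conj_le
      apply le_antisymm (H.conj_left_le hd)
      have := conjBy_le (H.conj_left_le (D.inv_mem hd)) d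
      rwa [conjBy_conjBy_inv] at this
  exact mem_normalizer_iff_conjBy.mp (hle hx)

lemma fix_conj_right {x : G} (hx : x ∈ B ⊔ D) :
    fixIn (A ⊔ ⁅A, B⁆) (conjBy B x) = conjBy ⁅A, B⁆ x := by
  rw [fixIn_conj (H.conj_N hx), H.fix_right]

lemma fix_conj_left {x : G} (hx : x ∈ B ⊔ D) :
    fixIn (A ⊔ ⁅A, B⁆) (conjBy D x) = conjBy A x := by
  rw [fixIn_conj (H.conj_N hx), H.fix_left]

/-- `A` is a conjugate of `C`. -/
lemma exists_conj_eq : ∃ y ∈ B ⊔ D, A = conjBy ⁅A, B⁆ y ∧ D = conjBy B y := by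
  obtain ⟨y, hy, hye⟩ := H.rankOne.right_mem_unipotent
  refine ⟨y, hy, ?_, hye⟩
  rw [← H.fix_conj_right hy, ← hye, H.fix_left]

lemma inf_eq_bot : A ⊓ ⁅A, B⁆ = ⊥ := by
  have hp := H.rankOne
  rw [eq_bot_iff]
  rintro y ⟨hy, hy'⟩
  obtain ⟨b, hb, hb1⟩ := hp.exists_ne_one_left
  have h2 := H.hc.comm_right hy' hb
  have h3 : b * y * b⁻¹ * y⁻¹ = 1 := by rw [← h2]; group
  rw [Subgroup.mem_bot]
  exact eq_one_of_cm_eq_one H.hS H.hB H.hc.symm hp H.hD hb hb1 hy h3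

lemma inf_fix {T₁ T₂ : Subgroup G} (h₁ : T₁ ∈ unipotentSubgroups B D)
    (h₂ : T₂ ∈ unipotentSubgroups B D) (hne : T₁ ≠ T₂) :
    fixIn (A ⊔ ⁅A, B⁆) T₁ ⊓ fixIn (A ⊔ ⁅A, B⁆) T₂ = ⊥ := by
  rw [eq_bot_iff]
  rintro y ⟨hy₁, hy₂⟩
  obtain ⟨hyN, hy₁⟩ := mem_fixIn.mp hy₁
  obtain ⟨-, hy₂⟩ := mem_fixIn.mp hy₂
  have hsup := (H.rankOne.of_mem_unipotent h₁ h₂ hne).2
  have hle : B ⊔ D ≤ Subgroup.centralizer ({y} : Set G) := by
    rw [← hsup]
    apply sup_le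
    · intro t ht
      rw [Subgroup.mem_centralizer_singleton_iff]
      exact hy₁ t ht
    · intro t ht
      rw [Subgroup.mem_centralizer_singleton_iff]
      exact hy₂ t ht
  have hcomm : ∀ t ∈ B ⊔ D, t * y = y * t := by
    intro t ht
    have := hle ht
    rwa [Subgroup.mem_centralizer_singleton_iff] at this
  have h1 : y ∈ ⁅A, B⁆ := by
    rw [← H.fix_right, mem_fixIn]
    exact ⟨hyN, fun t ht => hcomm t ((le_sup_left : B ≤ B ⊔ D) ht)⟩
  have h2 : y ∈ A := by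
    rw [← H.fix_left, mem_fixIn]
    exact ⟨hyN, fun t ht => hcomm t ((le_sup_right : D ≤ B ⊔ D) ht)⟩
  have h3 : y ∈ A ⊓ ⁅A, B⁆ := ⟨h2, h1⟩
  rwa [H.inf_eq_bot] at h3

lemma fam_iff {E : Subgroup G} :
    (∃ x ∈ B ⊔ D, E = conjBy A x) ↔ ∃ T ∈ unipotentSubgroups B D, E = fixIn (A ⊔ ⁅A, B⁆) T := by
  obtain ⟨y, hy, hAy, -⟩ := H.exists_conj_eq
  constructor
  · rintro ⟨x, hx, rfl⟩
    have hxy : x * y ∈ B ⊔ D := Subgroup.mul_mem _ hx hy
    refine ⟨conjBy B (x * y), ⟨_, hxy, rfl⟩, ?_⟩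
    rw [H.fix_conj_right hxy, conjBy_mul, ← hAy]
  · rintro ⟨T, ⟨u, hu, rfl⟩, rfl⟩
    have hCA : ⁅A, B⁆ = conjBy A y⁻¹ := by
      have := conjBy_inv_conjBy ⁅A, B⁆ y
      rw [← hAy] at this
      exact this.symm
    refine ⟨u * y⁻¹, Subgroup.mul_mem _ hu (Subgroup.inv_mem _ hy), ?_⟩
    rw [H.fix_conj_right hu, conjBy_mul, ← hCA]

end NaturalData

/-- Full conclusion. -/
theorem natural_conclusion (H : NaturalData S A B D) :
    IsRankOnePair B D ∧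
    {E | ∃ x ∈ B ⊔ D, E = conjBy A x} = {E | ∃ x ∈ B ⊔ D, E = conjBy ⁅A, B⁆ x} ∧
    {E | ∃ x ∈ B ⊔ D, E = conjBy A x} = (fun b : G => conjBy A b) '' (B : Set G) ∪ {⁅A, B⁆} ∧
    {E | ∃ x ∈ B ⊔ D, E = conjBy A x} = (fun d : G => conjBy ⁅A, B⁆ d) '' (D : Set G) ∪ {A} ∧
    IsSubgroupPartition (A ⊔ ⁅A, B⁆) {E | ∃ x ∈ B ⊔ D, E = conjBy A x} ∧
    ∀ x ∈ (B ⊔ D) ⊓ Subgroup.centralizer ((A ⊔ ⁅A, B⁆ : Subgroup G) : Set G), ∀ y ∈ B ⊔ D,
      x * y = y * x := by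
  have hp := H.rankOne
  obtain ⟨y, hy, hAy, hDy⟩ := H.exists_conj_eq
  have hCA : ⁅A, B⁆ = conjBy A y⁻¹ := by
    have := conjBy_inv_conjBy ⁅A, B⁆ y
    rw [← hAy] at this
    exact this.symm
  have hyi : y⁻¹ ∈ B ⊔ D := Subgroup.inv_mem _ hy
  refine ⟨hp, ?_, ?_, ?_, ?_, ?_⟩
  · ext E
    constructor
    · rintro ⟨x, hx, rfl⟩
      refine ⟨x * y, Subgroup.mul_mem _ hx hy, ?_⟩
      rw [conjBy_mul, ← hAy]
    · rintro ⟨x, hx, rfl⟩
      refine ⟨x * y⁻¹, Subgroup.mul_mem _ hx hyi, ?_⟩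
      rw [conjBy_mul, ← hCA]
  · ext E
    constructor
    · intro hE
      obtain ⟨T, hT, rfl⟩ := H.fam_iff.mp hE
      rcases hp.mem_unipotent_iff.mp hT with rfl | ⟨b, hb, rfl⟩
      · right
        exact H.fix_right
      · left
        exact ⟨b, hb, (H.fix_conj_left ((le_sup_left : B ≤ B ⊔ D) hb)).symm⟩
    · rintro (⟨b, hb, rfl⟩ | hE)
      · exact ⟨b, (le_sup_left : B ≤ B ⊔ D) hb, rfl⟩
      · rw [Set.mem_singleton_iff] at hE
        rw [hE]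
        exact ⟨y⁻¹, hyi, hCA⟩
  · ext E
    constructor
    · intro hE
      obtain ⟨T, ⟨u, hu, rfl⟩, rfl⟩ := H.fam_iff.mp hE
      have hmem : conjBy B u ∈ unipotentSubgroups D B := by
        refine ⟨u * y⁻¹, ?_, ?_⟩
        · rw [sup_comm]
          exact Subgroup.mul_mem _ hu hyi
        · rw [conjBy_mul, hDy, conjBy_inv_conjBy]
      rcases hp.symm.mem_unipotent_iff.mp hmem with h1 | ⟨d, hd, h1⟩
      · right
        rw [h1]
        exact H.fix_left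
      · left
        refine ⟨d, hd, ?_⟩
        simp only []
        rw [h1, H.fix_conj_right ((le_sup_right : D ≤ B ⊔ D) hd)]
    · rintro (⟨d, hd, rfl⟩ | hE)
      · refine ⟨d * y⁻¹, Subgroup.mul_mem _ ((le_sup_right : D ≤ B ⊔ D) hd) hyi, ?_⟩
        rw [conjBy_mul, ← hCA]
      · rw [Set.mem_singleton_iff] at hE
        rw [hE]
        exact ⟨1, Subgroup.one_mem _, (conjBy_one A).symm⟩
  · refine ⟨?_, ?_, ?_⟩
    · rintro E ⟨x, hx, rfl⟩
      rw [← H.conj_N hx]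
      exact conjBy_le le_sup_left x
    · intro x hx hx1
      rcases mem_commutator_or_conj H.hc hx with h1 | ⟨b, hb, hxb⟩
      · exact ⟨_, ⟨y⁻¹, hyi, hCA⟩, h1⟩
      · exact ⟨_, ⟨b, (le_sup_left : B ≤ B ⊔ D) hb, rfl⟩, hxb⟩
    · intro E₁ hE₁ E₂ hE₂ hne
      obtain ⟨T₁, hT₁, rfl⟩ := H.fam_iff.mp hE₁
      obtain ⟨T₂, hT₂, rfl⟩ := H.fam_iff.mp hE₂
      apply H.inf_fix hT₁ hT₂
      rintro rfl
      exact hne rfl
  · rintro x ⟨hx, hxc⟩ u hu
    have hxk : x ∈ kernelOn B D := by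
      refine ⟨hx, fun T hT => ?_⟩
      by_contra hne
      have hT' : conjBy T x ∈ unipotentSubgroups B D := conj_mem_unipotent hT hx
      have h0 := H.inf_fix hT' hT hne
      obtain ⟨w, hw, rfl⟩ := hT
      have hfix := H.fix_conj_right hw
      have hfix' : fixIn (A ⊔ ⁅A, B⁆) (conjBy (conjBy B w) x) = fixIn (A ⊔ ⁅A, B⁆) (conjBy B w) := by
        rw [fixIn_conj (H.conj_N hx)]
        apply conjBy_eq_of_commute
        intro z hz
        have hz' : z ∈ A ⊔ ⁅A, B⁆ := (mem_fixIn.mp hz).1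
        exact (Subgroup.mem_centralizer_iff.mp hxc z hz').symm
      rw [hfix', inf_idem, hfix] at h0
      have h1 := conjBy_eq_bot h0
      exact H.hS.ne_bot _ H.hc.1 h1
    exact kernelOn_commute hp hxk hu

end Natural

end Cfsg.Agent.Lib.Root
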