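import Mathlib
import Cfsg.Agent.Lib.Root.Natural

/-!
Abstract root subgroups: lines.
-/

set_option autoImplicit false

namespace Cfsg.Agent.Lib.Root

open Cfsg

variable {G : Type*} [Group G] {S : Set (Subgroup G)}

lemma rootElements_conj (hS : IsRootSubgroupSet S) {x g : G} (hx : x ∈ rootElements S) :
    g * x * g⁻¹ ∈ rootElements S := by
  obtain ⟨hx1, T, hT, hxT⟩ := hx
  refine ⟨?_, conjBy T g, hS.conj_mem T hT g, conj_mem_conjBy hxT⟩
  intro h
  apply hx1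
  have : x = g⁻¹ * (g * x * g⁻¹) * g := by group
  rw [this, h]
  group

/-- The key identification `[E, [D, Y]] = Y`. -/
lemma commutator_eq_of_line (hS : IsRootSubgroupSet S) {D Y E P : Subgroup G} (hD : D ∈ S)
    (hE : E ∈ S) (hP : P ∈ S) (hDE : IsRankOnePair D E) (hYP : IsRankOnePair Y P)
    (hc : RootCommutatorCase S D Y) (hYE : ⁅Y, E⁆ = ⊥)
    (hroot : ∀ y ∈ Y, y ≠ 1 → ∀ e ∈ E, e ≠ 1 → y * e ∈ rootElements S) :
    ⁅E, ⁅D, Y⁆⁆ = Y := by
  have hF : ⁅D, Y⁆ ∈ S := hc.1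
  have hcommYE : ∀ y ∈ Y, ∀ e ∈ E, y * e = e * y := by
    intro y hy e he
    have := cm_mem hy he
    rw [hYE, Subgroup.mem_bot] at this
    exact mul_inv_eq_iff_eq_mul.mp (mul_inv_eq_one.mp this)
  have hne := commutator_ne_bot_of_partner hS hD hc hDE hE
  have hnr : ¬ IsRankOnePair E ⁅D, Y⁆ := by
    intro hp
    obtain ⟨y, hy, hy1⟩ := hYP.exists_ne_one_left
    obtain ⟨e, he, he1⟩ := hDE.exists_ne_one_right
    have hz : y ∈ Subgroup.centralizer ((E ⊔ ⁅D, Y⁆ : Subgroup G) : Set G) := by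
      have hle : E ⊔ ⁅D, Y⁆ ≤ Subgroup.centralizer ({y} : Set G) := by
        apply sup_le
        · intro x hx
          rw [Subgroup.mem_centralizer_singleton_iff]
          exact (hcommYE y hy x hx).symm
        · intro x hx
          rw [Subgroup.mem_centralizer_singleton_iff]
          exact hc.comm_right hx hy
      rw [Subgroup.mem_centralizer_iff]
      intro x hx
      have := hle hx
      rwa [Subgroup.mem_centralizer_singleton_iff] at this
    exact not_mem_rootElements hS hF hp hz hy1 e he he1 (hroot y hy hy1 e he he1)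
  have hcEF : RootCommutatorCase S E ⁅D, Y⁆ := by
    rcases hS.pair E hE _ hF with h0 | h0 | h0
    · exact absurd h0 hne
    · exact absurd h0 hnr
    · exact h0
  have hYK : Y ≤ ⁅E, ⁅D, Y⁆⁆ := by
    intro y hy
    by_cases hy1 : y = 1
    · rw [hy1]; exact Subgroup.one_mem _
    obtain ⟨d, hd, hd1⟩ := hDE.exists_ne_one_left
    obtain ⟨e, he, he1, hrel⟩ := hDE.cond_left d hd hd1
    set f' := y⁻¹ * d⁻¹ * y * d with hf'
    have hf'm : f' ∈ ⁅D, Y⁆ := by
      have h1 := cm_mem (Y.inv_mem hy) (D.inv_mem hd)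
      rw [Subgroup.commutator_comm] at h1
      simpa [hf'] using h1
    set k' := e * f' * e⁻¹ * f'⁻¹ with hk'
    have hk'm : k' ∈ ⁅E, ⁅D, Y⁆⁆ := cm_mem he hf'm
    have hyf : y * f' = f' * y := (hc.comm_right hf'm hy).symm
    have hye : y * e = e * y := hcommYE y hy e he
    have hyk : y * k' = k' * y := by
      have h1 : y * e⁻¹ = e⁻¹ * y := by
        have : e⁻¹ * (e * y) * e⁻¹ = e⁻¹ * (y * e) * e⁻¹ := by rw [hye]
        simpa [mul_assoc] using this
      have h2 : y * f'⁻¹ = f'⁻¹ * y := by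
        have : f'⁻¹ * (f' * y) * f'⁻¹ = f'⁻¹ * (y * f') * f'⁻¹ := by rw [hyf]
        simpa [mul_assoc] using this
      rw [hk']
      calc y * (e * f' * e⁻¹ * f'⁻¹) = (y * e) * f' * e⁻¹ * f'⁻¹ := by group
        _ = e * (y * f') * e⁻¹ * f'⁻¹ := by rw [hye]; group
        _ = e * f' * (y * e⁻¹) * f'⁻¹ := by rw [hyf]; group
        _ = e * f' * e⁻¹ * (y * f'⁻¹) := by rw [h1]; group
        _ = e * f' * e⁻¹ * f'⁻¹ * y := by rw [h2]; group
    -- `w` commutes with `D`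
    set w := (e * d⁻¹) * y * (e * d⁻¹)⁻¹ with hw
    have hED : conjBy E (e * d⁻¹) = D := by
      have h1 : conjBy E (e * d⁻¹) = conjBy (conjBy E d⁻¹) e := conjBy_mul E e d⁻¹
      rw [h1, ← hrel, conjBy_conjBy_inv]
    have hwD : ∀ x ∈ D, w * x = x * w := by
      intro x hx
      rw [← hED] at hx
      have hx' := mem_conjBy.mp hx
      set x₀ := (e * d⁻¹)⁻¹ * x * (e * d⁻¹) with hx₀
      have h1 : y * x₀ = x₀ * y := hcommYE y hy x₀ hx'
      have ex : x = (e * d⁻¹) * x₀ * (e * d⁻¹)⁻¹ := by rw [hx₀]; group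
      rw [ex, hw]
      calc (e * d⁻¹) * y * (e * d⁻¹)⁻¹ * ((e * d⁻¹) * x₀ * (e * d⁻¹)⁻¹)
          = (e * d⁻¹) * (y * x₀) * (e * d⁻¹)⁻¹ := by group
        _ = (e * d⁻¹) * (x₀ * y) * (e * d⁻¹)⁻¹ := by rw [h1]
        _ = (e * d⁻¹) * x₀ * (e * d⁻¹)⁻¹ * ((e * d⁻¹) * y * (e * d⁻¹)⁻¹) := by group
    have hwform : w = (y * k') * f' := by
      rw [hw, hk']
      have e1 : d⁻¹ * y * d = y * f' := by rw [hf']; group
      have e2 : e * y * e⁻¹ = y := by rw [← hye]; group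
      calc (e * d⁻¹) * y * (e * d⁻¹)⁻¹ = e * (d⁻¹ * y * d) * e⁻¹ := by group
        _ = e * (y * f') * e⁻¹ := by rw [e1]
        _ = (e * y * e⁻¹) * (e * f' * e⁻¹) := by group
        _ = y * (e * f' * e⁻¹) := by rw [e2]
        _ = y * (e * f' * e⁻¹ * f'⁻¹) * f' := by group
    set z := y * k' with hz
    have hzD : ∀ x ∈ D, z * x = x * z := by
      intro x hx
      have h1 := hwD x hx
      have h2 : f' * x = x * f' := hc.comm_left hf'm hx
      rw [hwform] at h1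
      have h3 : z * (x * f') = x * z * f' := by
        calc z * (x * f') = z * (f' * x) := by rw [h2]
          _ = z * f' * x := by group
          _ = x * (z * f') := h1
          _ = x * z * f' := by group
      have h4 : z * x * f' = x * z * f' := by rw [← h3]; group
      exact mul_right_cancel h4
    have hzE : ∀ x ∈ E, z * x = x * z := by
      intro x hx
      have h1 := hcommYE y hy x hx
      have h2 : k' * x = x * k' := hcEF.comm_left hk'm hx
      rw [hz]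
      calc y * k' * x = y * (k' * x) := by group
        _ = y * (x * k') := by rw [h2]
        _ = (y * x) * k' := by group
        _ = (x * y) * k' := by rw [h1]
        _ = x * (y * k') := by group
    have hzc : z ∈ Subgroup.centralizer ((E ⊔ D : Subgroup G) : Set G) := by
      have hle : E ⊔ D ≤ Subgroup.centralizer ({z} : Set G) := by
        apply sup_le
        · intro x hx
          rw [Subgroup.mem_centralizer_singleton_iff]
          exact (hzE x hx).symm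
        · intro x hx
          rw [Subgroup.mem_centralizer_singleton_iff]
          exact (hzD x hx).symm
      rw [Subgroup.mem_centralizer_iff]
      intro x hx
      have := hle hx
      rwa [Subgroup.mem_centralizer_singleton_iff] at this
    -- `z e` is a root element
    have hroot2 : z * e ∈ rootElements S := by
      have hmem : k' * e ∈ E ⊔ ⁅E, ⁅D, Y⁆⁆ :=
        Subgroup.mul_mem _ ((le_sup_right : ⁅E, ⁅D, Y⁆⁆ ≤ E ⊔ ⁅E, ⁅D, Y⁆⁆) hk'm)
          ((le_sup_left : E ≤ E ⊔ ⁅E, ⁅D, Y⁆⁆) he)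
      rcases mem_commutator_or_conj hcEF hmem with h1 | ⟨f'', hf'', h1⟩
      · exfalso
        have h2 : e ∈ ⁅E, ⁅D, Y⁆⁆ := by
          have : e = k'⁻¹ * (k' * e) := by group
          rw [this]
          exact Subgroup.mul_mem _ (Subgroup.inv_mem _ hk'm) h1
        have h3 : e ∈ E ⊓ ⁅E, ⁅D, Y⁆⁆ := ⟨he, h2⟩
        rw [inf_commutator_eq_bot hS hcEF hDE.symm hD, Subgroup.mem_bot] at h3
        exact he1 h3
      · have h2 := mem_conjBy.mp h1
        set e₃ := f''⁻¹ * (k' * e) * f'' with he₃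
        have he₃1 : e₃ ≠ 1 := by
          intro h
          have h3 : k' * e = f'' * e₃ * f''⁻¹ := by rw [he₃]; group
          rw [h, mul_one, mul_inv_cancel] at h3
          have h4 : e = k'⁻¹ := eq_inv_of_mul_eq_one_right h3
          have h5 : e ∈ E ⊓ ⁅E, ⁅D, Y⁆⁆ := ⟨he, by rw [h4]; exact Subgroup.inv_mem _ hk'm⟩
          rw [inf_commutator_eq_bot hS hcEF hDE.symm hD, Subgroup.mem_bot] at h5
          exact he1 h5
        have h3 := rootElements_conj hS (g := f'') (hroot y hy hy1 e₃ h2 he₃1)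
        have h4 : y * f'' = f'' * y := (hc.comm_right hf'' hy).symm
        have h5 : f'' * (y * e₃) * f''⁻¹ = y * (k' * e) := by
          rw [he₃]
          calc f'' * (y * (f''⁻¹ * (k' * e) * f'')) * f''⁻¹
              = (f'' * y) * f''⁻¹ * (k' * e) := by group
            _ = (y * f'') * f''⁻¹ * (k' * e) := by rw [h4]
            _ = y * (k' * e) := by group
        rw [h5] at h3
        have e6 : z * e = y * (k' * e) := by rw [hz]; group
        rw [e6]
        exact h3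
    have hz1 : z = 1 := by
      by_contra hz1
      exact not_mem_rootElements hS hD hDE.symm hzc hz1 e he he1 hroot2
    have : y = k'⁻¹ := eq_inv_of_mul_eq_one_left hz1
    rw [this]
    exact Subgroup.inv_mem _ hk'm
  obtain ⟨y, hy, hy1⟩ := hYP.exists_ne_one_left
  exact (eq_of_not_isolated hS hYP hP hcEF.1 hy (hYK hy) hy1).symm

/-- A line pair: elementary facts. -/
lemma line_comm {A B : Subgroup G} (hcomm : ⁅A, B⁆ = ⊥) {a b : G} (ha : a ∈ A) (hb : b ∈ B) :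
    a * b = b * a := by
  have := cm_mem ha hb
  rw [hcomm, Subgroup.mem_bot] at this
  exact mul_inv_eq_iff_eq_mul.mp (mul_inv_eq_one.mp this)

lemma mul_mem_rootElements_of_partition {A B : Subgroup G}
    (hpart : IsSubgroupPartition (A ⊔ B) (membersIn S (A ⊔ B))) (hinf : A ⊓ B = ⊥) {a b : G}
    (ha : a ∈ A) (hb : b ∈ B) (ha1 : a ≠ 1) : a * b ∈ rootElements S := by
  have hmem : a * b ∈ A ⊔ B :=
    Subgroup.mul_mem _ ((le_sup_left : A ≤ A ⊔ B) ha) ((le_sup_right : B ≤ A ⊔ B) hb)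
  have h1 : a * b ≠ 1 := by
    intro h
    have h2 : a = b⁻¹ := eq_inv_of_mul_eq_one_left h
    have h3 : a ∈ A ⊓ B := ⟨ha, by rw [h2]; exact B.inv_mem hb⟩
    rw [hinf, Subgroup.mem_bot] at h3
    exact ha1 h3
  obtain ⟨E, ⟨hE, -⟩, hxE⟩ := hpart.2.1 _ hmem h1
  exact ⟨h1, E, hE, hxE⟩

/-- In a line, a partner of one member does not commute with another. -/
lemma commutator_ne_bot_of_line (hS : IsRootSubgroupSet S) {A B D : Subgroup G} (hD : D ∈ S)
    (hAD : IsRankOnePair A D) (hcomm : ⁅A, B⁆ = ⊥)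
    (hroot : ∀ b ∈ B, b ≠ 1 → ∀ a ∈ A, a ≠ 1 → b * a ∈ rootElements S) (hB : B ≠ ⊥) :
    ⁅D, B⁆ ≠ ⊥ := by
  intro h0
  obtain ⟨b, hb, hb1⟩ := (Subgroup.bot_or_exists_ne_one _).resolve_left hB
  obtain ⟨a, ha, ha1⟩ := hAD.exists_ne_one_left
  have hz : b ∈ Subgroup.centralizer ((A ⊔ D : Subgroup G) : Set G) := by
    have hle : A ⊔ D ≤ Subgroup.centralizer ({b} : Set G) := by
      apply sup_le
      · intro x hx
        rw [Subgroup.mem_centralizer_singleton_iff]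
        exact line_comm hcomm hx hb
      · intro x hx
        rw [Subgroup.mem_centralizer_singleton_iff]
        exact line_comm h0 hx hb
    rw [Subgroup.mem_centralizer_iff]
    intro x hx
    have := hle hx
    rwa [Subgroup.mem_centralizer_singleton_iff] at this
  exact not_mem_rootElements hS hD hAD hz hb1 a ha ha1 (hroot b hb hb1 a ha ha1)

/-- The exceptional member of a line with respect to a partner of `A`. -/
theorem exists_exception (hS : IsRootSubgroupSet S) {A B D : Subgroup G} (hA : A ∈ S)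
    (hD : D ∈ S) (hAD : IsRankOnePair A D) (hl : B ∈ linePartners S A)
    (hpart : ∀ E ∈ membersIn S (A ⊔ B), ∃ P ∈ S, IsRankOnePair E P) :
    ∃ Y ∈ membersIn S (A ⊔ B), Y ≠ A ∧ A ⊔ Y = A ⊔ B ∧ RootCommutatorCase S D Y := by
  obtain ⟨⟨hB, hne, hcomm⟩, hP⟩ := hl
  have hinf : A ⊓ B = ⊥ := by
    rw [eq_bot_iff]
    rintro x ⟨hxA, hxB⟩
    rw [Subgroup.mem_bot]
    by_contra hx
    exact hne (eq_of_not_isolated hS hAD hD hB hxA hxB hx).symm
  have hroot : ∀ b ∈ B, b ≠ 1 → ∀ a ∈ A, a ≠ 1 → b * a ∈ rootElements S := by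
    intro b hb _ a ha ha1
    rw [← line_comm hcomm ha hb]
    exact mul_mem_rootElements_of_partition hP hinf ha hb ha1
  rcases hS.pair D hD B hB with h0 | h0 | h0
  · exact absurd h0 (commutator_ne_bot_of_line hS hD hAD hcomm hroot (hS.ne_bot B hB))
  · -- both are partners of `D`
    obtain ⟨e, he, he1⟩ := hAD.exists_ne_one_right
    obtain ⟨a, ha, ha1, hae⟩ := hAD.symm.cond_left e he he1
    obtain ⟨c, hc, hc1, hce⟩ := h0.cond_left e he he1
    set y := a * c⁻¹ with hy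
    have hy1 : y ≠ 1 := by
      intro h
      have h1 : a = c := mul_inv_eq_one.mp h
      have h2 : a ∈ A ⊓ B := ⟨ha, by rw [h1]; exact hc⟩
      rw [hinf, Subgroup.mem_bot] at h2
      exact ha1 h2
    have hymem : y ∈ A ⊔ B :=
      Subgroup.mul_mem _ ((le_sup_left : A ≤ A ⊔ B) ha)
        ((le_sup_right : B ≤ A ⊔ B) (B.inv_mem hc))
    obtain ⟨Y, ⟨hYS, hYle⟩, hyY⟩ := hP.2.1 y hymem hy1
    have hDT : ⁅D, conjBy D y⁆ = ⊥ := by
      -- conjugates of the commuting pair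
      have h1 : ⁅conjBy A e⁻¹, conjBy B e⁻¹⁆ = ⊥ := by
        rw [eq_bot_iff, Subgroup.commutator_le]
        intro u hu v hv
        have hu' := mem_conjBy.mp hu
        have hv' := mem_conjBy.mp hv
        have := line_comm hcomm hu' hv'
        rw [Subgroup.mem_bot, commutatorElement_eq_one_iff_mul_comm]
        have e1 : u * v = e⁻¹ * ((e⁻¹⁻¹ * u * e⁻¹) * (e⁻¹⁻¹ * v * e⁻¹)) * e := by group
        have e2 : v * u = e⁻¹ * ((e⁻¹⁻¹ * v * e⁻¹) * (e⁻¹⁻¹ * u * e⁻¹)) * e := by group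
        rw [e1, e2, this]
      rw [← hae, ← hce] at h1
      rw [eq_bot_iff, Subgroup.commutator_le]
      intro u hu v hv
      rw [Subgroup.mem_bot, commutatorElement_eq_one_iff_mul_comm]
      have hv' : a⁻¹ * v * a ∈ conjBy D c⁻¹ := by
        have h2 := mem_conjBy.mp hv
        rw [mem_conjBy]
        have e1 : c⁻¹⁻¹ * (a⁻¹ * v * a) * c⁻¹ = y⁻¹ * v * y := by
          rw [hy]
          group
        rw [e1]
        exact h2
      have hu' : a⁻¹ * u * a ∈ conjBy D a⁻¹ := by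
        rw [mem_conjBy]
        simpa [mul_assoc] using hu
      have h3 := line_comm h1 hu' hv'
      have e1 : u * v = a * ((a⁻¹ * u * a) * (a⁻¹ * v * a)) * a⁻¹ := by group
      have e2 : v * u = a * ((a⁻¹ * v * a) * (a⁻¹ * u * a)) * a⁻¹ := by group
      rw [e1, e2, h3]
    have hYD : RootCommutatorCase S D Y := by
      rcases hS.pair D hD Y hYS with h1 | h1 | h1
      · exfalso
        have h2 : conjBy D y = D := conjBy_eq_of_commute (fun x hx =>
          (line_comm h1 hx hyY).symm)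
        -- then `A = B`
        apply hne
        have h3 : conjBy D c⁻¹ = conjBy D a⁻¹ := by
          have h4 : conjBy (conjBy D y) a⁻¹ = conjBy D a⁻¹ := by rw [h2]
          have h5 : conjBy D c⁻¹ = conjBy (conjBy D y) a⁻¹ := by
            rw [← conjBy_mul, hy]
            congr 1
            group
          rw [h5, h4]
        rw [hce, hae] at h3
        exact (conjBy_injective e⁻¹ h3)
      · exfalso
        have h2 : conjBy D y ≠ D := by
          intro h3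
          exact hy1 (h1.eq_one_of_mem_normalizer' hyY (mem_normalizer_of_conj_le h3))
        have hu : conjBy D y ∈ unipotentSubgroups D Y :=
          conj_mem_unipotent left_mem_unipotent ((le_sup_right : Y ≤ D ⊔ Y) hyY)
        exact (h1.of_mem_unipotent left_mem_unipotent hu h2.symm).1.commutator_ne_bot hDT
      · exact h1
    have hYA : Y ≠ A := by
      rintro rfl
      have h2 : c ∈ Y := by
        have : c = y⁻¹ * a := by rw [hy]; group
        rw [this]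
        exact Y.mul_mem (Y.inv_mem hyY) ha
      have h3 : c ∈ Y ⊓ B := ⟨h2, hc⟩
      rw [hinf, Subgroup.mem_bot] at h3
      exact hc1 h3
    refine ⟨Y, ⟨hYS, hYle⟩, hYA, ?_, hYD⟩
    apply le_antisymm (sup_le le_sup_left hYle)
    apply sup_le le_sup_left
    -- `B ≤ A ⊔ Y`
    obtain ⟨P, hPS, hYP⟩ := hpart Y ⟨hYS, hYle⟩
    have hYcomm : ⁅Y, A⁆ = ⊥ := by
      rw [eq_bot_iff, Subgroup.commutator_le]
      intro u hu v hv
      rw [Subgroup.mem_bot, commutatorElement_eq_one_iff_mul_comm]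
      have hu' := mem_sup_of_commute (fun x hx z hz => line_comm hcomm hx hz) (hYle hu)
      obtain ⟨a', ha', b', hb', rfl⟩ := hu'
      have h1 := comm_of_mem_of_S hS hA ha' hv
      have h2 := line_comm hcomm hv hb'
      calc a' * b' * v = a' * (b' * v) := by group
        _ = a' * (v * b') := by rw [h2]
        _ = (a' * v) * b' := by group
        _ = (v * a') * b' := by rw [h1]
        _ = v * (a' * b') := by group
    have hYroot : ∀ u ∈ Y, u ≠ 1 → ∀ v ∈ A, v ≠ 1 → u * v ∈ rootElements S := by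
      intro u hu hu1 v hv hv1
      have hmem : u * v ∈ A ⊔ B := Subgroup.mul_mem _ (hYle hu) ((le_sup_left : A ≤ A ⊔ B) hv)
      have h1 : u * v ≠ 1 := by
        intro h
        have h2 : u = v⁻¹ := eq_inv_of_mul_eq_one_left h
        have h3 : u ∈ A := by rw [h2]; exact A.inv_mem hv
        exact hYA (eq_of_not_isolated hS hYP hPS hA hu h3 hu1)
      obtain ⟨E, ⟨hE, -⟩, hxE⟩ := hP.2.1 _ hmem h1
      exact ⟨h1, E, hE, hxE⟩
    have hKe := commutator_eq_of_line hS hD hA hPS hAD.symm hYP hYD hYcomm hYroot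
    have hcAF : RootCommutatorCase S A ⁅D, Y⁆ :=
      commCase_of_mem hS hA hYD.1 (by rw [hKe]; exact hYS)
    have hpartY := partition_sup_commutator hS hA hcAF hAD hD
    rw [hKe] at hpartY
    have hcmem : c ∈ A ⊔ Y := by
      have : c = y⁻¹ * a := by
        rw [hy]
        group
      rw [this]
      exact Subgroup.mul_mem _ ((le_sup_right : Y ≤ A ⊔ Y) (Y.inv_mem hyY))
        ((le_sup_left : A ≤ A ⊔ Y) ha)
    obtain ⟨M, ⟨hMS, hMle⟩, hcM⟩ := hpartY.2.1 c hcmem hc1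
    have hBM : B = M := eq_of_not_isolated hS h0.symm hD hMS hc hcM hc1
    rw [hBM]
    exact hMle
  · exact ⟨B, ⟨hB, le_sup_right⟩, hne, rfl, h0⟩

/-- Members of a line commute with each other. -/
lemma commutator_eq_bot_of_line (hS : IsRootSubgroupSet S) {A B Y : Subgroup G} (hA : A ∈ S)
    (hcomm : ⁅A, B⁆ = ⊥) (hY : Y ≤ A ⊔ B) : ⁅Y, A⁆ = ⊥ := by
  rw [eq_bot_iff, Subgroup.commutator_le]
  intro u hu v hv
  rw [Subgroup.mem_bot, commutatorElement_eq_one_iff_mul_comm]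
  have hu' := mem_sup_of_commute (fun x hx z hz => line_comm hcomm hx hz) (hY hu)
  obtain ⟨a', ha', b', hb', rfl⟩ := hu'
  have h1 := comm_of_mem_of_S hS hA ha' hv
  have h2 := line_comm hcomm hv hb'
  calc a' * b' * v = a' * (b' * v) := by group
    _ = a' * (v * b') := by rw [h2]
    _ = (a' * v) * b' := by group
    _ = (v * a') * b' := by rw [h1]
    _ = v * (a' * b') := by group

/-- The data attached to a partner of `A` on a line through `A`. -/
theorem exists_line_data (hS : IsRootSubgroupSet S) {A B D : Subgroup G} (hA : A ∈ S)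
    (hD : D ∈ S) (hAD : IsRankOnePair A D) (hl : B ∈ linePartners S A)
    (hpart : ∀ E ∈ membersIn S (A ⊔ B), ∃ P ∈ S, IsRankOnePair E P) :
    ∃ Y F : Subgroup G, Y ∈ membersIn S (A ⊔ B) ∧ Y ≠ A ∧ A ⊔ Y = A ⊔ B ∧ F ∈ S ∧
      RootCommutatorCase S A F ∧ ⁅A, F⁆ = Y := by
  obtain ⟨Y, hY, hYA, hsup, hYD⟩ := exists_exception hS hA hD hAD hl hpart
  obtain ⟨⟨hB, hne, hcomm⟩, hP⟩ := hl
  obtain ⟨P, hPS, hYP⟩ := hpart Y hY
  have hYcomm : ⁅Y, A⁆ = ⊥ := commutator_eq_bot_of_line hS hA hcomm hY.2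
  have hYroot : ∀ u ∈ Y, u ≠ 1 → ∀ v ∈ A, v ≠ 1 → u * v ∈ rootElements S := by
    intro u hu hu1 v hv hv1
    have hmem : u * v ∈ A ⊔ B := Subgroup.mul_mem _ (hY.2 hu) ((le_sup_left : A ≤ A ⊔ B) hv)
    have h1 : u * v ≠ 1 := by
      intro h
      have h2 : u = v⁻¹ := eq_inv_of_mul_eq_one_left h
      have h3 : u ∈ A := by rw [h2]; exact A.inv_mem hv
      exact hYA (eq_of_not_isolated hS hYP hPS hA hu h3 hu1)
    obtain ⟨E, ⟨hE, -⟩, hxE⟩ := hP.2.1 _ hmem h1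
    exact ⟨h1, E, hE, hxE⟩
  have hKe := commutator_eq_of_line hS hD hA hPS hAD.symm hYP hYD hYcomm hYroot
  have hcAF : RootCommutatorCase S A ⁅D, Y⁆ :=
    commCase_of_mem hS hA hYD.1 (by rw [hKe]; exact hY.1)
  exact ⟨Y, ⁅D, Y⁆, hY, hYA, hsup, hYD.1, hcAF, hKe⟩

/-- Double transitivity of the normalizing members on the members of a line. -/
theorem line_doubly_transitive (hS : IsRootSubgroupSet S)
    (hF : ∀ E ∈ S, ∃ P ∈ S, IsRankOnePair E P) {A B : Subgroup G} (hA : A ∈ S)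
    (hB : B ∈ linePartners S A) :
    ∀ C₁ ∈ membersIn S (A ⊔ B), ∀ C₂ ∈ membersIn S (A ⊔ B), ∀ D₁ ∈ membersIn S (A ⊔ B),
      ∀ D₂ ∈ membersIn S (A ⊔ B), C₁ ≠ C₂ → D₁ ≠ D₂ →
        ∃ x ∈ ⨆ E ∈ normalizingMembers S (A ⊔ B), E, conjBy C₁ x = D₁ ∧ conjBy C₂ x = D₂ := by
  set N := A ⊔ B with hN
  set K : Subgroup G := ⨆ E ∈ normalizingMembers S N, E with hK
  have hpart : ∀ E ∈ membersIn S N, ∃ P ∈ S, IsRankOnePair E P := fun E hE => hF E hE.1
  obtain ⟨D, hD, hAD⟩ := hF A hA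
  obtain ⟨Y₁, F₁, hY₁, hY₁A, hsup₁, hF₁, hc₁, hcomm₁⟩ := exists_line_data hS hA hD hAD hB hpart
  have hAN : A ≤ N := le_sup_left
  have hPN : IsSubgroupPartition N (membersIn S N) := hB.2
  have hcommAB : ⁅A, B⁆ = ⊥ := hB.1.2.2
  -- `Y₁` lies on a line through `A`
  have hY₁comm : ⁅Y₁, A⁆ = ⊥ := commutator_eq_bot_of_line hS hA hcommAB hY₁.2
  have hAl : A ∈ linePartners S Y₁ := by
    refine ⟨⟨hA, hY₁A.symm, hY₁comm⟩, ?_⟩
    have : Y₁ ⊔ A = N := by rw [sup_comm]; exact hsup₁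
    rw [this]
    exact hPN
  have hsupY : Y₁ ⊔ A = N := by rw [sup_comm]; exact hsup₁
  obtain ⟨D', hD', hYD'⟩ := hF Y₁ hY₁.1
  have hpart' : ∀ E ∈ membersIn S (Y₁ ⊔ A), ∃ P ∈ S, IsRankOnePair E P := fun E hE => hF E hE.1
  obtain ⟨Y₂, F₂, hY₂, hY₂Y, hsup₂, hF₂, hc₂, hcomm₂⟩ :=
    exists_line_data hS hY₁.1 hD' hYD' hAl hpart'
  rw [hsupY] at hY₂ hsup₂
  -- the two normalizing members
  have hnorm : ∀ (X Y F : Subgroup G), X ∈ S → X ⊔ Y = N → RootCommutatorCase S X F → ⁅X, F⁆ = Y →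
      F ≤ Subgroup.normalizer (N : Set G) := by
    intro X Y F hX hXY hc hXF f hf
    have hFc : conjBy Y f = Y := by
      apply conjBy_eq_of_commute
      intro y hy
      exact (hc.comm_right (hXF.symm ▸ hy) hf).symm
    have hle : ∀ g ∈ F, conjBy N g ≤ N := by
      intro g hg
      have h1 : conjBy Y g = Y := by
        apply conjBy_eq_of_commute
        intro y hy
        exact (hc.comm_right (hXF.symm ▸ hy) hg).symm
      rw [← hXY, conjBy_sup, h1]
      apply sup_le _ le_sup_right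
      have := conjBy_le_sup_commutator (A := X) (B := F) hg
      rwa [hXF] at this
    apply mem_normalizer_of_conj_le
    apply le_antisymm (hle f hf)
    have h2 := conjBy_le (hle f⁻¹ (F.inv_mem hf)) f
    rwa [conjBy_conjBy_inv] at h2
  have hF₁K : F₁ ≤ K := by
    refine le_trans ?_ (le_iSup₂ (f := fun E (_ : E ∈ normalizingMembers S N) => E) F₁
      ⟨hF₁, hnorm A Y₁ F₁ hA hsup₁ hc₁ hcomm₁⟩)
    exact le_refl _
  have hF₂K : F₂ ≤ K := by
    refine le_trans ?_ (le_iSup₂ (f := fun E (_ : E ∈ normalizingMembers S N) => E) F₂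
      ⟨hF₂, hnorm Y₁ Y₂ F₂ hY₁.1 hsup₂ hc₂ hcomm₂⟩)
    exact le_refl _
  have hKN : K ≤ Subgroup.normalizer (N : Set G) := by
    apply iSup₂_le
    intro E hE
    exact hE.2
  -- `K` permutes the members
  have hperm : ∀ x ∈ K, ∀ Z ∈ membersIn S N, conjBy Z x ∈ membersIn S N := by
    intro x hx Z hZ
    refine ⟨hS.conj_mem Z hZ.1 x, ?_⟩
    have h1 := conjBy_le hZ.2 x
    rwa [mem_normalizer_iff_conjBy.mp (hKN hx)] at h1
  -- a `D₁`-independent description of the action of `F₁`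
  have hmem₁ : ∀ Z ∈ membersIn S N, Z ≠ Y₁ → ∃ f ∈ F₁, conjBy A f = Z := by
    intro Z hZ hZY
    have h1 : Z ∈ membersIn S (A ⊔ ⁅A, F₁⁆) := by
      rw [hcomm₁, hsup₁]; exact hZ
    rw [membersIn_sup_commutator hS hA hc₁ hAD hD] at h1
    rcases h1 with ⟨f, hf, rfl⟩ | h1
    · exact ⟨f, hf, rfl⟩
    · rw [Set.mem_singleton_iff, hcomm₁] at h1
      exact absurd h1 hZY
  have hmem₂ : ∀ Z ∈ membersIn S N, Z ≠ Y₂ → ∃ f ∈ F₂, conjBy Y₁ f = Z := by
    intro Z hZ hZY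
    have h1 : Z ∈ membersIn S (Y₁ ⊔ ⁅Y₁, F₂⁆) := by
      rw [hcomm₂, hsup₂]; exact hZ
    rw [membersIn_sup_commutator hS hY₁.1 hc₂ hYD' hD'] at h1
    rcases h1 with ⟨f, hf, rfl⟩ | h1
    · exact ⟨f, hf, rfl⟩
    · rw [Set.mem_singleton_iff, hcomm₂] at h1
      exact absurd h1 hZY
  -- the stabiliser of `Y₁`
  have hfix : ∀ f ∈ F₁, conjBy Y₁ f = Y₁ := by
    intro f hf
    apply conjBy_eq_of_commute
    intro y hy
    exact (hc₁.comm_right (hcomm₁.symm ▸ hy) hf).symm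
  have hstab : ∀ Z ∈ membersIn S N, ∀ Z' ∈ membersIn S N, Z ≠ Y₁ → Z' ≠ Y₁ →
      ∃ f ∈ K, conjBy Y₁ f = Y₁ ∧ conjBy Z f = Z' := by
    intro Z hZ Z' hZ' h1 h2
    obtain ⟨f, hf, rfl⟩ := hmem₁ Z hZ h1
    obtain ⟨f', hf', rfl⟩ := hmem₁ Z' hZ' h2
    refine ⟨f' * f⁻¹, hF₁K (F₁.mul_mem hf' (F₁.inv_mem hf)), ?_, ?_⟩
    · rw [conjBy_mul, hfix _ (F₁.inv_mem hf), hfix _ hf']
    · rw [conjBy_mul, conjBy_inv_conjBy]
  -- a third member
  obtain ⟨W, hW, hWY₁, hWY₂⟩ : ∃ W ∈ membersIn S N, W ≠ Y₁ ∧ W ≠ Y₂ := by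
    obtain ⟨P₁, hP₁, hY₁P₁⟩ := hF Y₁ hY₁.1
    obtain ⟨P₂, hP₂, hY₂P₂⟩ := hF Y₂ hY₂.1
    obtain ⟨y₁, hy₁, hy₁1⟩ := hY₁P₁.exists_ne_one_left
    obtain ⟨y₂, hy₂, hy₂1⟩ := hY₂P₂.exists_ne_one_left
    have hmem : y₁ * y₂ ∈ N := Subgroup.mul_mem _ (hY₁.2 hy₁) (hY₂.2 hy₂)
    have hnot : ∀ {X : Subgroup G}, X ∈ S → ∀ {x : G}, x ∈ X → x ≠ 1 →
        (∃ P ∈ S, IsRankOnePair X P) → ∀ {X' : Subgroup G}, X' ∈ S → x ∈ X' → X = X' := by
      intro X hX x hx hx1 hp X' hX' hx'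
      obtain ⟨P, hPS, hXP⟩ := hp
      exact eq_of_not_isolated hS hXP hPS hX' hx hx' hx1
    have h1 : y₁ * y₂ ≠ 1 := by
      intro h
      have h2 : y₁ = y₂⁻¹ := eq_inv_of_mul_eq_one_left h
      have h3 : y₁ ∈ Y₂ := by rw [h2]; exact Y₂.inv_mem hy₂
      exact hY₂Y (hnot hY₁.1 hy₁ hy₁1 (hF _ hY₁.1) hY₂.1 h3).symm
    obtain ⟨W, hW, hxW⟩ := hPN.2.1 _ hmem h1
    refine ⟨W, hW, ?_, ?_⟩
    · intro hh
      rw [hh] at hxW
      have h3 : y₂ ∈ Y₁ := by
        have : y₂ = y₁⁻¹ * (y₁ * y₂) := by group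
        rw [this]
        exact Y₁.mul_mem (Y₁.inv_mem hy₁) hxW
      exact hY₂Y (hnot hY₂.1 hy₂ hy₂1 (hF _ hY₂.1) hY₁.1 h3)
    · intro hh
      rw [hh] at hxW
      have h3 : y₁ ∈ Y₂ := by
        have : y₁ = (y₁ * y₂) * y₂⁻¹ := by group
        rw [this]
        exact Y₂.mul_mem hxW (Y₂.inv_mem hy₂)
      exact hY₂Y (hnot hY₁.1 hy₁ hy₁1 (hF _ hY₁.1) hY₂.1 h3).symm
  -- transitivity
  have htrans : ∀ Z ∈ membersIn S N, ∃ x ∈ K, conjBy Y₁ x = Z := by
    intro Z hZ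
    by_cases hZ2 : Z = Y₂
    · obtain ⟨f, hf, hfW⟩ := hmem₂ W hW hWY₂
      have hne : Y₂ ≠ Y₁ := hY₂Y
      obtain ⟨g, hg, -, hgW⟩ := hstab W hW Y₂ hY₂ hWY₁ hne
      refine ⟨g * f, K.mul_mem hg (hF₂K hf), ?_⟩
      rw [conjBy_mul, hfW, hgW, hZ2]
    · obtain ⟨f, hf, hfZ⟩ := hmem₂ Z hZ hZ2
      exact ⟨f, hF₂K hf, hfZ⟩
  intro C₁ hC₁ C₂ hC₂ E₁ hE₁ E₂ hE₂ hC hE
  obtain ⟨x, hx, hxC⟩ := htrans C₁ hC₁
  obtain ⟨y, hy, hyE⟩ := htrans E₁ hE₁
  -- move `C₂` and `E₂`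
  have h1 : conjBy C₂ x⁻¹ ≠ Y₁ := by
    intro h
    apply hC
    rw [← hxC, ← h, conjBy_conjBy_inv]
  have h2 : conjBy E₂ y⁻¹ ≠ Y₁ := by
    intro h
    apply hE
    rw [← hyE, ← h, conjBy_conjBy_inv]
  obtain ⟨f, hf, hf1, hf2⟩ := hstab _ (hperm _ (K.inv_mem hx) C₂ hC₂) _
    (hperm _ (K.inv_mem hy) E₂ hE₂) h1 h2
  refine ⟨y * f * x⁻¹, K.mul_mem (K.mul_mem hy hf) (K.inv_mem hx), ?_, ?_⟩
  · rw [conjBy_mul, conjBy_mul, ← hxC, conjBy_inv_conjBy, hf1, hyE]
  · rw [conjBy_mul, conjBy_mul, hf2, conjBy_conjBy_inv]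

end Cfsg.Agent.Lib.Root
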