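import Mathlib
import Cfsg.Agent.Lib.Root.Lines

/-!
Abstract root subgroups: non-degenerate classes, special rank one groups.
-/

set_option autoImplicit false

namespace Cfsg.Agent.Lib.Root

open Cfsg

variable {G : Type*} [Group G] {S : Set (Subgroup G)}

/-- A rank one pair having a line partner with the commutator property is special. -/
theorem special_of_line (hS : IsRootSubgroupSet S) {A B C P : Subgroup G} (hA : A ∈ S) (hB : B ∈ S)
    (hC : C ∈ S) (hP : P ∈ S) (hAB : IsRankOnePair A B) (hCP : IsRankOnePair C P)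
    (hcomm : ⁅A, C⁆ = ⊥) (hne : C ≠ A)
    (hpart : IsSubgroupPartition (A ⊔ C) (membersIn S (A ⊔ C))) (hc : RootCommutatorCase S B C) :
    IsSpecialRankOnePair A B := by
  have hYE : ⁅C, A⁆ = ⊥ := by rw [Subgroup.commutator_comm]; exact hcomm
  have hroot : ∀ y ∈ C, y ≠ 1 → ∀ e ∈ A, e ≠ 1 → y * e ∈ rootElements S := by
    intro u hu hu1 v hv hv1
    have hmem : u * v ∈ A ⊔ C := Subgroup.mul_mem _ ((le_sup_right : C ≤ A ⊔ C) hu)
      ((le_sup_left : A ≤ A ⊔ C) hv)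
    have h1 : u * v ≠ 1 := by
      intro h
      have h2 : u = v⁻¹ := eq_inv_of_mul_eq_one_left h
      have h3 : u ∈ A := by rw [h2]; exact A.inv_mem hv
      exact hne (eq_of_not_isolated hS hCP hP hA hu h3 hu1)
    obtain ⟨E, ⟨hE, -⟩, hxE⟩ := hpart.2.1 _ hmem h1
    exact ⟨h1, E, hE, hxE⟩
  have hKe : ⁅A, ⁅B, C⁆⁆ = C := commutator_eq_of_line hS hB hA hP hAB.symm hCP hc hYE hroot
  have hDC : ⁅A, ⁅C, B⁆⁆ = C := by rw [Subgroup.commutator_comm C B]; exact hKe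
  have hF : ⁅C, B⁆ ∈ S := by rw [Subgroup.commutator_comm C B]; exact hc.1
  have hcd : RootCommutatorCase S A ⁅C, B⁆ := commCase_of_mem hS hA hF (by rw [hDC]; exact hC)
  have H : NaturalData S C B A := ⟨hS, hC, hB, hA, hc.symm, hcd, hDC⟩
  refine ⟨hAB, ?_⟩
  intro a ha ha1 b hb hb1 hrel
  have hbX : b⁻¹ ∈ B ⊔ A := (le_sup_left : B ≤ B ⊔ A) (B.inv_mem hb)
  have haX : a⁻¹ ∈ B ⊔ A := (le_sup_right : A ≤ B ⊔ A) (A.inv_mem ha)
  have hCF : conjBy C b⁻¹ = conjBy ⁅C, B⁆ a⁻¹ := by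
    rw [← H.fix_conj_left hbX, ← H.fix_conj_right haX, hrel]
  have hbF : ∀ f ∈ ⁅C, B⁆, b * f = f * b := fun f hf => (H.hc.comm_right hf hb).symm
  have hcF : ∀ f ∈ ⁅C, B⁆, ∀ c ∈ C, c * f = f * c := fun f hf c hc' => (H.hc.comm_left hf hc').symm
  have hac : ∀ c ∈ C, a * c = c * a := fun c hc' => line_comm hcomm ha hc'
  -- the relation on `s`
  have hsrel : ∀ c ∈ C, c⁻¹ * b⁻¹ * c * b ∈ ⁅C, B⁆ ∧
      a * (c⁻¹ * b⁻¹ * c * b) * a⁻¹ = c⁻¹ * (c⁻¹ * b⁻¹ * c * b) := by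
    intro c hcc
    have hs : c⁻¹ * b⁻¹ * c * b ∈ ⁅C, B⁆ := by
      have := cm_mem (C.inv_mem hcc) (B.inv_mem hb)
      simpa using this
    refine ⟨hs, ?_⟩
    set s := c⁻¹ * b⁻¹ * c * b with hsdef
    have e1 : b⁻¹ * c * b = c * s := by rw [hsdef]; group
    have h1 : b⁻¹ * c * b⁻¹⁻¹ ∈ conjBy C b⁻¹ := conj_mem_conjBy hcc
    rw [hCF, mem_conjBy] at h1
    have e2 : a⁻¹⁻¹ * (b⁻¹ * c * b⁻¹⁻¹) * a⁻¹ = c * (a * s * a⁻¹) := by
      have e3 : b⁻¹ * c * b⁻¹⁻¹ = c * s := by rw [inv_inv]; exact e1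
      rw [e3, inv_inv]
      calc a * (c * s) * a⁻¹ = (a * c) * s * a⁻¹ := by group
        _ = (c * a) * s * a⁻¹ := by rw [hac c hcc]
        _ = c * (a * s * a⁻¹) := by group
    rw [e2] at h1
    have h2 : a * s * a⁻¹ * s⁻¹ ∈ C := by
      have := cm_mem ha hs
      rwa [hDC] at this
    set c₀ := a * s * a⁻¹ * s⁻¹ with hc₀
    have e3 : a * s * a⁻¹ = c₀ * s := by rw [hc₀]; group
    rw [e3] at h1
    have h3 : c * c₀ ∈ ⁅C, B⁆ := by
      have e4 : c * c₀ = c * (c₀ * s) * s⁻¹ := by group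
      rw [e4]
      exact Subgroup.mul_mem _ h1 (Subgroup.inv_mem _ hs)
    have h4 : c * c₀ ∈ C ⊓ ⁅C, B⁆ := ⟨C.mul_mem hcc h2, h3⟩
    rw [H.inf_eq_bot, Subgroup.mem_bot] at h4
    have h5 : c₀ = c⁻¹ := by
      exact eq_inv_of_mul_eq_one_right h4
    rw [e3, h5]
  set u₁ := b⁻¹ * a * b with hu₁
  set u₂ := a⁻¹ * b⁻¹ * a with hu₂
  -- `u₁`, `u₂` agree on `C` and `F`
  have hagree : ∀ c ∈ C, u₁ * c * u₁⁻¹ = u₂ * c * u₂⁻¹ ∧
      u₁ * (c⁻¹ * b⁻¹ * c * b) * u₁⁻¹ = u₂ * (c⁻¹ * b⁻¹ * c * b) * u₂⁻¹ := by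
    intro c hcc
    obtain ⟨hs, e4⟩ := hsrel c hcc
    set s := c⁻¹ * b⁻¹ * c * b with hsdef
    have e1 : b⁻¹ * c * b = c * s := by rw [hsdef]; group
    have e2 : b * s = s * b := hbF s hs
    have e3 : a * c = c * a := hac c hcc
    have e5 : c * s = s * c := hcF s hs c hcc
    have e6 : b * c * b⁻¹ = c * s⁻¹ := by
      have h1 : c = b * (c * s) * b⁻¹ := by rw [← e1]; group
      have h2 : b * (c * s) * b⁻¹ = (b * c * b⁻¹) * (b * s * b⁻¹) := by group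
      have h3 : b * s * b⁻¹ = s := by rw [e2]; group
      rw [h2, h3] at h1
      exact eq_mul_inv_of_mul_eq h1.symm
    have e7 : a⁻¹ * s * a = c * s := by
      have h1 : s = a⁻¹ * (c⁻¹ * s) * a := by rw [← e4]; group
      have h2 : a⁻¹ * (c⁻¹ * s) * a = (a⁻¹ * c⁻¹ * a) * (a⁻¹ * s * a) := by group
      have h3 : a⁻¹ * c⁻¹ * a = c⁻¹ := by
        have : c⁻¹ * a = a * c⁻¹ := by
          have h4 : a * c⁻¹ = c⁻¹ * a := hac c⁻¹ (C.inv_mem hcc)
          exact h4.symm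
        rw [mul_assoc, this]; group
      rw [h2, h3] at h1
      calc a⁻¹ * s * a = c * (c⁻¹ * (a⁻¹ * s * a)) := by group
        _ = c * s := by rw [← h1]
    have e8 : a * c * a⁻¹ = c := by rw [e3]; group
    have e9 : a⁻¹ * c * a = c := by
      have : c = a⁻¹ * (a * c * a⁻¹) * a := by group
      rw [e8] at this
      exact this.symm
    have e10 : b⁻¹ * s * b = s := by
      have h1 : b * s * b⁻¹ = s := by rw [e2]; group
      have : s = b⁻¹ * (b * s * b⁻¹) * b := by group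
      rw [h1] at this
      exact this.symm
    have e11 : b⁻¹ * s⁻¹ * b = s⁻¹ := by
      have h1 : b⁻¹ * s⁻¹ * b = (b⁻¹ * s * b)⁻¹ := by group
      rw [h1, e10]
    have e12 : b * s * b⁻¹ = s := by rw [e2]; group
    have e13 : a⁻¹ * c⁻¹ * a = c⁻¹ := by
      have h1 : a⁻¹ * c⁻¹ * a = (a⁻¹ * c * a)⁻¹ := by group
      rw [h1, e9]
    constructor
    · have l : u₁ * c * u₁⁻¹ = c * (c * s) := by
        calc u₁ * c * u₁⁻¹ = b⁻¹ * (a * (b * c * b⁻¹) * a⁻¹) * b := by rw [hu₁]; group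
          _ = b⁻¹ * (a * (c * s⁻¹) * a⁻¹) * b := by rw [e6]
          _ = b⁻¹ * ((a * c * a⁻¹) * (a * s * a⁻¹)⁻¹) * b := by group
          _ = b⁻¹ * (c * (c⁻¹ * s)⁻¹) * b := by rw [e8, e4]
          _ = (b⁻¹ * c * b) * (b⁻¹ * s⁻¹ * b) * (b⁻¹ * c * b) := by group
          _ = (c * s) * s⁻¹ * (c * s) := by rw [e1, e11]
          _ = c * (c * s) := by group
      have r : u₂ * c * u₂⁻¹ = c * (c * s) := by
        calc u₂ * c * u₂⁻¹ = a⁻¹ * (b⁻¹ * (a * c * a⁻¹) * b) * a := by rw [hu₂]; group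
          _ = a⁻¹ * (b⁻¹ * c * b) * a := by rw [e8]
          _ = a⁻¹ * (c * s) * a := by rw [e1]
          _ = (a⁻¹ * c * a) * (a⁻¹ * s * a) := by group
          _ = c * (c * s) := by rw [e9, e7]
      rw [l, r]
    · have l : u₁ * s * u₁⁻¹ = c⁻¹ := by
        calc u₁ * s * u₁⁻¹ = b⁻¹ * (a * (b * s * b⁻¹) * a⁻¹) * b := by rw [hu₁]; group
          _ = b⁻¹ * (a * s * a⁻¹) * b := by rw [e12]
          _ = b⁻¹ * (c⁻¹ * s) * b := by rw [e4]
          _ = (b⁻¹ * c * b)⁻¹ * (b⁻¹ * s * b) := by group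
          _ = (c * s)⁻¹ * s := by rw [e1, e10]
          _ = (s * c)⁻¹ * s := by rw [e5]
          _ = c⁻¹ := by group
      have r : u₂ * s * u₂⁻¹ = c⁻¹ := by
        calc u₂ * s * u₂⁻¹ = a⁻¹ * (b⁻¹ * (a * s * a⁻¹) * b) * a := by rw [hu₂]; group
          _ = a⁻¹ * (b⁻¹ * (c⁻¹ * s) * b) * a := by rw [e4]
          _ = a⁻¹ * ((b⁻¹ * c * b)⁻¹ * (b⁻¹ * s * b)) * a := by group
          _ = a⁻¹ * ((c * s)⁻¹ * s) * a := by rw [e1, e10]
          _ = a⁻¹ * ((s * c)⁻¹ * s) * a := by rw [e5]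
          _ = a⁻¹ * c⁻¹ * a := by group
          _ = c⁻¹ := e13
      rw [l, r]
  set z := u₂⁻¹ * u₁ with hz
  have hcomm_of : ∀ y : G, u₁ * y * u₁⁻¹ = u₂ * y * u₂⁻¹ → z * y = y * z := by
    intro y hy
    have e : z * y = u₂⁻¹ * (u₁ * y * u₁⁻¹) * u₁ := by rw [hz]; group
    rw [e, hy, hz]
    group
  have hzC : ∀ c ∈ C, z * c = c * z := fun c hcc => hcomm_of c (hagree c hcc).1
  have hzF : ∀ f ∈ ⁅C, B⁆, z * f = f * z := by
    intro f hf
    obtain ⟨c', hc', e⟩ := H.hc.surj_left (B.inv_mem hb) (inv_ne_one.mpr hb1) hf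
    have h1 := (hagree c'⁻¹ (C.inv_mem hc')).2
    have e2 : c'⁻¹⁻¹ * b⁻¹ * c'⁻¹ * b = f := by
      rw [← e]; simp
    rw [e2] at h1
    exact hcomm_of f h1
  have hzX : z ∈ B ⊔ A := by
    have h1 : u₁ ∈ B ⊔ A := by
      rw [hu₁]
      exact Subgroup.mul_mem _ (Subgroup.mul_mem _ hbX ((le_sup_right : A ≤ B ⊔ A) ha))
        ((le_sup_left : B ≤ B ⊔ A) hb)
    have h2 : u₂ ∈ B ⊔ A := by
      rw [hu₂]
      exact Subgroup.mul_mem _ (Subgroup.mul_mem _ haX hbX) ((le_sup_right : A ≤ B ⊔ A) ha)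
    exact Subgroup.mul_mem _ (Subgroup.inv_mem _ h2) h1
  have hzcent : z ∈ Subgroup.centralizer ((C ⊔ ⁅C, B⁆ : Subgroup G) : Set G) := by
    have hle : C ⊔ ⁅C, B⁆ ≤ Subgroup.centralizer ({z} : Set G) := by
      apply sup_le
      · intro x hx
        rw [Subgroup.mem_centralizer_singleton_iff]
        exact (hzC x hx).symm
      · intro x hx
        rw [Subgroup.mem_centralizer_singleton_iff]
        exact (hzF x hx).symm
    rw [Subgroup.mem_centralizer_iff]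
    intro x hx
    have := hle hx
    rw [Subgroup.mem_centralizer_singleton_iff] at this
    exact this
  have hcen := (natural_conclusion H).2.2.2.2.2 z ⟨hzX, hzcent⟩
  have hzT : z ∈ conjBy A b⁻¹ := by
    have h1 : u₁ ∈ conjBy A b⁻¹ := by
      have := conj_mem_conjBy (g := b⁻¹) ha
      simpa [hu₁] using this
    have h2 : u₂ ∈ conjBy A b⁻¹ := by
      rw [hrel]
      have := conj_mem_conjBy (g := a⁻¹) hb
      simpa [hu₂, mul_assoc] using this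
    exact Subgroup.mul_mem _ (Subgroup.inv_mem _ h2) h1
  have hzA : z ∈ A := by
    have h1 := mem_conjBy.mp hzT
    have h2 := hcen b ((le_sup_left : B ≤ B ⊔ A) hb)
    have e : b⁻¹⁻¹ * z * b⁻¹ = z := by rw [inv_inv, ← h2]; group
    rwa [e] at h1
  have hz1 : z = 1 := hAB.eq_one_of_mem_normalizer hzA
    (mem_normalizer_of_commute (fun x hx => hcen x ((le_sup_left : B ≤ B ⊔ A) hx)))
  have : u₁ = u₂ := by
    have h1 : u₂⁻¹ * u₁ = 1 := hz1
    exact (inv_mul_eq_one.mp h1).symm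
  exact this

/-- Members of a class with a partner somewhere all have partners. -/
lemma exists_partner_of_class (hS : IsRootSubgroupClass S) (hr : ∃ A ∈ S, ∃ B ∈ S, IsRankOnePair A B)
    {E : Subgroup G} (hE : E ∈ S) : ∃ P ∈ S, IsRankOnePair E P := by
  obtain ⟨A, hA, B, hB, hAB⟩ := hr
  obtain ⟨g, rfl⟩ := hS.2.2 A hA E hE
  exact ⟨conjBy B g, hS.1.conj_mem B hB g, hAB.conj g⟩

/-- Part one: a good line partner exists. -/
theorem exists_line_partner_comm (hS : IsRootSubgroupClass S) (hnd : IsNondegenerateRootSet S)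
    {A B : Subgroup G} (hA : A ∈ S) (hB : B ∈ rankOnePartners S A) :
    ∃ C ∈ linePartners S A, C ∈ commutatorPartners S B ∧ RootCommutatorCase S B C := by
  obtain ⟨-, hr, X, hX, Y, hY, hXY⟩ := hnd
  obtain ⟨g, hg⟩ := hS.2.2 _ hXY.1 A hA
  have hX' : conjBy X g ∈ S := hS.1.conj_mem X hX g
  have hY' : conjBy Y g ∈ S := hS.1.conj_mem Y hY g
  have hcomm : ⁅conjBy X g, conjBy Y g⁆ = A := by
    rw [hg]
    exact (Subgroup.map_commutator _ _ _).symm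
  have hc' : RootCommutatorCase S (conjBy X g) (conjBy Y g) :=
    commCase_of_mem hS.1 hX' hY' (by rw [hcomm]; exact hA)
  obtain ⟨P, hP, hXP⟩ := exists_partner_of_class hS hr hX'
  have hl := mem_linePartners_commutator hS.1 hX' hc' hXP hP
  rw [hcomm] at hl
  have hpart : ∀ E ∈ membersIn S (A ⊔ conjBy X g), ∃ P ∈ S, IsRankOnePair E P :=
    fun E hE => exists_partner_of_class hS hr hE.1
  obtain ⟨C, hC, hCA, hsup, hcase⟩ := exists_exception hS.1 hA hB.1 hB.2 hl hpart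
  refine ⟨C, ⟨⟨hC.1, hCA, ?_⟩, ?_⟩, ⟨hC.1, hcase.1⟩, hcase⟩
  · rw [Subgroup.commutator_comm]
    exact commutator_eq_bot_of_line hS.1 hA hl.1.2.2 hC.2
  · rw [hsup]
    exact hl.2

theorem special_of_nondegenerate (hS : IsRootSubgroupClass S) (hnd : IsNondegenerateRootSet S)
    {A B : Subgroup G} (hA : A ∈ S) (hB : B ∈ rankOnePartners S A) :
    (∃ C ∈ linePartners S A, C ∈ commutatorPartners S B) ∧ IsSpecialRankOnePair A B := by
  obtain ⟨C, hC, hCB, hcase⟩ := exists_line_partner_comm hS hnd hA hB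
  refine ⟨⟨C, hC, hCB⟩, ?_⟩
  obtain ⟨P, hP, hCP⟩ := exists_partner_of_class hS hnd.2.1 hC.1.1
  exact special_of_line hS.1 hA hB.1 hC.1.1 hP hB.2 hCP hC.1.2.2 hC.1.2.1 hC.2 hcase

end Cfsg.Agent.Lib.Root
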