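import Mathlib
import Cfsg.Agent.Lib.Root.Special

/-!
Abstract root subgroups: lines and generation in non-degenerate classes.
-/

set_option autoImplicit false

namespace Cfsg.Agent.Lib.Root

open Cfsg

variable {G : Type*} [Group G] {S : Set (Subgroup G)}

lemma linePartners_symm {A C : Subgroup G} (hA : A ∈ S) (h : C ∈ linePartners S A) :
    A ∈ linePartners S C := by
  obtain ⟨⟨hC, hne, hcomm⟩, hP⟩ := h
  refine ⟨⟨hA, hne.symm, ?_⟩, ?_⟩
  · rw [Subgroup.commutator_comm]; exact hcomm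
  · rw [sup_comm]; exact hP

lemma partition_conj (hS : IsRootSubgroupSet S) {N : Subgroup G}
    (h : IsSubgroupPartition N (membersIn S N)) (g : G) :
    IsSubgroupPartition (conjBy N g) (membersIn S (conjBy N g)) := by
  refine ⟨fun C hC => hC.2, ?_, ?_⟩
  · intro x hx hx1
    have h1 := mem_conjBy.mp hx
    have h2 : g⁻¹ * x * g ≠ 1 := by
      intro h3
      apply hx1
      have : x = g * (g⁻¹ * x * g) * g⁻¹ := by group
      rw [this, h3]; group
    obtain ⟨C, hC, hxC⟩ := h.2.1 _ h1 h2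
    refine ⟨conjBy C g, ⟨hS.conj_mem C hC.1 g, conjBy_le hC.2 g⟩, ?_⟩
    exact mem_conjBy.mpr hxC
  · intro C hC D hD hne
    have hC' : conjBy C g⁻¹ ∈ membersIn S N := by
      refine ⟨hS.conj_mem C hC.1 _, ?_⟩
      have := conjBy_le hC.2 g⁻¹
      rwa [conjBy_inv_conjBy] at this
    have hD' : conjBy D g⁻¹ ∈ membersIn S N := by
      refine ⟨hS.conj_mem D hD.1 _, ?_⟩
      have := conjBy_le hD.2 g⁻¹
      rwa [conjBy_inv_conjBy] at this
    have hne' : conjBy C g⁻¹ ≠ conjBy D g⁻¹ := by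
      intro h3
      exact hne (conjBy_injective g⁻¹ h3)
    have h3 := h.2.2 _ hC' _ hD' hne'
    rw [eq_bot_iff]
    rintro x ⟨hxC, hxD⟩
    have h4 : g⁻¹ * x * g⁻¹⁻¹ ∈ conjBy C g⁻¹ ⊓ conjBy D g⁻¹ :=
      ⟨conj_mem_conjBy hxC, conj_mem_conjBy hxD⟩
    rw [h3, Subgroup.mem_bot] at h4
    rw [Subgroup.mem_bot]
    have : x = g * (g⁻¹ * x * g⁻¹⁻¹) * g⁻¹ := by group
    rw [this, h4]; group

lemma linePartners_conj (hS : IsRootSubgroupSet S) {A C : Subgroup G}
    (h : C ∈ linePartners S A) (g : G) : conjBy C g ∈ linePartners S (conjBy A g) := by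
  obtain ⟨⟨hC, hne, hcomm⟩, hP⟩ := h
  refine ⟨⟨hS.conj_mem C hC g, ?_, ?_⟩, ?_⟩
  · intro h3
    exact hne (conjBy_injective g h3)
  · have := Subgroup.map_commutator A C (MulAut.conj g).toMonoidHom
    rw [hcomm, Subgroup.map_bot] at this
    exact this.symm
  · rw [← conjBy_sup]
    exact partition_conj hS hP g

/-- The data of a line through `A` with respect to a rank one partner `B`, with the commutator
member explicit. -/
theorem line_data_explicit (hS : IsRootSubgroupClass S) (hr : ∃ A ∈ S, ∃ B ∈ S, IsRankOnePair A B)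
    {A B C : Subgroup G} (hA : A ∈ S) (hB : B ∈ S) (hAB : IsRankOnePair A B)
    (hC : C ∈ linePartners S A) :
    ∃ Y ∈ linePartners S A, A ⊔ Y = A ⊔ C ∧ RootCommutatorCase S B Y ∧
      RootCommutatorCase S A ⁅B, Y⁆ ∧ ⁅A, ⁅B, Y⁆⁆ = Y := by
  have hpart : ∀ E ∈ membersIn S (A ⊔ C), ∃ P ∈ S, IsRankOnePair E P :=
    fun E hE => exists_partner_of_class hS hr hE.1
  obtain ⟨Y, hY, hYA, hsup, hYB⟩ := exists_exception hS.1 hA hB hAB hC hpart
  have hCc := hC
  obtain ⟨⟨hCS, hne, hcomm⟩, hP⟩ := hC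
  obtain ⟨P, hPS, hYP⟩ := hpart Y hY
  have hYcomm : ⁅Y, A⁆ = ⊥ := commutator_eq_bot_of_line hS.1 hA hcomm hY.2
  have hYroot : ∀ u ∈ Y, u ≠ 1 → ∀ v ∈ A, v ≠ 1 → u * v ∈ rootElements S := by
    intro u hu hu1 v hv hv1
    have hmem : u * v ∈ A ⊔ C := Subgroup.mul_mem _ (hY.2 hu) ((le_sup_left : A ≤ A ⊔ C) hv)
    have h1 : u * v ≠ 1 := by
      intro h
      have h2 : u = v⁻¹ := eq_inv_of_mul_eq_one_left h
      have h3 : u ∈ A := by rw [h2]; exact A.inv_mem hv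
      exact hYA (eq_of_not_isolated hS.1 hYP hPS hA hu h3 hu1)
    obtain ⟨E, ⟨hE, -⟩, hxE⟩ := hP.2.1 _ hmem h1
    exact ⟨h1, E, hE, hxE⟩
  have hKe := commutator_eq_of_line hS.1 hB hA hPS hAB.symm hYP hYB hYcomm hYroot
  have hcAF : RootCommutatorCase S A ⁅B, Y⁆ :=
    commCase_of_mem hS.1 hA hYB.1 (by rw [hKe]; exact hY.1)
  refine ⟨Y, ⟨⟨hY.1, hYA, ?_⟩, ?_⟩, hsup, hYB, hcAF, hKe⟩
  · rw [Subgroup.commutator_comm]; exact hYcomm
  · rw [hsup]; exact hP

/-- A "reverse" commutator member in a line through `A`, for the exceptional member `Y`. -/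
theorem exists_reverse (hS : IsRootSubgroupClass S) (hr : ∃ A ∈ S, ∃ B ∈ S, IsRankOnePair A B)
    {A F Y : Subgroup G} (hA : A ∈ S) (hY : Y ∈ linePartners S A) (hF : F ∈ S)
    (hc : RootCommutatorCase S A F) (hcomm : ⁅A, F⁆ = Y) :
    ∃ U ∈ linePartners S A, RootCommutatorCase S Y U ∧ ⁅Y, U⁆ = A := by
  have hF' : ∀ E ∈ S, ∃ P ∈ S, IsRankOnePair E P := fun E hE => exists_partner_of_class hS hr hE
  have hAm : A ∈ membersIn S (A ⊔ Y) := ⟨hA, le_sup_left⟩
  have hYm : Y ∈ membersIn S (A ⊔ Y) := ⟨hY.1.1, le_sup_right⟩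
  obtain ⟨x, -, hx1, hx2⟩ := line_doubly_transitive hS.1 hF' hA hY A hAm Y hYm Y hYm A hAm hY.1.2.1.symm
    hY.1.2.1
  have hU : conjBy F x ∈ S := hS.1.conj_mem F hF x
  have hcm : ⁅Y, conjBy F x⁆ = A := by
    have := Subgroup.map_commutator A F (MulAut.conj x).toMonoidHom
    rw [hcomm] at this
    change conjBy Y x = ⁅conjBy A x, conjBy F x⁆ at this
    rw [hx1, hx2] at this
    exact this.symm
  have hcc : RootCommutatorCase S Y (conjBy F x) :=
    commCase_of_mem hS.1 hY.1.1 hU (by rw [hcm]; exact hA)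
  refine ⟨conjBy F x, ?_, hcc, hcm⟩
  obtain ⟨P, hP, hUP⟩ := hF' _ hU
  have := mem_linePartners_commutator hS.1 hU hcc.symm hUP hP
  rwa [Subgroup.commutator_comm, hcm] at this

/-- Every line partner of `A` is a conjugate of `A` under any subgroup containing the line
partners of `A` and a rank one partner. -/
theorem mem_conj_of_line (hS : IsRootSubgroupClass S) (hr : ∃ A ∈ S, ∃ B ∈ S, IsRankOnePair A B)
    {A B C M : Subgroup G} (hA : A ∈ S) (hB : B ∈ S) (hAB : IsRankOnePair A B)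
    (hBM : B ≤ M) (hL : ∀ E ∈ linePartners S A, E ≤ M) (hC : C ∈ linePartners S A) :
    A ≤ M ∧ ∃ y ∈ M, C = conjBy A y := by
  obtain ⟨Y, hY, hsup, hBY, hcA, hcomm⟩ := line_data_explicit hS hr hA hB hAB hC
  have hFM : ⁅B, Y⁆ ≤ M := le_trans (commutator_le_sup B Y) (sup_le hBM (hL Y hY))
  obtain ⟨U, hU, hcU, hcommU⟩ := exists_reverse hS hr hA hY hBY.1 hcA hcomm
  have hUM := hL U hU
  have hAM : A ≤ M := by
    rw [← hcommU]
    exact le_trans (commutator_le_sup Y U) (sup_le (hL Y hY) hUM)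
  refine ⟨hAM, ?_⟩
  have hmem := membersIn_sup_commutator hS.1 hA hcA hAB hB
  rw [hcomm, hsup] at hmem
  have hCm : C ∈ membersIn S (A ⊔ C) := ⟨hC.1.1, le_sup_right⟩
  rw [hmem] at hCm
  rcases hCm with ⟨f, hf, rfl⟩ | hCY
  · exact ⟨f, hFM hf, rfl⟩
  · rw [Set.mem_singleton_iff] at hCY
    subst hCY
    -- a third member of the line
    have hFbot : ⁅B, C⁆ ≠ ⊥ := hS.1.ne_bot _ hBY.1
    obtain ⟨f, hf, hf1⟩ := (Subgroup.bot_or_exists_ne_one _).resolve_left hFbot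
    have hPne : conjBy A f ≠ A := conjBy_ne_of_ne_one hS.1 hcA hAB hB hf hf1
    have hPC : conjBy A f ≠ C := by
      intro h
      have h1 : conjBy C f = C := by
        apply conjBy_eq_of_commute
        intro y hy
        exact (hcA.comm_right (hcomm.symm ▸ hy) hf).symm
      apply hPne
      apply conjBy_injective f
      show conjBy (conjBy A f) f = conjBy A f
      rw [h, h1]
    obtain ⟨D, hD, hYD⟩ := exists_partner_of_class hS hr hC.1.1
    have hmem2 := membersIn_sup_commutator hS.1 hC.1.1 hcU hYD hD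
    rw [hcommU, sup_comm C A] at hmem2
    have hPm : conjBy A f ∈ membersIn S (A ⊔ C) := by
      rw [hmem]
      exact Or.inl ⟨f, hf, rfl⟩
    rw [hmem2] at hPm
    rcases hPm with ⟨u, hu, hPu⟩ | hPA
    · refine ⟨u⁻¹ * f, M.mul_mem (M.inv_mem (hUM hu)) (hFM hf), ?_⟩
      rw [conjBy_mul, ← hPu, conjBy_inv_conjBy]
    · rw [Set.mem_singleton_iff] at hPA
      exact absurd hPA hPne

/-- Every line partner `B` of `C` is the commutator of `C` with a member of `S`. -/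
theorem exists_commutator_eq (hS : IsRootSubgroupClass S) (hr : ∃ A ∈ S, ∃ B ∈ S, IsRankOnePair A B)
    {C B : Subgroup G} (hC : C ∈ S) (hB : B ∈ linePartners S C) :
    ∃ D ∈ S, RootCommutatorCase S C D ∧ ⁅C, D⁆ = B := by
  have hF' : ∀ E ∈ S, ∃ P ∈ S, IsRankOnePair E P := fun E hE => exists_partner_of_class hS hr hE
  obtain ⟨P, hP, hCP⟩ := hF' C hC
  obtain ⟨Y, hY, hsup, hPY, hcC, hcomm⟩ := line_data_explicit hS hr hC hP hCP hB
  have hCm : C ∈ membersIn S (C ⊔ B) := ⟨hC, le_sup_left⟩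
  have hBm : B ∈ membersIn S (C ⊔ B) := ⟨hB.1.1, le_sup_right⟩
  have hYm : Y ∈ membersIn S (C ⊔ B) := ⟨hY.1.1, by rw [← hsup]; exact le_sup_right⟩
  obtain ⟨x, -, hx1, hx2⟩ := line_doubly_transitive hS.1 hF' hC hB C hCm Y hYm C hCm B hBm
    hY.1.2.1.symm hB.1.2.1.symm
  have hcm : ⁅C, conjBy ⁅P, Y⁆ x⁆ = B := by
    have := Subgroup.map_commutator C ⁅P, Y⁆ (MulAut.conj x).toMonoidHom
    rw [hcomm] at this
    change conjBy Y x = ⁅conjBy C x, conjBy ⁅P, Y⁆ x⁆ at this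
    rw [hx1, hx2] at this
    exact this.symm
  have hU : conjBy ⁅P, Y⁆ x ∈ S := hS.1.conj_mem _ hPY.1 x
  exact ⟨_, hU, commCase_of_mem hS.1 hC hU (by rw [hcm]; exact hB.1.1), hcm⟩

end Cfsg.Agent.Lib.Root
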