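import Mathlib
import Cfsg.Agent.Lib.Root.Lines

/-!
Abstract root subgroups: incomparability of the sets of commuting members and of rank one partners.
-/

set_option autoImplicit false

namespace Cfsg.Agent.Lib.Root

open Cfsg
open scoped commutatorElement

variable {G : Type*} [Group G] {S : Set (Subgroup G)}

lemma bot_of_comm_elts {X Y : Subgroup G} (h : ∀ x ∈ X, ∀ y ∈ Y, x * y = y * x) : ⁅X, Y⁆ = ⊥ := by
  rw [eq_bot_iff, Subgroup.commutator_le]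
  intro u hu v hv
  rw [Subgroup.mem_bot, commutatorElement_eq_one_iff_mul_comm]
  exact h u hu v hv

lemma conjBy_commutator_eq (X Y : Subgroup G) (g : G) :
    ⁅conjBy X g, conjBy Y g⁆ = conjBy ⁅X, Y⁆ g := (Subgroup.map_commutator _ _ _).symm

lemma conj_commutator_bot {X Y : Subgroup G} (h : ⁅X, Y⁆ = ⊥) (g : G) :
    ⁅conjBy X g, conjBy Y g⁆ = ⊥ := by
  rw [conjBy_commutator_eq, h, conjBy_bot]

lemma commCase_conj (hS : IsRootSubgroupSet S) {A B : Subgroup G} (hA : A ∈ S) (hB : B ∈ S)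
    (hc : RootCommutatorCase S A B) (g : G) : RootCommutatorCase S (conjBy A g) (conjBy B g) :=
  commCase_of_mem hS (hS.conj_mem _ hA g) (hS.conj_mem _ hB g)
    (by rw [conjBy_commutator_eq]; exact hS.conj_mem _ hc.1 g)

lemma conjBy_eq_of_bot {X Y : Subgroup G} (h : ⁅Y, X⁆ = ⊥) {y : G} (hy : y ∈ Y) :
    conjBy X y = X :=
  conjBy_eq_of_commute (fun _ hx => line_comm h hy hx)

lemma rankOne_self_conj {X Y : Subgroup G} (h : IsRankOnePair X Y) {y : G} (hy : y ∈ Y)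
    (hy1 : y ≠ 1) : IsRankOnePair X (conjBy X y) := by
  have hne : conjBy X y ≠ X := fun h3 =>
    hy1 (h.eq_one_of_mem_normalizer' hy (mem_normalizer_of_conj_le h3))
  exact (h.of_mem_unipotent left_mem_unipotent
    (conj_mem_unipotent left_mem_unipotent ((le_sup_right : Y ≤ X ⊔ Y) hy)) hne.symm).1

lemma not_rankOne_of_commCase (hS : IsRootSubgroupSet S) {A B : Subgroup G} (hA : A ∈ S)
    (hB : B ∈ S) (hc : RootCommutatorCase S A B) : ¬ IsRankOnePair A B :=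
  fun h => commutator_notMem_of_rankOne hS hA hB h hc.1

/-- Non-identity elements of a rank one pair of members do not commute. -/
lemma not_comm_of_rankOne (hS : IsRootSubgroupSet S) {X Y : Subgroup G} (hX : X ∈ S) (hY : Y ∈ S)
    (h : IsRankOnePair X Y) {x y : G} (hx : x ∈ X) (hx1 : x ≠ 1) (hy : y ∈ Y) (hy1 : y ≠ 1) :
    x * y ≠ y * x := by
  intro hc
  have h1 : y ∈ conjBy Y x := by
    rw [mem_conjBy]
    have e : x⁻¹ * y * x = y := by
      rw [mul_assoc, ← hc]; group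
    rwa [e]
  have h2 : Y = conjBy Y x := eq_of_not_isolated hS h.symm hX (hS.conj_mem Y hY x) hy h1 hy1
  exact hx1 (h.eq_one_of_mem_normalizer hx (mem_normalizer_of_conj_le h2.symm))

section Omega

variable {A C : Subgroup G}

/-- Transport of the inclusion of partner sets by an element normalizing `A`. -/
lemma omega_conj (hS : IsRootSubgroupSet S)
    (hΩ : ∀ F ∈ S, IsRankOnePair A F → IsRankOnePair C F) {x : G} (hx : conjBy A x = A)
    {F : Subgroup G} (hF : F ∈ S) (hAF : IsRankOnePair A F) : IsRankOnePair (conjBy C x) F := by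
  have h1 : conjBy A x⁻¹ = A := by
    have := conjBy_inv_conjBy A x
    rwa [hx] at this
  have h2 : IsRankOnePair A (conjBy F x⁻¹) := by
    have := hAF.conj x⁻¹
    rwa [h1] at this
  have h3 := (hΩ _ (hS.conj_mem F hF x⁻¹) h2).conj x
  rwa [conjBy_conjBy_inv] at h3

/-- A conjugate of `C` by an element of a partner of `A` is a partner of `A`. -/
lemma omega_partner (hS : IsRootSubgroupSet S) (hA : A ∈ S)
    (hΩ : ∀ F ∈ S, IsRankOnePair A F → IsRankOnePair C F) {F : Subgroup G}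
    (hAF : IsRankOnePair A F) {f : G} (hf : f ∈ F) (hf1 : f ≠ 1) :
    IsRankOnePair A (conjBy C f) := by
  have h1 : IsRankOnePair A (conjBy A f⁻¹) := rankOne_self_conj hAF (F.inv_mem hf) (inv_ne_one.mpr hf1)
  have h2 := (hΩ _ (hS.conj_mem A hA f⁻¹) h1).conj f
  rw [conjBy_conjBy_inv] at h2
  exact h2.symm

end Omega

section LineLemmas

variable {A B D : Subgroup G}

lemma inf_eq_bot_of_line (hS : IsRootSubgroupSet S) (hD : D ∈ S) (hAD : IsRankOnePair A D)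
    (hl : B ∈ linePartners S A) : A ⊓ B = ⊥ := by
  rw [eq_bot_iff]
  rintro x ⟨hxA, hxB⟩
  rw [Subgroup.mem_bot]
  by_contra hx
  exact hl.1.2.1 (eq_of_not_isolated hS hAD hD hl.1.1 hxA hxB hx).symm

lemma root_of_line (hS : IsRootSubgroupSet S) (hD : D ∈ S) (hAD : IsRankOnePair A D)
    (hl : B ∈ linePartners S A) :
    ∀ b ∈ B, b ≠ 1 → ∀ a ∈ A, a ≠ 1 → b * a ∈ rootElements S := by
  intro b hb _ a ha ha1
  rw [← line_comm hl.1.2.2 ha hb]
  exact mul_mem_rootElements_of_partition hl.2 (inf_eq_bot_of_line hS hD hAD hl) ha hb ha1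

/-- The commutator is a line partner. -/
lemma commutator_mem_linePartners (hS : IsRootSubgroupSet S) (hA : A ∈ S)
    (hc : RootCommutatorCase S A B) (hAD : IsRankOnePair A D) (hD : D ∈ S) :
    ⁅A, B⁆ ∈ linePartners S A :=
  ⟨⟨hc.1, (ne_commutator hS hc hAD hD).symm, bot_of_comm_elts
    (fun _ hx _ hy => (hc.comm_left hy hx).symm)⟩, partition_sup_commutator hS hA hc hAD hD⟩

/-- Two members of a line have a common partner. -/
theorem exists_common_partner (hS : IsRootSubgroupSet S)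
    (hF : ∀ E ∈ S, ∃ P ∈ S, IsRankOnePair E P) (hA : A ∈ S) (hB : B ∈ linePartners S A)
    {M₁ M₂ : Subgroup G} (hM₁ : M₁ ∈ membersIn S (A ⊔ B)) (hM₂ : M₂ ∈ membersIn S (A ⊔ B))
    (hne : M₁ ≠ M₂) : ∃ P ∈ S, IsRankOnePair P M₁ ∧ IsRankOnePair P M₂ := by
  obtain ⟨D, hD, hAD⟩ := hF A hA
  obtain ⟨Y, hY, hYA, -, hYD⟩ := exists_exception hS hA hD hAD hB (fun E hE => hF E hE.1)
  obtain ⟨a, ha, ha1⟩ := hAD.exists_ne_one_left
  obtain ⟨y, hy, hy1⟩ := (Subgroup.bot_or_exists_ne_one _).resolve_left (hS.ne_bot Y hY.1)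
  have hAleN : A ≤ A ⊔ B := le_sup_left
  have hmem : y * a ∈ A ⊔ B := Subgroup.mul_mem _ (hY.2 hy) (hAleN ha)
  have hne1 : y * a ≠ 1 := by
    intro h
    have h2 : y = a⁻¹ := eq_inv_of_mul_eq_one_left h
    have h3 : y ∈ A := by rw [h2]; exact A.inv_mem ha
    exact hYA (eq_of_not_isolated hS hAD hD hY.1 h3 hy hy1).symm
  obtain ⟨M₃, hM₃, hxM⟩ := hB.2.2.1 _ hmem hne1
  have hD3 : IsRankOnePair D M₃ := by
    rcases rankOne_of_mem_mul hS hY.1 hA hM₃.1 hD hAD.symm hy ha ha1 hxM with h1 | h1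
    · exact absurd h1 (not_rankOne_of_commCase hS hD hY.1 hYD)
    · exact h1
  have hA3 : A ≠ M₃ := by
    rintro rfl
    have h2 : y ∈ A := by
      have : y = (y * a) * a⁻¹ := by group
      rw [this]
      exact A.mul_mem hxM (A.inv_mem ha)
    exact hYA (eq_of_not_isolated hS hAD hD hY.1 h2 hy hy1).symm
  obtain ⟨x, -, hx1, hx2⟩ := line_doubly_transitive hS hF hA hB A ⟨hA, hAleN⟩ M₃ hM₃ M₁ hM₁ M₂ hM₂
    hA3 hne
  refine ⟨conjBy D x, hS.conj_mem D hD x, ?_, ?_⟩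
  · have := hAD.symm.conj x
    rwa [hx1] at this
  · have := hD3.conj x
    rwa [hx2] at this

/-- A line through `A` contains, for some partner of `A`, the exceptional member prescribed. -/
theorem exists_partner_commCase (hS : IsRootSubgroupSet S)
    (hF : ∀ E ∈ S, ∃ P ∈ S, IsRankOnePair E P) (hA : A ∈ S) (hB : B ∈ linePartners S A) :
    ∃ P ∈ S, IsRankOnePair A P ∧ RootCommutatorCase S P B := by
  obtain ⟨D, hD, hAD⟩ := hF A hA
  obtain ⟨Y, hY, hYA, -, hYD⟩ := exists_exception hS hA hD hAD hB (fun E hE => hF E hE.1)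
  have hAleN : A ≤ A ⊔ B := le_sup_left
  have hBleN : B ≤ A ⊔ B := le_sup_right
  obtain ⟨x, -, hx1, hx2⟩ := line_doubly_transitive hS hF hA hB A ⟨hA, hAleN⟩ Y hY A ⟨hA, hAleN⟩ B
    ⟨hB.1.1, hBleN⟩ hYA.symm hB.1.2.1.symm
  refine ⟨conjBy D x, hS.conj_mem D hD x, ?_, ?_⟩
  · have := hAD.conj x
    rwa [hx1] at this
  · have := commCase_conj hS hD hY.1 hYD x
    rwa [hx2] at this

end LineLemmas

section CaseI

variable {A C D F : Subgroup G}

/-- The commuting partner case. -/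
theorem caseI_false (hS : IsRootSubgroupSet S) (hA : A ∈ S) (hC : C ∈ S) (hD : D ∈ S) (hF : F ∈ S)
    (hAC : ⁅A, C⁆ = ⊥) (hAD : ⁅A, D⁆ = ⊥) (hCD : IsRankOnePair C D)
    (hΩ : ∀ F ∈ S, IsRankOnePair A F → IsRankOnePair C F) (hAF : IsRankOnePair A F) : False := by
  have hcA : ∀ {x : G}, x ∈ C → conjBy A x = A := fun hx =>
    conjBy_eq_of_commute (fun y hy => (line_comm hAC hy hx).symm)
  have hdA : ∀ {x : G}, x ∈ D → conjBy A x = A := fun hx =>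
    conjBy_eq_of_commute (fun y hy => (line_comm hAD hy hx).symm)
  -- `D` is a conjugate of `C` by an element normalizing `A`.
  obtain ⟨c₀, hc₀, hc₀1⟩ := hCD.exists_ne_one_left
  obtain ⟨d₀, hd₀, -, h₀⟩ := hCD.cond_left c₀ hc₀ hc₀1
  have hDC : D = conjBy C (c₀ * d₀⁻¹) := by
    have := conjBy_conjBy_inv D c₀
    rw [← h₀, ← conjBy_mul] at this
    exact this.symm
  have hx₀ : conjBy A (c₀ * d₀⁻¹) = A := by
    rw [conjBy_mul, hdA (D.inv_mem hd₀), hcA hc₀]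
  have hΩD : ∀ F ∈ S, IsRankOnePair A F → IsRankOnePair D F := by
    intro F' hF' hAF'
    rw [hDC]
    exact omega_conj hS hΩ hx₀ hF' hAF'
  have hCF := hΩ F hF hAF
  have hDF := hΩD F hF hAF
  obtain ⟨f, hf, hf1⟩ := hAF.exists_ne_one_right
  obtain ⟨a, ha, -, hfa⟩ := hAF.symm.cond_left f hf hf1
  obtain ⟨c, hc, hc1, hfc⟩ := hCF.symm.cond_left f hf hf1
  obtain ⟨d, hd, hd1, hfd⟩ := hDF.symm.cond_left f hf hf1
  obtain ⟨f₁, hf₁, -, h1⟩ := hCF.cond_left c⁻¹ (C.inv_mem hc) (inv_ne_one.mpr hc1)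
  obtain ⟨f₂, hf₂, -, h2⟩ := hDF.cond_left d⁻¹ (D.inv_mem hd) (inv_ne_one.mpr hd1)
  rw [inv_inv] at h1 h2
  -- a rank one pair `(C^{f₃}, D)`.
  have h3 : IsRankOnePair (conjBy C (f₂ * f₁⁻¹)) D := by
    by_cases hf3 : f₂ * f₁⁻¹ = 1
    · rw [hf3, conjBy_one]
      exact hCD
    · have h4 := omega_partner hS hA hΩ hAF (F.mul_mem hf₂ (F.inv_mem hf₁)) hf3
      exact (hΩD _ (hS.conj_mem C hC _) h4).symm
  have h5 : IsRankOnePair (conjBy F c) (conjBy F d) := by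
    have h4 := h3.conj f₂⁻¹
    rw [← conjBy_mul, h2] at h4
    have e : f₂⁻¹ * (f₂ * f₁⁻¹) = f₁⁻¹ := by group
    rw [e, h1] at h4
    exact h4
  have h6 : IsRankOnePair F (conjBy F (c⁻¹ * d)) := by
    have h4 := h5.conj c⁻¹
    rw [conjBy_inv_conjBy, ← conjBy_mul] at h4
    exact h4
  set y := c⁻¹ * d with hy
  have hya : y * a⁻¹ = a⁻¹ * y := by
    have e1 : c⁻¹ * a⁻¹ = a⁻¹ * c⁻¹ := (line_comm hAC (A.inv_mem ha) (C.inv_mem hc)).symm
    have e2 : d * a⁻¹ = a⁻¹ * d := (line_comm hAD (A.inv_mem ha) hd).symm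
    rw [hy]
    calc c⁻¹ * d * a⁻¹ = c⁻¹ * (d * a⁻¹) := by group
      _ = c⁻¹ * (a⁻¹ * d) := by rw [e2]
      _ = (c⁻¹ * a⁻¹) * d := by group
      _ = (a⁻¹ * c⁻¹) * d := by rw [e1]
      _ = a⁻¹ * (c⁻¹ * d) := by group
  have hFA : conjBy F (f * a⁻¹) = A := by
    rw [conjBy_mul, hfa, conjBy_conjBy_inv]
  have h7 : IsRankOnePair A (conjBy A (f * y * f⁻¹)) := by
    have h4 := h6.conj (f * a⁻¹)
    rw [hFA, ← conjBy_mul] at h4
    have e : f * a⁻¹ * y = (f * y * f⁻¹) * (f * a⁻¹) := by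
      calc f * a⁻¹ * y = f * (a⁻¹ * y) := by group
        _ = f * (y * a⁻¹) := by rw [hya]
        _ = (f * y * f⁻¹) * (f * a⁻¹) := by group
    rw [e, conjBy_mul, hFA] at h4
    exact h4
  have h8 := (hΩ _ (hS.conj_mem A hA _) h7).conj (f * y⁻¹ * f⁻¹)
  have e1 : conjBy (conjBy A (f * y * f⁻¹)) (f * y⁻¹ * f⁻¹) = A := by
    rw [← conjBy_mul]
    have e : f * y⁻¹ * f⁻¹ * (f * y * f⁻¹) = 1 := by group
    rw [e, conjBy_one]
  have e2 : conjBy C (f * y⁻¹ * f⁻¹) = D := by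
    have e : f * y⁻¹ * f⁻¹ = (f * y⁻¹) * f⁻¹ := rfl
    rw [e, conjBy_mul, ← hfc, ← conjBy_mul]
    have e3 : f * y⁻¹ * c⁻¹ = f * d⁻¹ := by
      rw [hy]; group
    rw [e3, conjBy_mul, hfd, conjBy_conjBy_inv]
  rw [e1, e2] at h8
  exact h8.symm.commutator_ne_bot hAD

end CaseI

section CommExcl

variable {A C D : Subgroup G}

/-- The commutator case cannot occur when `Ω_A ⊆ Ω_C`. -/
theorem not_commCase_of_subset (hS : IsRootSubgroupSet S)
    (hFp : ∀ E ∈ S, ∃ P ∈ S, IsRankOnePair E P) (hA : A ∈ S) (hC : C ∈ S)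
    (hΩ : ∀ F ∈ S, IsRankOnePair A F → IsRankOnePair C F) (hc : RootCommutatorCase S A C) :
    False := by
  obtain ⟨D, hD, hAD⟩ := hFp A hA
  have hl := commutator_mem_linePartners hS hA hc hAD hD
  obtain ⟨F, hF, hFA, hFE⟩ := exists_common_partner hS hFp hA hl
    (M₁ := A) (M₂ := ⁅A, C⁆) ⟨hA, le_sup_left⟩ ⟨hc.1, le_sup_right⟩
    (ne_commutator hS hc hAD hD)
  have hCF := hΩ F hF hFA.symm
  have hc' := hc.symm
  have hl' := commutator_mem_linePartners hS hC hc' hCF hF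
  obtain ⟨Y, hY, -, -, hYc⟩ := exists_exception hS hC hF hCF hl' (fun E hE => hFp E hE.1)
  rw [membersIn_sup_commutator hS hC hc' hCF hF] at hY
  rcases hY with ⟨b, hb, rfl⟩ | hY
  · have h1 := omega_conj hS hΩ (conjBy_eq_self_of_mem hb) hF hFA.symm
    exact not_rankOne_of_commCase hS hF (hS.conj_mem C hC b) hYc h1.symm
  · rw [Set.mem_singleton_iff] at hY
    rw [hY, Subgroup.commutator_comm] at hYc
    exact not_rankOne_of_commCase hS hF hc.1 hYc hFE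

/-- Commutators with a partner of `C` do not commute with `C`. -/
theorem commutator_commutator_ne_bot (hS : IsRootSubgroupSet S) (hA : A ∈ S) (hD : D ∈ S)
    (hAC : ⁅A, C⁆ = ⊥) (hCD : IsRankOnePair C D) (hc : RootCommutatorCase S A D) :
    ⁅C, ⁅A, D⁆⁆ ≠ ⊥ := by
  intro h0
  obtain ⟨c₀, hc₀, hc₀1⟩ := hCD.exists_ne_one_left
  obtain ⟨d, hd, -, hrel⟩ := hCD.cond_left c₀ hc₀ hc₀1
  have hcC : ∀ x ∈ conjBy A d, ∀ y ∈ C, x * y = y * x := by
    intro x hx y hy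
    obtain ⟨a, ha, e, he, rfl⟩ := mem_sup_of_commute
      (fun a ha c hc' => (hc.comm_left hc' ha).symm) (conjBy_le_sup_commutator hd hx)
    have h1 := line_comm hAC ha hy
    have h2 := (line_comm h0 hy he)
    calc a * e * y = a * (e * y) := by group
      _ = a * (y * e) := by rw [h2]
      _ = (a * y) * e := by group
      _ = (y * a) * e := by rw [h1]
      _ = y * (a * e) := by group
  have h1 : ⁅conjBy A d, C⁆ = ⊥ := bot_of_comm_elts hcC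
  have h2 := conj_commutator_bot h1 d⁻¹
  rw [conjBy_inv_conjBy, hrel] at h2
  have h3 : conjBy A c₀⁻¹ = A :=
    conjBy_eq_of_commute (fun y hy => (line_comm hAC hy (C.inv_mem hc₀)).symm)
  have h4 : ⁅A, conjBy D c₀⁻¹⁆ = conjBy ⁅A, D⁆ c₀⁻¹ := by
    have := conjBy_commutator_eq A D c₀⁻¹
    rwa [h3] at this
  rw [h4] at h2
  exact hS.ne_bot _ hc.1 (conjBy_eq_bot h2)

end CommExcl

section Natural

/-- The action of a rank one pair on the natural module inside a line. -/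
theorem natural_action (hS : IsRootSubgroupSet S) {A F T P : Subgroup G} (hA : A ∈ S) (hF : F ∈ S)
    (hT : T ∈ S) (hP : P ∈ S) (hAF : IsRankOnePair A F) (hc : RootCommutatorCase S F T)
    (hAT : ⁅A, T⁆ = ⊥) (hTP : IsRankOnePair T P)
    (hroot : ∀ t ∈ T, t ≠ 1 → ∀ a ∈ A, a ≠ 1 → t * a ∈ rootElements S)
    {f a t : G} (hf : f ∈ F) (ha : a ∈ A) (hrel : conjBy F a⁻¹ = conjBy A f⁻¹) (ht : t ∈ T) :
    f⁻¹ * t * f = a⁻¹ * (t⁻¹ * (f⁻¹ * t * f)) * a := by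
  have hStS : ⁅F, T⁆ ∈ S := hc.1
  have hTA : ⁅T, A⁆ = ⊥ := by rw [Subgroup.commutator_comm]; exact hAT
  have hK : ⁅A, ⁅F, T⁆⁆ = T := commutator_eq_of_line hS hF hA hP hAF.symm hTP hc hTA hroot
  have hcT : RootCommutatorCase S T F := hc.symm
  have hTF : ⁅T, F⁆ = ⁅F, T⁆ := Subgroup.commutator_comm T F
  have hStA : ⁅⁅F, T⁆, A⁆ = T := by rw [Subgroup.commutator_comm]; exact hK
  have hinf : T ⊓ ⁅F, T⁆ = ⊥ := by
    have := inf_commutator_eq_bot hS hcT hTP hP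
    rwa [hTF] at this
  have hmem := membersIn_sup_commutator hS hT hcT hTP hP
  rw [hTF] at hmem
  -- `a` normalizes `T ⊔ St`
  have haN : conjBy (T ⊔ ⁅F, T⁆) a ≤ T ⊔ ⁅F, T⁆ := by
    rw [conjBy_sup]
    apply sup_le
    · have : conjBy T a = T := conjBy_eq_of_commute (fun y hy => (line_comm hTA hy ha).symm)
      rw [this]
      exact le_sup_left
    · have := conjBy_le_sup_commutator (A := ⁅F, T⁆) (B := A) ha
      rw [hStA, sup_comm] at this
      exact this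
  -- uniqueness
  have hU : ∀ M ∈ S, M ≤ T ⊔ ⁅F, T⁆ → ⁅M, conjBy F a⁻¹⁆ = ⊥ → M = conjBy ⁅F, T⁆ a⁻¹ := by
    intro M hM hle hcomm
    have hM' : conjBy M a ∈ membersIn S (T ⊔ ⁅F, T⁆) :=
      ⟨hS.conj_mem M hM a, le_trans (conjBy_le hle a) haN⟩
    have hcF : ⁅conjBy M a, F⁆ = ⊥ := by
      have := conj_commutator_bot hcomm a
      rwa [conjBy_conjBy_inv] at this
    rw [hmem] at hM'
    rcases hM' with ⟨b, hb, hbe⟩ | hbe
    · exfalso
      simp only at hbe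
      rw [← hbe] at hcF
      have h1 := conj_commutator_bot hcF b⁻¹
      rw [conjBy_inv_conjBy, conjBy_eq_self_of_mem (F.inv_mem hb), hTF] at h1
      exact hS.ne_bot _ hStS h1
    · rw [Set.mem_singleton_iff] at hbe
      rw [← hbe, conjBy_inv_conjBy]
  have hfinv : f⁻¹ ∈ F := F.inv_mem hf
  have hM₁ : conjBy T f⁻¹ = conjBy ⁅F, T⁆ a⁻¹ := by
    apply hU _ (hS.conj_mem T hT _)
    · have := conjBy_le_sup_commutator (A := T) (B := F) hfinv
      rwa [hTF] at this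
    · rw [hrel]
      exact conj_commutator_bot hTA f⁻¹
  set x := f⁻¹ * t * f with hx
  have hxT : x ∈ conjBy T f⁻¹ := by
    rw [mem_conjBy, inv_inv, hx]
    have e : f * (f⁻¹ * t * f) * f⁻¹ = t := by group
    rwa [e]
  rw [hM₁, mem_conjBy, inv_inv] at hxT
  set s' := a * x * a⁻¹ with hs'
  have hs : t⁻¹ * x ∈ ⁅F, T⁆ := by
    have := cm_mem (T.inv_mem ht) hfinv
    rw [hTF] at this
    have e : t⁻¹ * f⁻¹ * t⁻¹⁻¹ * f⁻¹⁻¹ = t⁻¹ * x := by rw [hx]; group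
    rwa [e] at this
  have hr : s'⁻¹ * a⁻¹ * s' * a ∈ T := by
    have := cm_mem (Subgroup.inv_mem _ hxT) (A.inv_mem ha)
    rw [hStA] at this
    have e : s'⁻¹ * a⁻¹ * s'⁻¹⁻¹ * a⁻¹⁻¹ = s'⁻¹ * a⁻¹ * s' * a := by group
    rwa [e] at this
  set r := s'⁻¹ * a⁻¹ * s' * a with hrdef
  have hcomm : s' * r = r * s' := hc.comm_right hxT hr
  have e1 : x = s' * r := by
    rw [hrdef, hs']
    group
  have e2 : r⁻¹ * t = s' * (t⁻¹ * x)⁻¹ := by
    have h1 : x = r * s' := by rw [e1, hcomm]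
    have h2 : t * (t⁻¹ * x) = x := by group
    have h3 : t * (t⁻¹ * x) = r * s' := by rw [h2]; exact h1
    calc r⁻¹ * t = r⁻¹ * (t * (t⁻¹ * x)) * (t⁻¹ * x)⁻¹ := by group
      _ = r⁻¹ * (r * s') * (t⁻¹ * x)⁻¹ := by rw [h3]
      _ = s' * (t⁻¹ * x)⁻¹ := by group
  have h3 : s' * (t⁻¹ * x)⁻¹ ∈ T ⊓ ⁅F, T⁆ :=
    ⟨by rw [← e2]; exact T.mul_mem (T.inv_mem hr) ht,
      Subgroup.mul_mem _ hxT (Subgroup.inv_mem _ hs)⟩
  rw [hinf, Subgroup.mem_bot, mul_inv_eq_one] at h3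
  rw [← h3, hs']
  group

lemma kappa_identity {e z f a s su p u : G} (hu : u = e * z) (hs : s = e⁻¹ * (f⁻¹ * e * f))
    (hsu : su = u⁻¹ * (f⁻¹ * u * f)) (hp : p = z⁻¹ * (f⁻¹ * z * f))
    (n1 : f⁻¹ * e * f = a⁻¹ * s * a) (n2 : f⁻¹ * u * f = a⁻¹ * su * a) (haz : a * z = z * a) :
    s⁻¹ * z⁻¹ * s * z = z * (a * p * a⁻¹ * p⁻¹) := by
  have hid1 : su = z⁻¹ * s * z * p := by
    rw [hsu, hs, hp, hu]
    group
  have h3 : f⁻¹ * z * f = z * p := by
    rw [hp]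
    group
  have h4 : a⁻¹ * su * a = (a⁻¹ * s * a) * (z * p) := by
    rw [← n2, ← n1, ← h3, hu]
    group
  have h5 : su = s * (a * (z * p) * a⁻¹) := by
    have : su = a * (a⁻¹ * su * a) * a⁻¹ := by group
    rw [this, h4]
    group
  have h6 : a * (z * p) * a⁻¹ = z * (a * p * a⁻¹) := by
    calc a * (z * p) * a⁻¹ = (a * z) * p * a⁻¹ := by group
      _ = (z * a) * p * a⁻¹ := by rw [haz]
      _ = z * (a * p * a⁻¹) := by group
  rw [h6] at h5
  have h7 : z⁻¹ * s * z * p = s * (z * (a * p * a⁻¹)) := by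
    rw [← hid1]
    exact h5
  calc s⁻¹ * z⁻¹ * s * z = s⁻¹ * (z⁻¹ * s * z * p) * p⁻¹ := by group
    _ = s⁻¹ * (s * (z * (a * p * a⁻¹))) * p⁻¹ := by rw [h7]
    _ = z * (a * p * a⁻¹ * p⁻¹) := by group

lemma commute_of_le_sup {X Y : Subgroup G} {x y : G} (h1 : ∀ u ∈ X, x * u = u * x)
    (h2 : ∀ u ∈ Y, x * u = u * x) (hy : y ∈ X ⊔ Y) : x * y = y * x := by
  have hle : X ⊔ Y ≤ Subgroup.centralizer ({x} : Set G) := by
    apply sup_le
    · intro u hu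
      rw [Subgroup.mem_centralizer_singleton_iff]
      exact (h1 u hu).symm
    · intro u hu
      rw [Subgroup.mem_centralizer_singleton_iff]
      exact (h2 u hu).symm
  have := hle hy
  rw [Subgroup.mem_centralizer_singleton_iff] at this
  exact this.symm

end Natural

section CaseII

variable {A C D : Subgroup G}

/-- The commutator case for a partner of `C` contradicts `Ω_A ⊆ Ω_C`. -/
theorem caseII_false (hS : IsRootSubgroupSet S) (hFp : ∀ E ∈ S, ∃ P ∈ S, IsRankOnePair E P)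
    (hA : A ∈ S) (hC : C ∈ S) (hD : D ∈ S) (hAC : ⁅A, C⁆ = ⊥) (hCD : IsRankOnePair C D)
    (hΩ : ∀ F ∈ S, IsRankOnePair A F → IsRankOnePair C F) (hc : RootCommutatorCase S A D) :
    False := by
  have hES : ⁅A, D⁆ ∈ S := hc.1
  obtain ⟨D₀, hD₀, hAD₀⟩ := hFp A hA
  have hlE := commutator_mem_linePartners hS hA hc hAD₀ hD₀
  have hAE : ⁅A, ⁅A, D⁆⁆ = ⊥ := hlE.1.2.2
  obtain ⟨E, hEdef⟩ : ∃ E, E = ⁅A, D⁆ := ⟨_, rfl⟩
  rw [← hEdef] at hES hlE hAE
  have hCE_ne : ⁅C, E⁆ ≠ ⊥ := by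
    rw [hEdef]
    exact commutator_commutator_ne_bot hS hA hD hAC hCD hc
  have hCE_nr : ¬ IsRankOnePair C E := fun h => caseI_false hS hA hC hES hD₀ hAC hAE h hΩ hAD₀
  have hcc : RootCommutatorCase S C E := by
    rcases hS.pair C hC E hES with h | h | h
    · exact absurd h hCE_ne
    · exact absurd h hCE_nr
    · exact h
  have hZS : ⁅C, E⁆ ∈ S := hcc.1
  have hlZ := commutator_mem_linePartners hS hC hcc hCD hD
  have hmemZ := fun (F : Subgroup G) (hF : F ∈ S) (hCF : IsRankOnePair C F) =>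
    membersIn_sup_commutator hS hC hcc hCF hF
  have hcz : ∀ {z e : G}, z ∈ ⁅C, E⁆ → e ∈ E → z * e = e * z := fun hz he => hcc.comm_right hz he
  obtain ⟨Z, hZdef⟩ : ∃ Z, Z = ⁅C, E⁆ := ⟨_, rfl⟩
  rw [← hZdef] at hZS hlZ hmemZ hcz
  have hAZ : ⁅A, Z⁆ = ⊥ := by
    apply bot_of_comm_elts
    intro x hx y hy
    rw [hZdef] at hy
    exact commute_of_le_sup (fun u hu => line_comm hAC hx hu) (fun u hu => line_comm hAE hx hu)
      (commutator_le_sup C E hy)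
  have h22 : ∀ F ∈ S, IsRankOnePair A F → RootCommutatorCase S F Z := by
    intro F hF hAF
    have hCF := hΩ F hF hAF
    obtain ⟨Y, hY, -, -, hYc⟩ := exists_exception hS hC hF hCF hlZ (fun X hX => hFp X hX.1)
    rw [hmemZ F hF hCF] at hY
    rcases hY with ⟨b, hb, rfl⟩ | hY
    · exfalso
      have hbA : conjBy A b = A := conjBy_eq_of_commute (fun y hy => (line_comm hAE hy hb).symm)
      have h1 := omega_conj hS hΩ hbA hF hAF
      exact not_rankOne_of_commCase hS hF (hS.conj_mem C hC b) hYc h1.symm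
    · rw [Set.mem_singleton_iff] at hY
      rwa [hY] at hYc
  have hno : ∀ F ∈ S, IsRankOnePair A F → ¬ IsRankOnePair F Z := fun F hF hAF h =>
    not_rankOne_of_commCase hS hF hZS (h22 F hF hAF) h
  obtain ⟨F', hF', hAF', hcFE⟩ := exists_partner_commCase hS hFp hA hlE
  have hcFZ := h22 F' hF' hAF'
  have hP'S : ⁅F', Z⁆ ∈ S := hcFZ.1
  -- `A` and `P'` are in the commutator case
  have hcAP : RootCommutatorCase S A ⁅F', Z⁆ := by
    obtain ⟨f, hf, hf1⟩ := hAF'.exists_ne_one_right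
    have hA₁ : IsRankOnePair A (conjBy A f⁻¹) :=
      rankOne_self_conj hAF' (F'.inv_mem hf) (inv_ne_one.mpr hf1)
    have hc₁ := h22 _ (hS.conj_mem A hA f⁻¹) hA₁
    rcases hS.pair A hA _ hP'S with h0 | h0 | h0
    · exfalso
      have h1 : ⁅A, conjBy Z f⁆ = ⊥ := by
        apply bot_of_comm_elts
        intro x hx y hy
        have hy' : y ∈ Z ⊔ ⁅F', Z⁆ := by
          have := conjBy_le_sup_commutator (A := Z) (B := F') hf hy
          rwa [Subgroup.commutator_comm Z F'] at this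
        exact commute_of_le_sup (fun u hu => line_comm hAZ hx hu)
          (fun u hu => line_comm h0 hx hu) hy'
      have h2 := conj_commutator_bot h1 f⁻¹
      rw [conjBy_inv_conjBy] at h2
      exact hS.ne_bot _ hc₁.1 h2
    · exfalso
      obtain ⟨a, ha, ha1⟩ := hAD₀.exists_ne_one_left
      obtain ⟨z, hz, hz1⟩ := (Subgroup.bot_or_exists_ne_one _).resolve_left (hS.ne_bot Z hZS)
      have hp : f * z * f⁻¹ * z⁻¹ ∈ ⁅F', Z⁆ := cm_mem hf hz
      have hp1 : f * z * f⁻¹ * z⁻¹ ≠ 1 := fun h =>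
        hz1 (eq_one_of_cm_eq_one hS hF' hcFZ hAF'.symm hA hf hf1 hz h)
      obtain ⟨p, hpdef⟩ : ∃ p, p = f * z * f⁻¹ * z⁻¹ := ⟨_, rfl⟩
      rw [← hpdef] at hp hp1
      have ha₁ : f⁻¹ * a * f ∈ conjBy A f⁻¹ := by
        have := conj_mem_conjBy (g := f⁻¹) ha
        simpa using this
      have hv : (f⁻¹ * a * f) * z * (f⁻¹ * a * f)⁻¹ * z⁻¹ ∈ ⁅conjBy A f⁻¹, Z⁆ := cm_mem ha₁ hz
      have hvc := hc₁.comm_left hv ha₁
      have haz : a * z = z * a := line_comm hAZ ha hz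
      have e1 : f * ((f⁻¹ * a * f) * z * (f⁻¹ * a * f)⁻¹ * z⁻¹) * f⁻¹ = a * p * a⁻¹ * p⁻¹ := by
        have e2 : f * z * f⁻¹ = p * z := by rw [hpdef]; group
        have e3 : z * a⁻¹ = a⁻¹ * z := by
          have h3 : a⁻¹ * (a * z) * a⁻¹ = a⁻¹ * (z * a) * a⁻¹ := by rw [haz]
          simpa [mul_assoc] using h3
        calc f * ((f⁻¹ * a * f) * z * (f⁻¹ * a * f)⁻¹ * z⁻¹) * f⁻¹
            = a * (f * z * f⁻¹) * a⁻¹ * (f * z * f⁻¹)⁻¹ := by group
          _ = a * (p * z) * a⁻¹ * (p * z)⁻¹ := by rw [e2]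
          _ = a * p * (z * a⁻¹) * z⁻¹ * p⁻¹ := by group
          _ = a * p * (a⁻¹ * z) * z⁻¹ * p⁻¹ := by rw [e3]
          _ = a * p * a⁻¹ * p⁻¹ := by group
      have e4 : (a * p * a⁻¹ * p⁻¹) * a = a * (a * p * a⁻¹ * p⁻¹) := by
        rw [← e1]
        have e5 : a = f * (f⁻¹ * a * f) * f⁻¹ := by group
        calc f * ((f⁻¹ * a * f) * z * (f⁻¹ * a * f)⁻¹ * z⁻¹) * f⁻¹ * a
            = f * ((f⁻¹ * a * f) * z * (f⁻¹ * a * f)⁻¹ * z⁻¹) * f⁻¹ *
                (f * (f⁻¹ * a * f) * f⁻¹) := by rw [← e5]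
          _ = f * (((f⁻¹ * a * f) * z * (f⁻¹ * a * f)⁻¹ * z⁻¹) * (f⁻¹ * a * f)) * f⁻¹ := by group
          _ = f * ((f⁻¹ * a * f) * ((f⁻¹ * a * f) * z * (f⁻¹ * a * f)⁻¹ * z⁻¹)) * f⁻¹ := by rw [hvc]
          _ = a * (f * ((f⁻¹ * a * f) * z * (f⁻¹ * a * f)⁻¹ * z⁻¹) * f⁻¹) := by group
      have hq : p * a⁻¹ * p⁻¹ ∈ conjBy A p := conj_mem_conjBy (A.inv_mem ha)
      have hq1 : p * a⁻¹ * p⁻¹ ≠ 1 := by
        intro h
        apply ha1
        have h3 : a⁻¹ = p⁻¹ * (p * a⁻¹ * p⁻¹) * p := by group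
        rw [h, mul_one, inv_mul_cancel] at h3
        exact inv_eq_one.mp h3
      apply not_comm_of_rankOne hS hA (hS.conj_mem A hA p) (rankOne_self_conj h0 hp hp1) ha ha1 hq hq1
      have e5 : a * (p * a⁻¹ * p⁻¹ * a) = a * (a * (p * a⁻¹ * p⁻¹)) := by
        calc a * (p * a⁻¹ * p⁻¹ * a) = (a * p * a⁻¹ * p⁻¹) * a := by group
          _ = a * (a * p * a⁻¹ * p⁻¹) := e4
          _ = a * (a * (p * a⁻¹ * p⁻¹)) := by group
      exact (mul_left_cancel e5).symm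
    · exact h0
  have hWS : ⁅A, ⁅F', Z⁆⁆ ∈ S := hcAP.1
  have hlW := commutator_mem_linePartners hS hA hcAP hAD₀ hD₀
  have hnW := ne_commutator hS hcAP hAD₀ hD₀
  have hWcm : ∀ {a p : G}, a ∈ A → a ≠ 1 → p ∈ ⁅F', Z⁆ → p ≠ 1 → a * p * a⁻¹ * p⁻¹ ≠ 1 :=
    fun ha ha1 hp hp1 h => hp1 (eq_one_of_cm_eq_one hS hA hcAP hAD₀ hD₀ ha ha1 hp h)
  have hWcmm : ∀ {a p : G}, a ∈ A → p ∈ ⁅F', Z⁆ → a * p * a⁻¹ * p⁻¹ ∈ ⁅A, ⁅F', Z⁆⁆ :=
    fun ha hp => cm_mem ha hp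
  have hPZ : ∀ {p z : G}, p ∈ ⁅F', Z⁆ → z ∈ Z → z * p = p * z :=
    fun hp hz => (hcFZ.comm_right hp hz).symm
  have hWZc : ∀ {w z : G}, w ∈ ⁅A, ⁅F', Z⁆⁆ → z ∈ Z → z * w = w * z := by
    intro w z hw hz
    exact commute_of_le_sup (fun u hu => (line_comm hAZ hu hz).symm)
      (fun u hu => hPZ hu hz) (commutator_le_sup A _ hw)
  obtain ⟨W, hWdef⟩ : ∃ W, W = ⁅A, ⁅F', Z⁆⁆ := ⟨_, rfl⟩
  rw [← hWdef] at hWS hlW hnW hWcmm hWZc
  -- no common partners of `Z` and `W`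
  have hb : ∀ B ∈ S, IsRankOnePair Z B → ¬ IsRankOnePair W B := by
    intro B hB hZB hWB
    obtain ⟨a₀, ha₀, ha₀1⟩ := hAD₀.exists_ne_one_left
    obtain ⟨p₀, hp₀, hp₀1⟩ := (Subgroup.bot_or_exists_ne_one _).resolve_left (hS.ne_bot _ hP'S)
    have hw := hWcmm (A.inv_mem ha₀) (Subgroup.inv_mem _ hp₀)
    have hw1 := hWcm (A.inv_mem ha₀) (inv_ne_one.mpr ha₀1) (Subgroup.inv_mem _ hp₀)
      (inv_ne_one.mpr hp₀1)
    have hmem : a₀ * (a₀⁻¹ * p₀⁻¹ * a₀⁻¹⁻¹ * p₀⁻¹⁻¹) ∈ conjBy A p₀⁻¹ := by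
      have := conj_mem_conjBy (g := p₀⁻¹) ha₀
      have e : a₀ * (a₀⁻¹ * p₀⁻¹ * a₀⁻¹⁻¹ * p₀⁻¹⁻¹) = p₀⁻¹ * a₀ * p₀⁻¹⁻¹ := by group
      rwa [e]
    rcases rankOne_of_mem_mul hS hA hWS (hS.conj_mem A hA p₀⁻¹) hB hWB.symm ha₀ hw hw1 hmem with
      h1 | h1
    · exact hno B hB h1.symm hZB.symm
    · have h2 := h1.conj p₀
      rw [conjBy_conjBy_inv] at h2
      have h3 := hZB.conj p₀
      have h4 : conjBy Z p₀ = Z := conjBy_eq_of_commute (fun y hy => (hPZ hp₀ hy).symm)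
      rw [h4] at h3
      exact hno _ (hS.conj_mem B hB p₀) h2.symm h3.symm
  have hWZ : W ≠ Z := by
    intro h
    obtain ⟨F₂, hF₂, h1, h2⟩ := exists_common_partner hS hFp hA (M₁ := A) (M₂ := W) hlW
      ⟨hA, le_sup_left⟩ ⟨hWS, le_sup_right⟩ hnW
    rw [h] at h2
    exact hno F₂ hF₂ h1.symm h2
  -- final computation
  obtain ⟨e, he, he1⟩ := (Subgroup.bot_or_exists_ne_one _).resolve_left (hS.ne_bot E hES)
  obtain ⟨c, hc', hc1⟩ := hCD.exists_ne_one_left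
  have hzZ : c * e * c⁻¹ * e⁻¹ ∈ Z := by rw [hZdef]; exact cm_mem hc' he
  have hz1 : c * e * c⁻¹ * e⁻¹ ≠ 1 := fun h =>
    he1 (eq_one_of_cm_eq_one hS hC hcc hCD hD hc' hc1 he h)
  obtain ⟨z, hzdef⟩ : ∃ z, z = c * e * c⁻¹ * e⁻¹ := ⟨_, rfl⟩
  rw [← hzdef] at hzZ hz1
  have hze : z * e = e * z := hcz hzZ he
  have huT : c * e * c⁻¹ ∈ conjBy E c := conj_mem_conjBy he
  have hu1 : c * e * c⁻¹ ≠ 1 := by
    intro h
    apply he1
    have h3 : e = c⁻¹ * (c * e * c⁻¹) * c := by group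
    rw [h, mul_one, inv_mul_cancel] at h3
    exact h3
  have hue : c * e * c⁻¹ = e * z := by
    rw [← hze, hzdef]
    group
  obtain ⟨u, hudef⟩ : ∃ u, u = c * e * c⁻¹ := ⟨_, rfl⟩
  rw [← hudef] at huT hu1 hue
  have hTS : conjBy E c ∈ S := hS.conj_mem E hES c
  have hcA : conjBy A c = A := conjBy_eq_of_commute (fun y hy => (line_comm hAC hy hc').symm)
  have hAT : ⁅A, conjBy E c⁆ = ⊥ := by
    have := conj_commutator_bot hAE c
    rwa [hcA] at this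
  have hrootE := root_of_line hS hD₀ hAD₀ hlE
  have hrootT : ∀ b ∈ conjBy E c, b ≠ 1 → ∀ a ∈ A, a ≠ 1 → b * a ∈ rootElements S := by
    intro b hb hb1 a ha ha1
    have hb' := mem_conjBy.mp hb
    have h1 : c⁻¹ * b * c ≠ 1 := by
      intro h
      apply hb1
      have h3 : b = c * (c⁻¹ * b * c) * c⁻¹ := by group
      rw [h, mul_one, mul_inv_cancel] at h3
      exact h3
    have h2 := rootElements_conj hS (g := c) (hrootE _ hb' h1 a ha ha1)
    have hac : a * c = c * a := line_comm hAC ha hc'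
    have e : c * (c⁻¹ * b * c * a) * c⁻¹ = b * a := by
      calc c * (c⁻¹ * b * c * a) * c⁻¹ = b * (c * a) * c⁻¹ := by group
        _ = b * (a * c) * c⁻¹ := by rw [hac]
        _ = b * a := by group
    rwa [e] at h2
  have hFT_ne : ⁅F', conjBy E c⁆ ≠ ⊥ := commutator_ne_bot_of_line hS hF' hAF' hAT hrootT
    (fun h => hS.ne_bot E hES (conjBy_eq_bot h))
  have hFT_nr : ¬ IsRankOnePair F' (conjBy E c) := by
    intro h
    have hmem : z⁻¹ * u ∈ E := by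
      rw [hue]
      have e' : z⁻¹ * (e * z) = e := by
        rw [← hze]
        group
      rwa [e']
    rcases rankOne_of_mem_mul hS hZS hTS hES hF' h (Z.inv_mem hzZ) huT hu1 hmem with h1 | h1
    · exact not_rankOne_of_commCase hS hF' hZS hcFZ h1
    · exact not_rankOne_of_commCase hS hF' hES hcFE h1
  have hcFT : RootCommutatorCase S F' (conjBy E c) := by
    rcases hS.pair F' hF' _ hTS with h | h | h
    · exact absurd h hFT_ne
    · exact absurd h hFT_nr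
    · exact h
  obtain ⟨f, hf, hf1⟩ := hAF'.exists_ne_one_right
  obtain ⟨a, ha, ha1, hrel⟩ := hAF'.symm.cond_left f hf hf1
  obtain ⟨PE, hPE, hEPE⟩ := hFp E hES
  obtain ⟨PT, hPT, hTPT⟩ := hFp _ hTS
  obtain ⟨PZ, hPZS, hZPZ⟩ := hFp Z hZS
  obtain ⟨PW, hPW, hWPW⟩ := hFp W hWS
  have n1 := natural_action hS hA hF' hES hPE hAF' hcFE hAE hEPE hrootE hf ha hrel he
  have n2 := natural_action hS hA hF' hTS hPT hAF' hcFT hAT hTPT hrootT hf ha hrel huT
  have hsm : e⁻¹ * (f⁻¹ * e * f) ∈ ⁅F', E⁆ := by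
    have := cm_mem (E.inv_mem he) (F'.inv_mem hf)
    rw [Subgroup.commutator_comm] at this
    have e' : e⁻¹ * f⁻¹ * e⁻¹⁻¹ * f⁻¹⁻¹ = e⁻¹ * (f⁻¹ * e * f) := by group
    rwa [e'] at this
  have hpm : z⁻¹ * (f⁻¹ * z * f) ∈ ⁅F', Z⁆ := by
    have := cm_mem (Z.inv_mem hzZ) (F'.inv_mem hf)
    rw [Subgroup.commutator_comm] at this
    have e' : z⁻¹ * f⁻¹ * z⁻¹⁻¹ * f⁻¹⁻¹ = z⁻¹ * (f⁻¹ * z * f) := by group
    rwa [e'] at this
  have haz : a * z = z * a := line_comm hAZ ha hzZ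
  have hκ := kappa_identity hue rfl rfl rfl n1 n2 haz
  obtain ⟨s, hsdef⟩ : ∃ s, s = e⁻¹ * (f⁻¹ * e * f) := ⟨_, rfl⟩
  obtain ⟨p, hpdef⟩ : ∃ p, p = z⁻¹ * (f⁻¹ * z * f) := ⟨_, rfl⟩
  rw [← hsdef] at hsm hκ
  rw [← hpdef] at hpm hκ
  have hw₁ : a * p * a⁻¹ * p⁻¹ ∈ W := hWcmm ha hpm
  have hzw : z * (a * p * a⁻¹ * p⁻¹) = (a * p * a⁻¹ * p⁻¹) * z := hWZc hw₁ hzZ
  obtain ⟨w₁, hw₁def⟩ : ∃ w₁, w₁ = a * p * a⁻¹ * p⁻¹ := ⟨_, rfl⟩
  rw [← hw₁def] at hw₁ hzw hκ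
  by_cases hκ1 : s⁻¹ * z⁻¹ * s * z = 1
  · -- `W = Z`
    rw [hκ1] at hκ
    have h1 : z⁻¹ = w₁ := (eq_inv_of_mul_eq_one_right hκ.symm).symm ▸ rfl
    have h2 : z⁻¹ ∈ W := by rw [h1]; exact hw₁
    exact hWZ (eq_of_not_isolated hS hWPW hPW hZS h2 (Z.inv_mem hzZ) (inv_ne_one.mpr hz1))
  · have hS₀ : ⁅F', E⁆ ∈ S := hcFE.1
    have hκm : s⁻¹ * z⁻¹ * s * z ∈ ⁅⁅F', E⁆, Z⁆ := by
      have := cm_mem (Subgroup.inv_mem _ hsm) (Z.inv_mem hzZ)
      have e' : s⁻¹ * z⁻¹ * s⁻¹⁻¹ * z⁻¹⁻¹ = s⁻¹ * z⁻¹ * s * z := by group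
      rwa [e'] at this
    rcases hS.pair _ hS₀ Z hZS with h0 | h0 | h0
    · rw [h0, Subgroup.mem_bot] at hκm
      exact hκ1 hκm
    · -- rank one: excluded
      have hs1 : s⁻¹ ≠ 1 := by
        intro h
        apply hκ1
        have h3 : s = 1 := inv_eq_one.mp h
        rw [h3]
        group
      have hq : s⁻¹ * z⁻¹ * s ∈ conjBy Z s⁻¹ := by
        have := conj_mem_conjBy (g := s⁻¹) (Z.inv_mem hzZ)
        simpa using this
      have hq1 : s⁻¹ * z⁻¹ * s ≠ 1 := by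
        intro h
        apply hz1
        have h3 : z⁻¹ = s * (s⁻¹ * z⁻¹ * s) * s⁻¹ := by group
        rw [h, mul_one, mul_inv_cancel] at h3
        exact inv_eq_one.mp h3
      apply not_comm_of_rankOne hS hZS (hS.conj_mem Z hZS s⁻¹)
        (rankOne_self_conj h0.symm (Subgroup.inv_mem _ hsm) hs1) hzZ hz1 hq hq1
      have h3 : (s⁻¹ * z⁻¹ * s * z) * z = z * (s⁻¹ * z⁻¹ * s * z) := by
        rw [hκ, mul_assoc, ← hzw]
      have h4 : (s⁻¹ * z⁻¹ * s) * z * z = z * (s⁻¹ * z⁻¹ * s) * z := by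
        simpa [mul_assoc] using h3
      exact (mul_right_cancel h4).symm
    · have hcZ₀ := h0.symm
      have hκm' : s⁻¹ * z⁻¹ * s * z ∈ ⁅Z, ⁅F', E⁆⁆ := by
        rw [Subgroup.commutator_comm]
        exact hκm
      have hlK := commutator_mem_linePartners hS hZS hcZ₀ hZPZ hPZS
      have hinfK := inf_commutator_eq_bot hS hcZ₀ hZPZ hPZS
      have hw₁form : w₁ = z⁻¹ * (s⁻¹ * z⁻¹ * s * z) := by
        rw [hκ]
        group
      have hw₁mem : w₁ ∈ Z ⊔ ⁅Z, ⁅F', E⁆⁆ := by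
        rw [hw₁form]
        exact Subgroup.mul_mem _ ((le_sup_left : Z ≤ Z ⊔ ⁅Z, ⁅F', E⁆⁆) (Z.inv_mem hzZ))
          ((le_sup_right : ⁅Z, ⁅F', E⁆⁆ ≤ Z ⊔ ⁅Z, ⁅F', E⁆⁆) hκm')
      have hw₁1 : w₁ ≠ 1 := by
        intro h
        rw [h, mul_one] at hκ
        have h3 : z ∈ Z ⊓ ⁅Z, ⁅F', E⁆⁆ := ⟨hzZ, by rw [← hκ]; exact hκm'⟩
        rw [hinfK, Subgroup.mem_bot] at h3
        exact hz1 h3
      obtain ⟨M, hM, hwM⟩ := hlK.2.2.1 _ hw₁mem hw₁1
      have hWM : W = M := eq_of_not_isolated hS hWPW hPW hM.1 hw₁ hwM hw₁1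
      rw [← hWM] at hM
      obtain ⟨F₁, hF₁, h1, h2⟩ := exists_common_partner hS hFp hZS hlK (M₁ := Z) (M₂ := W)
        ⟨hZS, le_sup_left⟩ hM hWZ.symm
      exact hb F₁ hF₁ h1.symm h2.symm

end CaseII

section Core

variable {A C : Subgroup G}

theorem subset_core (hS : IsRootSubgroupSet S) (hFp : ∀ E ∈ S, ∃ P ∈ S, IsRankOnePair E P)
    (hA : A ∈ S) (hC : C ∈ S) (hΩ : ∀ F ∈ S, IsRankOnePair A F → IsRankOnePair C F) :
    ⁅A, C⁆ = ⊥ ∧ ∀ D ∈ S, IsRankOnePair C D → IsRankOnePair A D := by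
  have hAC : ⁅A, C⁆ = ⊥ := by
    rcases hS.pair A hA C hC with h | h | h
    · exact h
    · exact absurd rfl (hΩ C hC h).ne
    · exact (not_commCase_of_subset hS hFp hA hC hΩ h).elim
  refine ⟨hAC, fun D hD hCD => ?_⟩
  rcases hS.pair A hA D hD with h | h | h
  · obtain ⟨F, hF, hAF⟩ := hFp A hA
    exact (caseI_false hS hA hC hD hF hAC h hCD hΩ hAF).elim
  · exact h
  · exact (caseII_false hS hFp hA hC hD hAC hCD hΩ h).elim

lemma mem_centralizingMembers_iff' {X Y : Subgroup G} :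
    X ∈ centralizingMembers S Y ↔ X ∈ S ∧ ⁅X, Y⁆ = ⊥ := by
  rw [Subgroup.commutator_eq_bot_iff_le_centralizer]
  rfl

theorem centralizing_core (hS : IsRootSubgroupSet S) (hFp : ∀ E ∈ S, ∃ P ∈ S, IsRankOnePair E P)
    (hA : A ∈ S) (hC : C ∈ S) (hsub : centralizingMembers S A ⊆ centralizingMembers S C) :
    centralizingMembers S A = centralizingMembers S C := by
  have hAA : ⁅A, A⁆ = ⊥ := bot_of_comm_elts (fun _ hx _ hy => comm_of_mem_of_S hS hA hx hy)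
  have hAC : ⁅A, C⁆ = ⊥ :=
    (mem_centralizingMembers_iff'.mp (hsub (mem_centralizingMembers_iff'.mpr ⟨hA, hAA⟩))).2
  have hΩCA : ∀ D ∈ S, IsRankOnePair C D → IsRankOnePair A D := by
    intro D hD hCD
    rcases hS.pair A hA D hD with h | h | h
    · exfalso
      have h1 := (mem_centralizingMembers_iff'.mp
        (hsub (mem_centralizingMembers_iff'.mpr ⟨hD, by rw [Subgroup.commutator_comm]; exact h⟩))).2
      rw [Subgroup.commutator_comm] at h1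
      exact hCD.commutator_ne_bot h1
    · exact h
    · exfalso
      have h1 : ⁅⁅A, D⁆, A⁆ = ⊥ := bot_of_comm_elts (fun _ hx _ hy => h.comm_left hx hy)
      have h2 := (mem_centralizingMembers_iff'.mp
        (hsub (mem_centralizingMembers_iff'.mpr ⟨h.1, h1⟩))).2
      rw [Subgroup.commutator_comm] at h2
      exact commutator_commutator_ne_bot hS hA hD hAC hCD h h2
  have hΩAC := (subset_core hS hFp hC hA hΩCA).2
  apply Set.Subset.antisymm hsub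
  intro B hB
  obtain ⟨hBS, hBC⟩ := mem_centralizingMembers_iff'.mp hB
  refine mem_centralizingMembers_iff'.mpr ⟨hBS, ?_⟩
  rw [Subgroup.commutator_comm]
  rcases hS.pair A hA B hBS with h | h | h
  · exact h
  · exfalso
    have h1 := hΩAC B hBS h
    rw [Subgroup.commutator_comm] at hBC
    exact h1.commutator_ne_bot hBC
  · exfalso
    obtain ⟨D₀, hD₀, hAD₀⟩ := hFp A hA
    have hl := commutator_mem_linePartners hS hA h hAD₀ hD₀
    obtain ⟨F, hF, hFA, hFE⟩ := exists_common_partner hS hFp hA hl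
      (M₁ := A) (M₂ := ⁅A, B⁆) ⟨hA, le_sup_left⟩ ⟨h.1, le_sup_right⟩
      (ne_commutator hS h hAD₀ hD₀)
    obtain ⟨Y, hY, -, -, hYc⟩ := exists_exception hS hA hF hFA.symm hl (fun E hE => hFp E hE.1)
    rw [membersIn_sup_commutator hS hA h hFA.symm hF] at hY
    rcases hY with ⟨b, hb, rfl⟩ | hY
    · have hCF := hΩAC F hF hFA.symm
      have h1 := hCF.conj b⁻¹
      have h2 : conjBy C b⁻¹ = C := conjBy_eq_of_bot hBC (B.inv_mem hb)
      rw [h2] at h1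
      have h3 := (hΩCA _ (hS.conj_mem F hF _) h1).conj b
      rw [conjBy_conjBy_inv] at h3
      exact not_rankOne_of_commCase hS hF (hS.conj_mem A hA b) hYc h3.symm
    · rw [Set.mem_singleton_iff] at hY
      rw [hY] at hYc
      exact not_rankOne_of_commCase hS hF h.1 hYc hFE

end Core

end Cfsg.Agent.Lib.Root
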