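import Mathlib
import Cfsg.Agent.Lib.Root.Sigma

/-!
Arithmetic of special rank one groups with abelian unipotent subgroups.
-/

set_option autoImplicit false

namespace Cfsg.Agent.Lib.Root

open Cfsg
open scoped Nat

section SpecialArith

variable {G : Type*} [Group G] {A B : Subgroup G}

/-- `b = b(a)`. -/
def IsPartner (A B : Subgroup G) (a b : G) : Prop :=
  a ∈ A ∧ a ≠ 1 ∧ b ∈ B ∧ b ≠ 1 ∧ conjBy A b⁻¹ = conjBy B a⁻¹

lemma eq_of_conj_right (hp : IsRankOnePair A B) {b b' : G} (hb : b ∈ B) (hb' : b' ∈ B)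
    (h : conjBy A b⁻¹ = conjBy A b'⁻¹) : b = b' := by
  have hn : b' * b⁻¹ ∈ Subgroup.normalizer (A : Set G) := by
    apply mem_normalizer_of_conj_le
    rw [conjBy_mul, h, conjBy_conjBy_inv]
  have h1 := hp.eq_one_of_mem_normalizer' (B.mul_mem hb' (B.inv_mem hb)) hn
  exact (mul_inv_eq_one.mp h1).symm

lemma eq_of_conj_left (hp : IsRankOnePair A B) {a a' : G} (ha : a ∈ A) (ha' : a' ∈ A)
    (h : conjBy B a⁻¹ = conjBy B a'⁻¹) : a = a' := by
  have hn : a' * a⁻¹ ∈ Subgroup.normalizer (B : Set G) := by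
    apply mem_normalizer_of_conj_le
    rw [conjBy_mul, h, conjBy_conjBy_inv]
  have h1 := hp.eq_one_of_mem_normalizer (A.mul_mem ha' (A.inv_mem ha)) hn
  exact (mul_inv_eq_one.mp h1).symm

lemma eq_of_mem_unipotent (hp : IsRankOnePair A B) {T₁ T₂ : Subgroup G}
    (h₁ : T₁ ∈ unipotentSubgroups A B) (h₂ : T₂ ∈ unipotentSubgroups A B) {t : G}
    (ht₁ : t ∈ T₁) (ht₂ : t ∈ T₂) (ht : t ≠ 1) : T₁ = T₂ := by
  by_contra hne
  exact ht ((hp.of_mem_unipotent h₁ h₂ hne).1.eq_one_of_mem_normalizer ht₁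
    (mem_normalizer_of_conj_le (conjBy_eq_self_of_mem ht₂)))

section Special

variable (hp : IsRankOnePair A B)
  (hs : ∀ a ∈ A, a ≠ 1 → ∀ b ∈ B, b ≠ 1 → conjBy A b⁻¹ = conjBy B a⁻¹ → b⁻¹ * a * b = a⁻¹ * b⁻¹ * a)

include hs in
lemma partner_braid {a b : G} (h : IsPartner A B a b) : a * b⁻¹ * a = b⁻¹ * a * b⁻¹ := by
  obtain ⟨ha, ha1, hb, hb1, hrel⟩ := h
  have h1 := hs a ha ha1 b hb hb1 hrel
  calc a * b⁻¹ * a = a * (b⁻¹ * a * b) * b⁻¹ := by group
    _ = a * (a⁻¹ * b⁻¹ * a) * b⁻¹ := by rw [h1]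
    _ = b⁻¹ * a * b⁻¹ := by group

include hs in
lemma partner_n_left {a b : G} (h : IsPartner A B a b) :
    (a * b⁻¹ * a)⁻¹ * a * (a * b⁻¹ * a) = b⁻¹ := by
  have h1 := partner_braid hs h
  have : a * (b⁻¹ * a * b⁻¹) = (a * b⁻¹ * a) * b⁻¹ := by group
  rw [← h1] at this
  calc (a * b⁻¹ * a)⁻¹ * a * (a * b⁻¹ * a) = (a * b⁻¹ * a)⁻¹ * (a * (a * b⁻¹ * a)) := by group
    _ = (a * b⁻¹ * a)⁻¹ * ((a * b⁻¹ * a) * b⁻¹) := by rw [this]
    _ = b⁻¹ := by group

include hs in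
lemma partner_n_right {a b : G} (h : IsPartner A B a b) :
    (a * b⁻¹ * a)⁻¹ * b⁻¹ * (a * b⁻¹ * a) = a := by
  have h1 := partner_braid hs h
  calc (a * b⁻¹ * a)⁻¹ * b⁻¹ * (a * b⁻¹ * a) = (a * b⁻¹ * a)⁻¹ * (b⁻¹ * a * b⁻¹) * a := by group
    _ = (a * b⁻¹ * a)⁻¹ * (a * b⁻¹ * a) * a := by rw [h1]
    _ = a := by group

include hp hs in
lemma partner_conj_A {a b : G} (h : IsPartner A B a b) : conjBy A (a * b⁻¹ * a)⁻¹ = B := by
  have hmem : a * b⁻¹ * a ∈ A ⊔ B := by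
    have ha' : a ∈ A ⊔ B := (le_sup_left : A ≤ A ⊔ B) h.1
    have hb' : b⁻¹ ∈ A ⊔ B := (le_sup_right : B ≤ A ⊔ B) (B.inv_mem h.2.2.1)
    exact Subgroup.mul_mem _ (Subgroup.mul_mem _ ha' hb') ha'
  apply eq_of_mem_unipotent hp (conj_mem_unipotent left_mem_unipotent (Subgroup.inv_mem _ hmem))
    hp.right_mem_unipotent (t := b⁻¹)
  · have := conj_mem_conjBy (g := (a * b⁻¹ * a)⁻¹) h.1
    rwa [inv_inv, partner_n_left hs h] at this
  · exact B.inv_mem h.2.2.1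
  · exact inv_ne_one.mpr h.2.2.2.1

include hp hs in
lemma partner_conj_B {a b : G} (h : IsPartner A B a b) : conjBy B (a * b⁻¹ * a)⁻¹ = A := by
  have hmem : a * b⁻¹ * a ∈ A ⊔ B := by
    have ha' : a ∈ A ⊔ B := (le_sup_left : A ≤ A ⊔ B) h.1
    have hb' : b⁻¹ ∈ A ⊔ B := (le_sup_right : B ≤ A ⊔ B) (B.inv_mem h.2.2.1)
    exact Subgroup.mul_mem _ (Subgroup.mul_mem _ ha' hb') ha'
  apply eq_of_mem_unipotent hp (conj_mem_unipotent hp.right_mem_unipotent (Subgroup.inv_mem _ hmem))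
    left_mem_unipotent (t := a)
  · have := conj_mem_conjBy (g := (a * b⁻¹ * a)⁻¹) (B.inv_mem h.2.2.1)
    rwa [inv_inv, partner_n_right hs h] at this
  · exact h.1
  · exact h.2.1

include hp hs in
/-- `b(a⁻¹) = b(a)⁻¹`, in the form of the conjugation equation. -/
lemma partner_inv_rel {a b : G} (h : IsPartner A B a b) : conjBy A b = conjBy B a := by
  have h1 := partner_conj_A hp hs h
  have e : (a * b⁻¹ * a)⁻¹ = a⁻¹ * (b * a⁻¹) := by group
  rw [e, conjBy_mul, conjBy_mul, conjBy_eq_self_of_mem (A.inv_mem h.1)] at h1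
  rw [← h1, conjBy_conjBy_inv]

include hp hs in
lemma partner_inv {a b : G} (h : IsPartner A B a b) : IsPartner A B a⁻¹ b⁻¹ := by
  refine ⟨A.inv_mem h.1, inv_ne_one.mpr h.2.1, B.inv_mem h.2.2.1, inv_ne_one.mpr h.2.2.2.1, ?_⟩
  rw [inv_inv, inv_inv]
  exact partner_inv_rel hp hs h

include hs in
lemma partner_pow_iff {a b : G} (h : IsPartner A B a b) (m : ℕ) : a ^ m = 1 ↔ b ^ m = 1 := by
  have h1 := partner_n_left hs h
  set n := a * b⁻¹ * a with hn
  have h2 : (b⁻¹) ^ m = n⁻¹ * a ^ m * n := by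
    have := conj_pow (a := n⁻¹) (b := a) (i := m)
    rw [inv_inv, h1] at this
    exact this
  constructor
  · intro h3
    rw [h3] at h2
    simp only [mul_one, inv_mul_cancel] at h2
    simpa using h2
  · intro h3
    have h4 : (b⁻¹) ^ m = 1 := by simp [h3]
    rw [h4] at h2
    have : a ^ m = n * (n⁻¹ * a ^ m * n) * n⁻¹ := by group
    rw [this, ← h2]
    group

include hp hs in
/-- The key relation. -/
lemma partner_step {a b y : G} (h : IsPartner A B a b) (k : ℕ)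
    (hy : conjBy A ((b⁻¹) ^ k)⁻¹ = conjBy B y⁻¹) :
    conjBy B (y * a⁻¹)⁻¹ = conjBy B (a ^ (k + 1) * b⁻¹)⁻¹ := by
  have h1 := partner_n_left hs h
  have hB := partner_conj_B hp hs h
  set n := a * b⁻¹ * a with hn
  have h2 : (b⁻¹) ^ k = n⁻¹ * a ^ k * n := by
    have := conj_pow (a := n⁻¹) (b := a) (i := k)
    rw [inv_inv, h1] at this
    exact this
  have h3 : conjBy B y⁻¹ = conjBy B (a ^ (k + 1) * b⁻¹ * a)⁻¹ := by
    rw [← hy, ← hB, ← conjBy_mul]
    congr 1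
    rw [h2, hn]
    group
  have h4 := congrArg (fun T => conjBy T a) h3
  simp only [← conjBy_mul] at h4
  have e1 : a * y⁻¹ = (y * a⁻¹)⁻¹ := by group
  have e2 : a * (a ^ (k + 1) * b⁻¹ * a)⁻¹ = (a ^ (k + 1) * b⁻¹)⁻¹ := by group
  rw [e1, e2] at h4
  exact h4

variable (hB : ∀ x ∈ B, ∀ y ∈ B, x * y = y * x)

include hp hs hB in
/-- `b(w^k)^k = b(w)`. -/
theorem partner_pow_main (k : ℕ) : ∀ w : G, w ^ ((k + 1)!) ≠ 1 → ∀ b b' : G,
    IsPartner A B w b → IsPartner A B (w ^ (k + 1)) b' → b' ^ (k + 1) = b := by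
  induction k with
  | zero =>
    intro w _ b b' h h'
    simp only [zero_add, pow_one] at h' ⊢
    exact eq_of_conj_right hp h'.2.2.1 h.2.2.1 (h'.2.2.2.2.trans h.2.2.2.2.symm)
  | succ k ih =>
    intro w hw b₁ b₂ h₁ h₂
    set K := k + 1 with hK
    have hKpos : 0 < K := Nat.succ_pos k
    have hfac : (K + 1)! = (K + 1) * K ! := Nat.factorial_succ K
    have hne : ∀ d : ℕ, d ∣ (K + 1)! → w ^ d ≠ 1 := by
      rintro d ⟨e, he⟩ h1
      apply hw
      rw [he, pow_mul, h1, one_pow]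
    have hwA : w ∈ A := h₁.1
    have hwK : w ^ K ≠ 1 := hne K (Dvd.dvd.trans (Nat.dvd_factorial hKpos le_rfl)
      (Dvd.intro_left _ hfac.symm))
    have hwKK : (w ^ (K + 1)) ^ K ≠ 1 := by
      rw [← pow_mul]
      refine hne _ ?_
      rw [hfac]
      exact Nat.mul_dvd_mul_left _ (Nat.dvd_factorial hKpos le_rfl)
    obtain ⟨b_K, hb_K, hb_K1, hrelK⟩ := hp.cond_left _ (A.pow_mem hwA K) hwK
    obtain ⟨b_KK, hb_KK, hb_KK1, hrelKK⟩ := hp.cond_left _ (A.pow_mem (A.pow_mem hwA (K + 1)) K) hwKK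
    have hP_K : IsPartner A B (w ^ K) b_K := ⟨A.pow_mem hwA K, hwK, hb_K, hb_K1, hrelK⟩
    have hP_KK : IsPartner A B ((w ^ (K + 1)) ^ K) b_KK :=
      ⟨A.pow_mem (A.pow_mem hwA (K + 1)) K, hwKK, hb_KK, hb_KK1, hrelKK⟩
    have e1 : b_K ^ K = b₁ := ih w (hne _ (by rw [hfac]; exact Dvd.intro_left _ rfl)) b₁ b_K h₁ hP_K
    have e2 : b_KK ^ K = b₂ := by
      refine ih (w ^ (K + 1)) ?_ b₂ b_KK h₂ hP_KK
      rw [← pow_mul]
      refine hne _ ?_
      rw [hfac]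
    have hstep := partner_step hp hs (y := w⁻¹) hP_K K (by
      have : ((b_K⁻¹) ^ K)⁻¹ = b₁ := by rw [inv_pow, inv_inv, e1]
      rw [this, inv_inv]
      exact partner_inv_rel hp hs h₁)
    have h3 : conjBy B (w ^ (K + 1)) = conjBy A (b_K * b_KK⁻¹) := by
      have e3 : (w⁻¹ * (w ^ K)⁻¹)⁻¹ = w ^ (K + 1) := by
        rw [mul_inv_rev, inv_inv, inv_inv]
        exact (pow_succ w K).symm
      have e4 : ((w ^ K) ^ (K + 1) * b_K⁻¹)⁻¹ = b_K * ((w ^ (K + 1)) ^ K)⁻¹ := by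
        rw [mul_inv_rev, inv_inv, ← pow_mul, ← pow_mul, mul_comm K (K + 1)]
      rw [e3, e4, conjBy_mul, ← hrelKK, ← conjBy_mul] at hstep
      exact hstep
    have hb₂mem : b₂ ∈ B := h₂.2.2.1
    have h4 : b₂ = b_K * b_KK⁻¹ := by
      have h5 : conjBy A b₂ = conjBy A (b_K * b_KK⁻¹) := by
        rw [partner_inv_rel hp hs h₂, h3]
      have h6 : b₂⁻¹ = (b_K * b_KK⁻¹)⁻¹ :=
        eq_of_conj_right hp (B.inv_mem hb₂mem)
          (B.inv_mem (B.mul_mem hb_K (B.inv_mem hb_KK))) (by rw [inv_inv, inv_inv, h5])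
      exact inv_injective h6
    have hcomm : Commute b_K b_KK⁻¹ := hB _ hb_K _ (B.inv_mem hb_KK)
    have h7 : b₂ ^ K = b₁ * b₂⁻¹ := by
      conv_lhs => rw [h4]
      rw [hcomm.mul_pow, e1, inv_pow, e2]
    rw [pow_succ, h7]
    group

include hp hs hB in
/-- Every finite order element of `A` has prime order. -/
theorem partner_prime_order {w : G} (hw : w ∈ A) (hw1 : w ≠ 1) (hfin : IsOfFinOrder w) :
    (orderOf w).Prime := by
  set m := orderOf w with hm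
  have hm0 : m ≠ 0 := (orderOf_pos_iff.mpr hfin).ne'
  have hm1 : m ≠ 1 := fun h1 => hw1 (orderOf_eq_one_iff.mp h1)
  set q := m.minFac with hq
  have hqp : q.Prime := Nat.minFac_prime hm1
  by_contra hnp
  have hqm : q ≠ m := fun h => hnp (h ▸ hqp)
  obtain ⟨l, hl⟩ : q ∣ m := Nat.minFac_dvd m
  have hl1 : l ≠ 1 := by
    rintro rfl
    exact hqm (by rw [hl, mul_one])
  have hl0 : l ≠ 0 := by
    rintro rfl
    exact hm0 (by rw [hl, mul_zero])
  -- `m` does not divide `q!`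
  have hnd : ¬ m ∣ q ! := by
    intro hd
    set r := l.minFac with hr
    have hrp : r.Prime := Nat.minFac_prime hl1
    have hrl : r ∣ l := Nat.minFac_dvd l
    have hrm : r ∣ m := by rw [hl]; exact Dvd.dvd.mul_left hrl q
    have hqr : q ≤ r := Nat.minFac_le_of_dvd hrp.two_le hrm
    have hrq : r ≤ q := (hrp.dvd_factorial).mp (hrm.trans hd)
    have hrq' : r = q := le_antisymm hrq hqr
    have hqq : q * q ∣ q ! := by
      refine Dvd.dvd.trans ?_ hd
      rw [hl]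
      exact Nat.mul_dvd_mul_left q (hrq' ▸ hrl)
    obtain ⟨t, ht⟩ : ∃ t, q = t + 1 := ⟨q - 1, (Nat.succ_pred_eq_of_pos hqp.pos).symm⟩
    have h1 : q ! = q * (q - 1)! := by
      rw [ht]
      simp [Nat.factorial_succ]
    rw [h1] at hqq
    have h2 : q ∣ (q - 1)! := Nat.dvd_of_mul_dvd_mul_left hqp.pos hqq
    have h3 := (hqp.dvd_factorial).mp h2
    have := hqp.pos
    omega
  have hw2 : w ^ (q !) ≠ 1 := by
    intro h
    exact hnd (orderOf_dvd_of_pow_eq_one h)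
  have hwq : w ^ q ≠ 1 := by
    intro h
    exact hw2 (by
      obtain ⟨t, ht⟩ : q ∣ q ! := Nat.dvd_factorial hqp.pos le_rfl
      rw [ht, pow_mul, h, one_pow])
  obtain ⟨b, hb, hb1, hrel⟩ := hp.cond_left w hw hw1
  obtain ⟨b', hb', hb'1, hrel'⟩ := hp.cond_left _ (A.pow_mem hw q) hwq
  have hP : IsPartner A B w b := ⟨hw, hw1, hb, hb1, hrel⟩
  have hP' : IsPartner A B (w ^ q) b' := ⟨A.pow_mem hw q, hwq, hb', hb'1, hrel'⟩
  obtain ⟨t, ht⟩ : ∃ t, q = t + 1 := ⟨q - 1, (Nat.succ_pred_eq_of_pos hqp.pos).symm⟩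
  have hmain : b' ^ q = b := by
    have := partner_pow_main hp hs hB t w (by rw [← ht]; exact hw2) b b' hP (by rw [← ht]; exact hP')
    rwa [← ht] at this
  -- `b'` has order dividing `l`
  have h1 : (w ^ q) ^ l = 1 := by
    rw [← pow_mul, ← hl, hm]
    exact pow_orderOf_eq_one w
  have h2 : b' ^ l = 1 := (partner_pow_iff hs hP' l).mp h1
  have h3 : b ^ l = 1 := by
    rw [← hmain, ← pow_mul, mul_comm, pow_mul, h2, one_pow]
  have h4 : w ^ l = 1 := (partner_pow_iff hs hP l).mpr h3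
  have h5 : m ∣ l := orderOf_dvd_of_pow_eq_one h4
  have h6 : m ≤ l := Nat.le_of_dvd (Nat.pos_of_ne_zero hl0) h5
  rw [hl] at h6
  have := hqp.two_le
  nlinarith [Nat.pos_of_ne_zero hl0]

include hp hs hB in
/-- The dichotomy. -/
theorem special_dichotomy (hA : ∀ x ∈ A, ∀ y ∈ A, x * y = y * x) :
    (∃ p : ℕ, p.Prime ∧ ∀ a ∈ A, a ^ p = 1) ∨
    ((∀ a ∈ A, a ≠ 1 → ¬ IsOfFinOrder a) ∧ ∀ a ∈ A, ∀ n : ℕ, 0 < n → ∃ c ∈ A, c ^ n = a) := by
  by_cases htf : ∀ a ∈ A, a ≠ 1 → ¬ IsOfFinOrder a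
  · right
    refine ⟨htf, ?_⟩
    intro a ha n hn
    by_cases ha1 : a = 1
    · exact ⟨1, A.one_mem, by rw [ha1, one_pow]⟩
    obtain ⟨b, hb, hb1, hrel⟩ := hp.cond_left a ha ha1
    have hP : IsPartner A B a b := ⟨ha, ha1, hb, hb1, hrel⟩
    have hBc := partner_conj_B hp hs hP
    set N := a * b⁻¹ * a with hN
    have hAc := partner_conj_A hp hs hP
    -- the element of `B` conjugate to `a`
    have hb₁ : N⁻¹ * a * N ∈ B := by
      rw [← hAc]
      have := conj_mem_conjBy (g := N⁻¹) ha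
      rwa [inv_inv] at this
    have hb₁1 : N⁻¹ * a * N ≠ 1 := by
      intro h
      apply ha1
      have : a = N * (N⁻¹ * a * N) * N⁻¹ := by group
      rw [this, h]
      group
    obtain ⟨a₁, ha₁, ha₁1, hrel₁⟩ := hp.cond_right _ hb₁ hb₁1
    have hP₁ : IsPartner A B a₁ (N⁻¹ * a * N) := ⟨ha₁, ha₁1, hb₁, hb₁1, hrel₁.symm⟩
    have hfin : ∀ d : ℕ, 0 < d → a₁ ^ d ≠ 1 := by
      intro d hd h
      exact htf a₁ ha₁ ha₁1 (isOfFinOrder_iff_pow_eq_one.mpr ⟨d, hd, h⟩)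
    obtain ⟨t, rfl⟩ : ∃ t, n = t + 1 := ⟨n - 1, (Nat.succ_pred_eq_of_pos hn).symm⟩
    obtain ⟨b', hb', hb'1, hrel'⟩ := hp.cond_left _ (A.pow_mem ha₁ (t + 1))
      (hfin (t + 1) (Nat.succ_pos t))
    have hmain := partner_pow_main hp hs hB t a₁ (hfin _ (Nat.factorial_pos _)) _ b' hP₁
      ⟨A.pow_mem ha₁ (t + 1), hfin (t + 1) (Nat.succ_pos t), hb', hb'1, hrel'⟩
    refine ⟨N * b' * N⁻¹, ?_, ?_⟩
    · have h1 : b' ∈ conjBy A N⁻¹ := by rw [hAc]; exact hb'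
      have h2 := mem_conjBy.mp h1
      rwa [inv_inv] at h2
    · rw [conj_pow, hmain]
      group
  · left
    push Not at htf
    obtain ⟨w₀, hw₀, hw₀1, hfin₀⟩ := htf
    have hpp := partner_prime_order hp hs hB hw₀ hw₀1 hfin₀
    set p := orderOf w₀ with hp'
    refine ⟨p, hpp, ?_⟩
    intro z hz
    by_contra hzp
    have hw₀p : w₀ ^ p = 1 := by rw [hp']; exact pow_orderOf_eq_one w₀
    have hcomm : Commute z w₀ := hA z hz w₀ hw₀
    have hz1 : z ≠ 1 := by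
      rintro rfl
      exact hzp (one_pow _)
    by_cases hzf : z ^ (p !) = 1
    · have hfz : IsOfFinOrder z :=
        isOfFinOrder_iff_pow_eq_one.mpr ⟨p !, Nat.factorial_pos _, hzf⟩
      have hr := partner_prime_order hp hs hB hz hz1 hfz
      have hrp : orderOf z ≠ p := by
        intro h
        apply hzp
        rw [← h]
        exact pow_orderOf_eq_one z
      have hcop : Nat.Coprime (orderOf z) (orderOf w₀) := (Nat.coprime_primes hr hpp).mpr hrp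
      have hord := hcomm.orderOf_mul_eq_mul_orderOf_of_coprime hcop
      have hne1 : z * w₀ ≠ 1 := by
        intro h
        rw [h, orderOf_one] at hord
        have h2 := hr.two_le
        have h3 := hpp.two_le
        have : 2 * 2 ≤ orderOf z * orderOf w₀ := Nat.mul_le_mul h2 h3
        omega
      have hfin2 : IsOfFinOrder (z * w₀) := hcomm.isOfFinOrder_mul hfz hfin₀
      have h4 := partner_prime_order hp hs hB (A.mul_mem hz hw₀) hne1 hfin2
      rw [hord] at h4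
      exact Nat.not_prime_mul hr.ne_one hpp.ne_one h4
    · obtain ⟨t, ht⟩ : ∃ t, p = t + 1 := ⟨p - 1, (Nat.succ_pred_eq_of_pos hpp.pos).symm⟩
      have hdvd : p ∣ p ! := Nat.dvd_factorial hpp.pos le_rfl
      have hfac : (z * w₀) ^ (p !) = z ^ (p !) := by
        obtain ⟨e, he⟩ := hdvd
        rw [hcomm.mul_pow]
        have : w₀ ^ (p !) = 1 := by rw [he, pow_mul, hw₀p, one_pow]
        rw [this, mul_one]
      have hpow : (z * w₀) ^ p = z ^ p := by
        rw [hcomm.mul_pow, hw₀p, mul_one]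
      have hne1 : z * w₀ ≠ 1 := by
        intro h
        rw [h, one_pow] at hpow
        exact hzp hpow.symm
      obtain ⟨b, hb, hb1, hrel⟩ := hp.cond_left z hz hz1
      obtain ⟨b₂, hb₂, hb₂1, hrel₂⟩ := hp.cond_left _ (A.mul_mem hz hw₀) hne1
      obtain ⟨b', hb', hb'1, hrel'⟩ := hp.cond_left _ (A.pow_mem hz p) hzp
      have hP : IsPartner A B z b := ⟨hz, hz1, hb, hb1, hrel⟩
      have hP₂ : IsPartner A B (z * w₀) b₂ := ⟨A.mul_mem hz hw₀, hne1, hb₂, hb₂1, hrel₂⟩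
      have hP' : IsPartner A B (z ^ p) b' := ⟨A.pow_mem hz p, hzp, hb', hb'1, hrel'⟩
      have h1 : b' ^ p = b := by
        have := partner_pow_main hp hs hB t z (by rw [← ht]; exact hzf) b b' hP (by rw [← ht]; exact hP')
        rwa [← ht] at this
      have h2 : b' ^ p = b₂ := by
        have := partner_pow_main hp hs hB t (z * w₀) (by rw [← ht, hfac]; exact hzf) b₂ b' hP₂
          (by rw [← ht, hpow]; exact hP')
        rwa [← ht] at this
      have h3 : b = b₂ := h1.symm.trans h2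
      have h4 : z = z * w₀ := eq_of_conj_left hp hz (A.mul_mem hz hw₀) (by
        rw [← hrel, ← hrel₂, h3])
      exact hw₀1 (by simpa using h4.symm)

end Special

end SpecialArith

end Cfsg.Agent.Lib.Root
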