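import Mathlib
import Cfsg.Agent.Lib.Root.SpecialArith

/-!
The core of special rank one groups with abelian unipotent subgroups: if `A` has more than three
elements then `A = ⁅A, H⁆`, with `H` the diagonal subgroup.
-/

set_option autoImplicit false

namespace Cfsg.Agent.Lib.Root

open Cfsg

section PerfectCore

variable {G : Type*} [Group G] {A B : Subgroup G}

lemma core_comm_fact {M : Type*} [CommGroup M] (x y z w a : M) :
    (x * (y * a)) * ((z * w) * y)⁻¹ * (z * (x * a)) * (w * a⁻¹) = x * x * a := by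
  apply Additive.ofMul.injective
  simp only [ofMul_mul, ofMul_inv]
  generalize Additive.ofMul x = X
  generalize Additive.ofMul y = Y
  generalize Additive.ofMul z = Z
  generalize Additive.ofMul w = W
  generalize Additive.ofMul a = U
  abel

lemma diag_commutator_le (A B : Subgroup G) : ⁅A, rankOneDiagonal A B⁆ ≤ A := by
  rw [Subgroup.commutator_le]
  intro x hx h hh
  have h1 : h ∈ Subgroup.normalizer (A : Set G) := hh.1.2
  rw [commutatorElement_def]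
  have h2 := (Subgroup.mem_normalizer_iff.mp h1 x⁻¹).mp (A.inv_mem hx)
  have h3 := A.mul_mem hx h2
  simpa [mul_assoc] using h3

lemma diag_commutator_le_commutator (A B : Subgroup G) :
    ⁅A, rankOneDiagonal A B⁆ ≤ ⁅A ⊔ B, A ⊔ B⁆ :=
  Subgroup.commutator_mono le_sup_left (fun _ hh => hh.1.1)

section Special

variable (hp : IsRankOnePair A B)
  (hs : ∀ a ∈ A, a ≠ 1 → ∀ b ∈ B, b ≠ 1 → conjBy A b⁻¹ = conjBy B a⁻¹ → b⁻¹ * a * b = a⁻¹ * b⁻¹ * a)

include hs in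
lemma partner_n_mem {a b : G} (h : IsPartner A B a b) : a * b⁻¹ * a ∈ A ⊔ B := by
  have ha' : a ∈ A ⊔ B := (le_sup_left : A ≤ A ⊔ B) h.1
  have hb' : b⁻¹ ∈ A ⊔ B := (le_sup_right : B ≤ A ⊔ B) (B.inv_mem h.2.2.1)
  exact Subgroup.mul_mem _ (Subgroup.mul_mem _ ha' hb') ha'

include hp hs in
lemma partner_n_A {a b : G} (h : IsPartner A B a b) : conjBy A (a * b⁻¹ * a) = B := by
  have h1 := partner_conj_B hp hs h
  rw [← h1, conjBy_conjBy_inv]

include hp hs in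
lemma partner_n_B {a b : G} (h : IsPartner A B a b) : conjBy B (a * b⁻¹ * a) = A := by
  have h1 := partner_conj_A hp hs h
  rw [← h1, conjBy_conjBy_inv]

include hp hs in
/-- `x y ∈ ⁅A, H⁆` whenever `x ^ n(e) = b(y)`. -/
lemma core_i {e c x y β : G} (he : IsPartner A B e c) (hx : x ∈ A)
    (hβ : (e * c⁻¹ * e)⁻¹ * x * (e * c⁻¹ * e) = β) (hy : IsPartner A B y β) :
    x * y ∈ ⁅A, rankOneDiagonal A B⁆ := by
  set n := e * c⁻¹ * e with hn
  have hy' := partner_inv hp hs hy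
  have hl := partner_n_left hs hy'
  set n' := y⁻¹ * (β⁻¹)⁻¹ * y⁻¹ with hn'
  rw [inv_inv] at hl
  have hnmem : n ∈ A ⊔ B := partner_n_mem hs he
  have hn'mem : n' ∈ A ⊔ B := partner_n_mem hs hy'
  have hA1 : conjBy A n⁻¹ = B := partner_conj_A hp hs he
  have hA2 : conjBy B n⁻¹ = A := partner_conj_B hp hs he
  have hA3 : conjBy A n = B := partner_n_A hp hs he
  have hA4 : conjBy B n = A := partner_n_B hp hs he
  have hB1 : conjBy A n'⁻¹ = B := partner_conj_A hp hs hy'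
  have hB2 : conjBy B n'⁻¹ = A := partner_conj_B hp hs hy'
  have hh1 : conjBy A (n * n'⁻¹) = A := by rw [conjBy_mul, hB1, hA4]
  have hh2 : conjBy B (n * n'⁻¹) = B := by rw [conjBy_mul, hB2, hA3]
  have hh : n * n'⁻¹ ∈ rankOneDiagonal A B :=
    ⟨⟨Subgroup.mul_mem _ hnmem (Subgroup.inv_mem _ hn'mem), mem_normalizer_of_conj_le hh1⟩,
      mem_normalizer_of_conj_le hh2⟩
  have heq : x = (n * n'⁻¹) * y⁻¹ * (n * n'⁻¹)⁻¹ := by
    have h1 : n⁻¹ * x * n = n'⁻¹ * y⁻¹ * n' := by rw [hβ, hl]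
    calc x = n * (n⁻¹ * x * n) * n⁻¹ := by group
      _ = n * (n'⁻¹ * y⁻¹ * n') * n⁻¹ := by rw [h1]
      _ = _ := by group
  have hc : x * y = (n * n'⁻¹) * y⁻¹ * (n * n'⁻¹)⁻¹ * (y⁻¹)⁻¹ := by
    rw [inv_inv]
    conv_lhs => rw [heq]
  have hmem := Subgroup.commutator_mem_commutator hh (A.inv_mem hy.1)
  rw [commutatorElement_def] at hmem
  rw [hc, Subgroup.commutator_comm]
  exact hmem

include hp hs in
/-- Action of `n(e)` on the points. -/
lemma core_points {e c z y β : G} (he : IsPartner A B e c)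
    (hβ : (e * c⁻¹ * e)⁻¹ * z * (e * c⁻¹ * e) = β) (hy : IsPartner A B y β) :
    conjBy (conjBy B z⁻¹) (e * c⁻¹ * e)⁻¹ = conjBy B y⁻¹ := by
  set n := e * c⁻¹ * e with hn
  have hA2 : conjBy B n⁻¹ = A := partner_conj_B hp hs he
  rw [← hy.2.2.2.2, ← conjBy_mul]
  have e1 : n⁻¹ * z⁻¹ = β⁻¹ * n⁻¹ := by rw [← hβ]; group
  rw [e1, conjBy_mul, hA2]

include hp hs in
lemma exists_partner_of_left {x : G} (hx : x ∈ A) (hx1 : x ≠ 1) : ∃ β, IsPartner A B x β := by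
  obtain ⟨b, hb, hb1, h⟩ := hp.cond_left x hx hx1
  exact ⟨b, hx, hx1, hb, hb1, h⟩

include hp hs in
lemma exists_partner_of_right {β : G} (hb : β ∈ B) (hb1 : β ≠ 1) : ∃ y, IsPartner A B y β := by
  obtain ⟨a, ha, ha1, h⟩ := hp.cond_right β hb hb1
  exact ⟨a, ha, ha1, hb, hb1, h.symm⟩

include hp hs in
lemma conj_n_mem_right {e c x : G} (he : IsPartner A B e c) (hx : x ∈ A) :
    (e * c⁻¹ * e)⁻¹ * x * (e * c⁻¹ * e) ∈ B := by
  have h := partner_conj_A hp hs he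
  rw [← h]
  have := conj_mem_conjBy (g := (e * c⁻¹ * e)⁻¹) hx
  rwa [inv_inv] at this

include hp hs in
lemma exists_conj_n_left {e c β : G} (he : IsPartner A B e c) (hβ : β ∈ B) :
    ∃ x ∈ A, (e * c⁻¹ * e)⁻¹ * x * (e * c⁻¹ * e) = β := by
  have h := partner_n_B hp hs he
  set n := e * c⁻¹ * e
  refine ⟨n * β * n⁻¹, ?_, by group⟩
  rw [← h]
  rw [mem_conjBy]
  simpa [mul_assoc] using hβ

lemma conj_ne_one {x n : G} (hx : x ≠ 1) : n⁻¹ * x * n ≠ 1 := by
  intro h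
  apply hx
  have : x = n * (n⁻¹ * x * n) * n⁻¹ := by group
  rw [this, h]
  group

include hp hs in
/-- The key relation `x² a ∈ ⁅A, H⁆`. -/
theorem core_ii (hAc : ∀ x ∈ A, ∀ y ∈ A, x * y = y * x) {a x : G} (ha : a ∈ A) (ha1 : a ≠ 1)
    (hx : x ∈ A) (hx1 : x ≠ 1) (hxa : x * a ≠ 1) : x * x * a ∈ ⁅A, rankOneDiagonal A B⁆ := by
  classical
  obtain ⟨b, hab⟩ := exists_partner_of_left hp hs ha ha1
  -- take `e = a`
  have hab' := partner_inv hp hs hab
  set n := a * b⁻¹ * a with hn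
  -- choose the elements
  obtain ⟨w, hw, hwn⟩ := exists_conj_n_left hp hs hab (B.inv_mem hab.2.2.1)
  have hq4 : w * a⁻¹ ∈ ⁅A, rankOneDiagonal A B⁆ := core_i hp hs hab hw hwn hab'
  obtain ⟨β₁, hβ₁⟩ := exists_partner_of_left hp hs (A.mul_mem hx ha) hxa
  obtain ⟨z, hz, hzn⟩ := exists_conj_n_left hp hs hab hβ₁.2.2.1
  have hq3 : z * (x * a) ∈ ⁅A, rankOneDiagonal A B⁆ := core_i hp hs hab hz hzn hβ₁
  -- the element `x ^ n(a)`
  have hβmem := conj_n_mem_right hp hs hab hx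
  obtain ⟨y, hy⟩ := exists_partner_of_right hp hs hβmem (conj_ne_one hx1)
  have hq1' : x * y ∈ ⁅A, rankOneDiagonal A B⁆ := core_i hp hs hab hx rfl hy
  have hpy : conjBy (conjBy B x⁻¹) n⁻¹ = conjBy B y⁻¹ := core_points hp hs hab rfl hy
  have hpz : conjBy (conjBy B z⁻¹) n⁻¹ = conjBy B (x * a)⁻¹ := core_points hp hs hab hzn hβ₁
  -- `n⁻¹` expressed through the factors
  have hbw : b = n⁻¹ * w⁻¹ * n := by
    have h1 : n⁻¹ * w⁻¹ * n = (n⁻¹ * w * n)⁻¹ := by group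
    rw [h1, hwn, inv_inv]
  have hninv : n⁻¹ = a⁻¹ * b * a⁻¹ := by rw [hn]; group
  -- the chain of points
  have hstep1 : conjBy (conjBy B x⁻¹) a⁻¹ = conjBy B (x * a)⁻¹ := by
    rw [← conjBy_mul]; congr 1; group
  have hpz' : conjBy (conjBy B (x * a)⁻¹) n = conjBy B z⁻¹ := by
    rw [← hpz, conjBy_conjBy_inv]
  have hstep2 : conjBy (conjBy B z⁻¹) w⁻¹ = conjBy B (z * w)⁻¹ := by
    rw [← conjBy_mul]; congr 1; group
  have hchain : conjBy B y⁻¹ = conjBy (conjBy (conjBy B (z * w)⁻¹) n⁻¹) a⁻¹ := by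
    rw [← hpy]
    conv_lhs => rw [hninv]
    have e1 : a⁻¹ * b * a⁻¹ = a⁻¹ * n⁻¹ * w⁻¹ * n * a⁻¹ := by rw [hbw]; group
    rw [e1]
    have e2 : a⁻¹ * n⁻¹ * w⁻¹ * n * a⁻¹ = (a⁻¹ * n⁻¹) * (w⁻¹ * (n * a⁻¹)) := by group
    rw [e2, conjBy_mul _ (a⁻¹ * n⁻¹), conjBy_mul _ w⁻¹, conjBy_mul _ n a⁻¹, hstep1, hpz', hstep2,
      conjBy_mul]
  -- `r ≠ 1`
  have hr : z * w ≠ 1 := by
    intro hr1
    rw [hr1, inv_one, conjBy_one, partner_conj_B hp hs hab, conjBy_eq_self_of_mem (A.inv_mem ha)]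
      at hchain
    apply hp.ne
    have := congrArg (fun T => conjBy T y) hchain
    simp only [conjBy_conjBy_inv] at this
    rw [conjBy_eq_self_of_mem hy.1] at this
    exact this.symm
  have hzw := A.mul_mem hz hw
  have hβ₂mem := conj_n_mem_right hp hs hab hzw
  obtain ⟨y₂, hy₂⟩ := exists_partner_of_right hp hs hβ₂mem (conj_ne_one hr)
  have hq2 : (z * w) * y₂ ∈ ⁅A, rankOneDiagonal A B⁆ := core_i hp hs hab hzw rfl hy₂
  have hpr : conjBy (conjBy B (z * w)⁻¹) n⁻¹ = conjBy B y₂⁻¹ := core_points hp hs hab rfl hy₂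
  have hfinal : conjBy B y⁻¹ = conjBy B (y₂ * a)⁻¹ := by
    rw [hchain, hpr, ← conjBy_mul]; congr 1; group
  have hyeq : y = y₂ * a := eq_of_conj_left hp hy.1 (A.mul_mem hy₂.1 ha) hfinal
  rw [hyeq] at hq1'
  have hle := diag_commutator_le A B
  have hmem := Subgroup.mul_mem _ (Subgroup.mul_mem _ (Subgroup.mul_mem _ hq1'
    (Subgroup.inv_mem _ hq2)) hq3) hq4
  have hcomm : ∀ p q : ↥A, p * q = q * p := fun p q => Subtype.ext (hAc _ p.2 _ q.2)
  letI : CommGroup ↥A := { (inferInstance : Group ↥A) with mul_comm := hcomm }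
  have key := core_comm_fact (⟨x, hx⟩ : ↥A) ⟨y₂, hy₂.1⟩ ⟨z, hz⟩ ⟨w, hw⟩ ⟨a, ha⟩
  have key' := congrArg (Subtype.val) key
  simp only [Subgroup.coe_mul, Subgroup.coe_inv] at key'
  rw [← key']
  exact hmem

include hp hs in
/-- The core theorem. -/
theorem special_core (hAc : ∀ x ∈ A, ∀ y ∈ A, x * y = y * x) (hcard : 3 < ENat.card A) :
    A ≤ ⁅A, rankOneDiagonal A B⁆ := by
  classical
  set Q := ⁅A, rankOneDiagonal A B⁆ with hQ
  have hle : Q ≤ A := diag_commutator_le A B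
  have hbound : ∀ u v : G, ¬ (∀ c ∈ A, c = 1 ∨ c = u ∨ c = v) := by
    intro u v h
    have hsub : (A : Set G) ⊆ {1, u, v} := fun c hc => by
      simpa using h c hc
    have h1 : (A : Set G).encard ≤ ({1, u, v} : Set G).encard := Set.encard_le_encard hsub
    have h2 : ({1, u, v} : Set G).encard ≤ 3 := by
      calc ({1, u, v} : Set G).encard ≤ ({u, v} : Set G).encard + 1 := Set.encard_insert_le _ _
        _ ≤ (({v} : Set G).encard + 1) + 1 := by gcongr; exact Set.encard_insert_le _ _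
        _ = 3 := by rw [Set.encard_singleton]; norm_num
    have h3 : ENat.card A = (A : Set G).encard := rfl
    rw [h3] at hcard
    exact absurd (h1.trans h2) (not_le.mpr hcard)
  -- `Q ≠ 1`
  obtain ⟨x, hx, hx1⟩ := hp.exists_ne_one_left
  have hne : ∃ q ∈ Q, q ≠ 1 := by
    by_contra hcon
    push Not at hcon
    apply hbound x⁻¹ (x⁻¹ * x⁻¹)
    intro c hc
    by_cases hc1 : c = 1
    · exact Or.inl hc1
    by_cases hc2 : c = x⁻¹
    · exact Or.inr (Or.inl hc2)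
    right; right
    have hxc : x * c ≠ 1 := by
      intro h
      exact hc2 (eq_inv_of_mul_eq_one_right h)
    have := hcon _ (core_ii hp hs hAc hc hc1 hx hx1 hxc)
    calc c = x⁻¹ * x⁻¹ * (x * x * c) := by group
      _ = x⁻¹ * x⁻¹ := by rw [this, mul_one]
  obtain ⟨q, hq, hq1⟩ := hne
  intro c hc
  by_cases hc1 : c = 1
  · rw [hc1]; exact Q.one_mem
  by_cases hc2 : q * c = 1
  · have : c = q⁻¹ := eq_inv_of_mul_eq_one_right hc2
    rw [this]; exact Q.inv_mem hq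
  have := core_ii hp hs hAc hc hc1 (hle hq) hq1 hc2
  have h1 := Q.mul_mem (Q.inv_mem (Q.mul_mem hq hq)) this
  have e : (q * q)⁻¹ * (q * q * c) = c := by group
  rwa [e] at h1

end Special

end PerfectCore

end Cfsg.Agent.Lib.Root
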