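import Cfsg.Agent.Lib.Root.PrimeTorus
import Cfsg.Agent.Lib.Chev.SL2Hom

/-!
Two elements `a, b` with `a ^ p = b ^ p = 1` and the braid relations between `a ^ t` and `b ^ (-1/t)`
give a homomorphism from `SL₂(p)`.
-/

set_option autoImplicit false

namespace Cfsg.Agent.Lib.Root.PrimeBraid

open Cfsg.Agent.Lib.Chev.SL2

variable {Γ : Type*} [Group Γ] {p : ℕ} [hp : Fact p.Prime]

/-- `t ↦ a ^ t`. -/
def powF (a : Γ) (t : ZMod p) : Γ := a ^ t.val

section Pow

variable {a : Γ}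

lemma powF_add (ha : a ^ p = 1) (s t : ZMod p) : powF a s * powF a t = powF a (s + t) := by
  simp only [powF]
  rw [← pow_add, ZMod.val_add]
  exact pow_eq_pow_mod _ ha

lemma powF_pow (ha : a ^ p = 1) (t r : ZMod p) : (powF a t) ^ r.val = powF a (t * r) := by
  simp only [powF]
  rw [← pow_mul, ZMod.val_mul]
  exact pow_eq_pow_mod _ ha

lemma powF_zero : powF a (0 : ZMod p) = 1 := by simp [powF]

lemma powF_one (hp2 : 1 < p) : powF a (1 : ZMod p) = a := by
  haveI : Fact (1 < p) := ⟨hp2⟩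
  simp [powF, ZMod.val_one]

lemma powF_neg (ha : a ^ p = 1) (t : ZMod p) : powF a (-t) = (powF a t)⁻¹ := by
  rw [eq_inv_iff_mul_eq_one, powF_add ha]
  simp [powF_zero]

end Pow

lemma braid_conj1 {A C : Γ} (h : A * C * A = C * A * C) : (A * C * A) * A * (A * C * A)⁻¹ = C := by
  calc (A * C * A) * A * (A * C * A)⁻¹ = (A * C * A) * C⁻¹ * A⁻¹ := by group
    _ = (C * A * C) * C⁻¹ * A⁻¹ := by rw [h]
    _ = C := by group

lemma braid_conj2 {A C : Γ} (h : A * C * A = C * A * C) : (A * C * A) * C * (A * C * A)⁻¹ = A := by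
  have e : (A * C * A)⁻¹ = (C * A * C)⁻¹ := by rw [h]
  rw [e]
  group

section Main

variable {a b : Γ} (ha : a ^ p = 1) (hb : b ^ p = 1)
  (hbr : ∀ t : ZMod p, t ≠ 0 →
    powF a t * powF b (-t⁻¹) * powF a t = powF b (-t⁻¹) * powF a t * powF b (-t⁻¹))

local notation "α" => powF (p := p) a
local notation "β" => powF (p := p) b
local notation "nn" => nE (powF (p := p) a) (powF (p := p) b)
local notation "hh" => hE (powF (p := p) a) (powF (p := p) b)

include hbr in
lemma n_conj_self {t : ZMod p} (ht : t ≠ 0) : nn t * α t * (nn t)⁻¹ = β (-t⁻¹) :=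
  braid_conj1 (hbr t ht)

include hbr in
lemma n_conj_other {t : ZMod p} (ht : t ≠ 0) : nn t * β (-t⁻¹) * (nn t)⁻¹ = α t :=
  braid_conj2 (hbr t ht)

include ha hb hbr in
lemma n_conj_a {t : ZMod p} (ht : t ≠ 0) (u : ZMod p) : nn t * α u * (nn t)⁻¹ = β (-u * t⁻¹ * t⁻¹) := by
  have e1 : α u = (α t) ^ (u * t⁻¹).val := by
    rw [powF_pow ha]
    congr 1
    field_simp
  have e2 : β (-u * t⁻¹ * t⁻¹) = (β (-t⁻¹)) ^ (u * t⁻¹).val := by
    rw [powF_pow hb]
    congr 1
    ring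
  rw [e1, e2, ← n_conj_self hbr ht, conj_pow]

include ha hb hbr in
lemma n_conj_b {t : ZMod p} (ht : t ≠ 0) (u : ZMod p) : nn t * β u * (nn t)⁻¹ = α (-t * t * u) := by
  have e1 : β u = (β (-t⁻¹)) ^ (-t * u).val := by
    rw [powF_pow hb]
    congr 1
    field_simp
  have e2 : α (-t * t * u) = (α t) ^ (-t * u).val := by
    rw [powF_pow ha]
    congr 1
    ring
  rw [e1, e2, ← n_conj_other hbr ht, conj_pow]

include ha hb hbr in
lemma n_inv_conj_b {t : ZMod p} (ht : t ≠ 0) (u : ZMod p) : (nn t)⁻¹ * β u * nn t = α (-u * t * t) := by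
  have h := n_conj_a ha hb hbr ht (-u * t * t)
  have e : -(-u * t * t) * t⁻¹ * t⁻¹ = u := by field_simp
  rw [e] at h
  rw [← h]
  group

include ha hb hbr in
lemma n_inv_conj_a {t : ZMod p} (ht : t ≠ 0) (u : ZMod p) : (nn t)⁻¹ * α u * nn t = β (-u * t⁻¹ * t⁻¹) := by
  have h := n_conj_b ha hb hbr ht (-u * t⁻¹ * t⁻¹)
  have e : -t * t * (-u * t⁻¹ * t⁻¹) = u := by field_simp
  rw [e] at h
  rw [← h]
  group

include ha hb in
lemma n_neg (t : ZMod p) : nn (-t) = (nn t)⁻¹ := by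
  simp only [nE]
  rw [inv_neg, neg_neg, powF_neg ha t]
  have : powF b (t⁻¹) = (powF b (-t⁻¹))⁻¹ := by
    rw [← powF_neg hb, neg_neg]
  rw [this]
  group

include ha hb hbr in
/-- The key relation. -/
lemma rstar {x y : ZMod p} (hx : x ≠ 0) (hy : y ≠ 0) (hz : x + y ≠ 0) :
    nn x * (nn (x + y))⁻¹ * nn y = nn (x * y * (x + y)⁻¹) := by
  set z := x + y with hzd
  set r := x * y * z⁻¹ with hr
  have hr0 : r ≠ 0 := mul_ne_zero (mul_ne_zero hx hy) (inv_ne_zero hz)
  -- the unipotent elements in terms of `n`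
  have E1 : ∀ t : ZMod p, β (-t⁻¹) = α (-t) * nn t * α (-t) := by
    intro t
    simp only [nE]
    rw [powF_neg ha]
    group
  have E2 : ∀ t : ZMod p, t ≠ 0 → α t = β (t⁻¹) * nn t * β (t⁻¹) := by
    intro t ht
    have h1 : nn t = β (-t⁻¹) * α t * β (-t⁻¹) := hbr t ht
    rw [h1, powF_neg hb]
    have : β (t⁻¹) = (β (-t⁻¹))⁻¹ := by rw [← powF_neg hb, neg_neg]
    rw [this, powF_neg hb]
    group
  have hneg : (-z) ≠ 0 := neg_ne_zero.mpr hz
  set u := (-z)⁻¹ with hu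
  have E3 : β (-x⁻¹) * β (-y⁻¹) = β (-r⁻¹) := by
    rw [powF_add hb]
    congr 1
    rw [hr, hzd]
    field_simp
    ring
  have E4 : α (-x) * α (-y) = β u * (nn z)⁻¹ * β u := by
    rw [powF_add ha, ← n_neg ha hb, ← E2 _ hneg]
    congr 1
    rw [hzd]
    ring
  have E5 : nn x * β u = α (-x * x * u) * nn x := by
    have := n_conj_b ha hb hbr hx u
    rw [← this]
    group
  have E6 : β u * nn y = nn y * α (-u * y * y) := by
    have := n_inv_conj_b ha hb hbr hy u
    rw [← this]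
    group
  have E7 : α (-x) * α (-x * x * u) = α (-r) := by
    rw [powF_add ha]
    congr 1
    rw [hr, hu, hzd]
    have hz' : x + y ≠ 0 := hz
    field_simp
    ring
  have E8 : α (-u * y * y) * α (-y) = α (-r) := by
    rw [powF_add ha]
    congr 1
    rw [hr, hu, hzd]
    have hz' : x + y ≠ 0 := hz
    field_simp
    ring
  have key : α (-r) * (nn x * (nn z)⁻¹ * nn y) * α (-r) = α (-r) * nn r * α (-r) := by
    rw [← E1 r, ← E3, E1 x, E1 y]
    calc α (-r) * (nn x * (nn z)⁻¹ * nn y) * α (-r)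
        = (α (-x) * α (-x * x * u)) * (nn x * (nn z)⁻¹ * nn y) * (α (-u * y * y) * α (-y)) := by
          rw [E7, E8]
      _ = α (-x) * (α (-x * x * u) * nn x) * (nn z)⁻¹ * (nn y * α (-u * y * y)) * α (-y) := by group
      _ = α (-x) * (nn x * β u) * (nn z)⁻¹ * (β u * nn y) * α (-y) := by rw [E5, E6]
      _ = α (-x) * nn x * (β u * (nn z)⁻¹ * β u) * nn y * α (-y) := by group
      _ = α (-x) * nn x * (α (-x) * α (-y)) * nn y * α (-y) := by rw [E4]
      _ = α (-x) * nn x * α (-x) * (α (-y) * nn y * α (-y)) := by group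
  exact mul_left_cancel (mul_right_cancel key)

include ha hb hbr in
lemma hh_conj_a {s : ZMod p} (hs : s ≠ 0) (t : ZMod p) : hh s * α t * (hh s)⁻¹ = α (s ^ 2 * t) := by
  have h1 : (1 : ZMod p) ≠ 0 := one_ne_zero
  have e1 := n_inv_conj_a ha hb hbr h1 t
  have e2 := n_conj_b ha hb hbr hs (-t * 1⁻¹ * 1⁻¹)
  have e3 : -s * s * (-t * 1⁻¹ * 1⁻¹) = s ^ 2 * t := by rw [inv_one]; ring
  rw [e3, ← e1] at e2
  rw [← e2]
  simp only [hE]
  group

include ha hb hbr in
lemma hh_conj_b {s : ZMod p} (hs : s ≠ 0) (t : ZMod p) : hh s * β t * (hh s)⁻¹ = β (t * s⁻¹ * s⁻¹) := by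
  have h1 : (1 : ZMod p) ≠ 0 := one_ne_zero
  have e1 := n_inv_conj_b ha hb hbr h1 t
  have e2 := n_conj_a ha hb hbr hs (-t * 1 * 1)
  have e3 : -(-t * 1 * 1) * s⁻¹ * s⁻¹ = t * s⁻¹ * s⁻¹ := by ring
  rw [e3, ← e1] at e2
  rw [← e2]
  simp only [hE]
  group

include ha hb hbr in
/-- The torus elements commute. -/
lemma hh_comm {s t : ZMod p} (hs : s ≠ 0) (ht : t ≠ 0) : hh s * hh t = hh t * hh s := by
  classical
  obtain ⟨g, hg⟩ : ∃ g : (ZMod p)ˣ, ∀ x, x ∈ Subgroup.zpowers g := IsCyclic.exists_generator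
  have hpw : ∀ x : (ZMod p)ˣ, ∃ i : ℕ, g ^ i = x := by
    intro x
    have : x ∈ Submonoid.powers g := by
      rw [mem_powers_iff_mem_zpowers]
      exact hg x
    obtain ⟨a, ha⟩ := this
    exact ⟨a, ha⟩
  set g0 : ZMod p := (g : ZMod p) with hg0
  have hg00 : g0 ≠ 0 := g.ne_zero
  set y := hh g0 with hy
  let W : Subgroup Γ := Subgroup.closure (Set.range α ∪ Set.range β)
  have hαW : ∀ u, α u ∈ W := fun u => Subgroup.subset_closure (Or.inl ⟨u, rfl⟩)
  have hβW : ∀ u, β u ∈ W := fun u => Subgroup.subset_closure (Or.inr ⟨u, rfl⟩)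
  have hnW : ∀ u, nn u ∈ W := fun u => W.mul_mem (W.mul_mem (hαW _) (hβW _)) (hαW _)
  have hhW : ∀ u, hh u ∈ W := fun u => W.mul_mem (hnW _) (W.inv_mem (hnW _))
  have hcent : ∀ z ∈ W, (∀ u, z * α u * z⁻¹ = α u) → (∀ u, z * β u * z⁻¹ = β u) →
      ∀ w ∈ W, Commute z w := by
    intro z _ h1 h2 w hw
    induction hw using Subgroup.closure_induction with
    | mem w hw =>
      rcases hw with ⟨u, rfl⟩ | ⟨u, rfl⟩
      · exact mul_inv_eq_iff_eq_mul.mp (h1 u)
      · exact mul_inv_eq_iff_eq_mul.mp (h2 u)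
    | one => exact Commute.one_right z
    | mul x y _ _ hx hy => exact hx.mul_right hy
    | inv x _ hx => exact hx.inv_right
  have hyα : ∀ (i : ℕ) (u : ZMod p), y ^ i * α u * (y ^ i)⁻¹ = α ((g0 ^ i) ^ 2 * u) := by
    intro i
    induction i with
    | zero => intro u; simp
    | succ i ih =>
      intro u
      have := hh_conj_a ha hb hbr hg00 u
      calc y ^ (i + 1) * α u * (y ^ (i + 1))⁻¹ = y ^ i * (y * α u * y⁻¹) * (y ^ i)⁻¹ := by
            rw [pow_succ]; group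
        _ = α ((g0 ^ (i + 1)) ^ 2 * u) := by
            rw [this, ih]
            congr 1
            ring
  have hyβ : ∀ (i : ℕ) (u : ZMod p), y ^ i * β u * (y ^ i)⁻¹ = β (u * (g0 ^ i)⁻¹ * (g0 ^ i)⁻¹) := by
    intro i
    induction i with
    | zero => intro u; simp
    | succ i ih =>
      intro u
      have := hh_conj_b ha hb hbr hg00 u
      calc y ^ (i + 1) * β u * (y ^ (i + 1))⁻¹ = y ^ i * (y * β u * y⁻¹) * (y ^ i)⁻¹ := by
            rw [pow_succ]; group
        _ = β (u * (g0 ^ (i + 1))⁻¹ * (g0 ^ (i + 1))⁻¹) := by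
            rw [this, ih]
            congr 1
            rw [pow_succ, mul_inv]
            ring
  -- the decomposition
  have hdec : ∀ s : ZMod p, s ≠ 0 → ∃ (i : ℕ) (z : Γ), hh s = y ^ i * z ∧ z ∈ W ∧ ∀ w ∈ W, Commute z w := by
    intro s hs
    obtain ⟨i, hi⟩ := hpw (Units.mk0 s hs)
    have hsi : g0 ^ i = s := by
      have := congrArg Units.val hi
      simpa using this
    refine ⟨i, (y ^ i)⁻¹ * hh s, by group, W.mul_mem (W.inv_mem (W.pow_mem (hhW _) _)) (hhW _), ?_⟩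
    apply hcent _ (W.mul_mem (W.inv_mem (W.pow_mem (hhW _) _)) (hhW _))
    · intro u
      have h1 := hh_conj_a ha hb hbr hs u
      have h2 := hyα i u
      rw [hsi, ← h1] at h2
      calc (y ^ i)⁻¹ * hh s * α u * ((y ^ i)⁻¹ * hh s)⁻¹ = (y ^ i)⁻¹ * (hh s * α u * (hh s)⁻¹) * y ^ i := by
            group
        _ = α u := by rw [← h2]; group
    · intro u
      have h1 := hh_conj_b ha hb hbr hs u
      have h2 := hyβ i u
      rw [hsi, ← h1] at h2
      calc (y ^ i)⁻¹ * hh s * β u * ((y ^ i)⁻¹ * hh s)⁻¹ = (y ^ i)⁻¹ * (hh s * β u * (hh s)⁻¹) * y ^ i := by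
            group
        _ = β u := by rw [← h2]; group
  obtain ⟨i, z, e1, hz, hzc⟩ := hdec s hs
  obtain ⟨j, z', e2, hz', hzc'⟩ := hdec t ht
  have hyW : ∀ k : ℕ, y ^ k ∈ W := fun k => W.pow_mem (hhW _) _
  have hc : Commute (y ^ i * z) (y ^ j * z') :=
    Commute.mul_left
      (Commute.mul_right (Commute.pow_pow_self y i j) (hzc' _ (hyW i)).symm)
      (Commute.mul_right (hzc _ (hyW j)) (hzc _ hz'))
  rw [e1, e2]
  exact hc

include ha hb hbr in
/-- The torus elements multiply. -/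
lemma hh_mul {s t : ZMod p} (hs : s ≠ 0) (ht : t ≠ 0) : hh s * hh t = hh (s * t) := by
  classical
  let k : Set Γ := Set.range (fun u : (ZMod p)ˣ => hh (u : ZMod p))
  have hcomm : ∀ x ∈ k, ∀ y ∈ k, x * y = y * x := by
    rintro _ ⟨u, rfl⟩ _ ⟨v, rfl⟩
    exact hh_comm ha hb hbr u.ne_zero v.ne_zero
  letI : CommGroup (Subgroup.closure k) := Subgroup.closureCommGroupOfComm hcomm
  let f : (ZMod p)ˣ → Subgroup.closure k := fun u => ⟨hh (u : ZMod p), Subgroup.subset_closure ⟨u, rfl⟩⟩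
  have hR : ∀ v x y : (ZMod p)ˣ, (x : ZMod p) + y = 1 → f (v * x) * f (v * y) = f v * f (v * x * y) := by
    intro v x y hxy
    apply Subtype.ext
    change hh ((v * x : (ZMod p)ˣ) : ZMod p) * hh ((v * y : (ZMod p)ˣ) : ZMod p) =
      hh (v : ZMod p) * hh ((v * x * y : (ZMod p)ˣ) : ZMod p)
    simp only [Units.val_mul]
    have hv : (v : ZMod p) ≠ 0 := v.ne_zero
    have hvx : (v : ZMod p) * x ≠ 0 := mul_ne_zero hv x.ne_zero
    have hvy : (v : ZMod p) * y ≠ 0 := mul_ne_zero hv y.ne_zero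
    have hsum : (v : ZMod p) * x + v * y = v := by rw [← mul_add, hxy, mul_one]
    have hr := rstar ha hb hbr hvx hvy (by rw [hsum]; exact hv)
    rw [hsum] at hr
    have e : (v : ZMod p) * x * (v * y) * (v : ZMod p)⁻¹ = v * x * y := by
      field_simp
    rw [e] at hr
    have hc := hh_comm ha hb hbr hv hvy
    have hr' : hh ((v : ZMod p) * x) * (hh (v : ZMod p))⁻¹ * hh ((v : ZMod p) * y) = hh ((v : ZMod p) * x * y) := by
      have : nn ((v : ZMod p) * x * y) * (nn 1)⁻¹ = hh ((v : ZMod p) * x * y) := rfl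
      rw [← this, ← hr]
      simp only [hE]
      group
    have hcv := hh_comm ha hb hbr hv (mul_ne_zero hvx y.ne_zero)
    calc hh ((v : ZMod p) * x) * hh ((v : ZMod p) * y)
        = hh ((v : ZMod p) * x) * (hh (v : ZMod p))⁻¹ * (hh (v : ZMod p) * hh ((v : ZMod p) * y)) := by group
      _ = hh ((v : ZMod p) * x) * (hh (v : ZMod p))⁻¹ * (hh ((v : ZMod p) * y) * hh (v : ZMod p)) := by rw [hc]
      _ = (hh ((v : ZMod p) * x) * (hh (v : ZMod p))⁻¹ * hh ((v : ZMod p) * y)) * hh (v : ZMod p) := by group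
      _ = hh ((v : ZMod p) * x * y) * hh (v : ZMod p) := by rw [hr']
      _ = hh (v : ZMod p) * hh ((v : ZMod p) * x * y) := hcv.symm
  have hm := PrimeTorus.mult_main f hR (Units.mk0 s hs) (Units.mk0 t ht)
  have hm' : hh (s * t) * hh ((1 : (ZMod p)ˣ) : ZMod p) = hh s * hh t := by
    have := congrArg Subtype.val hm
    simpa [f] using this
  have h1 : hh ((1 : (ZMod p)ˣ) : ZMod p) = 1 := by
    rw [Units.val_one]
    exact Rel.h_one
  rw [h1, mul_one] at hm'
  exact hm'.symm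

include ha hb hbr in
/-- The relations. -/
theorem rel : Rel (powF (p := p) a) (powF (p := p) b) where
  aa := powF_add ha
  bb := powF_add hb
  hm := fun _ _ hs ht => hh_mul ha hb hbr hs ht
  ha := by
    intro s t hs
    have := hh_conj_a ha hb hbr hs t
    exact mul_inv_eq_iff_eq_mul.mp this
  nh := by
    intro s hs
    have h1 : (1 : ZMod p) ≠ 0 := one_ne_zero
    have e1 := n_conj_a ha hb hbr h1 s
    have e2 := n_conj_b ha hb hbr h1 (-s⁻¹)
    have e3 := hbr s⁻¹ (inv_ne_zero hs)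
    simp only [inv_inv] at e3
    have e4 : nn s⁻¹ = powF b (-s) * powF a s⁻¹ * powF b (-s) := by
      have : nn s⁻¹ = powF a s⁻¹ * powF b (-s) * powF a s⁻¹ := by simp [nE]
      rw [this, e3]
    have e5 : -s * 1⁻¹ * 1⁻¹ = -s := by simp
    have e6 : -1 * 1 * -s⁻¹ = s⁻¹ := by simp
    rw [e5] at e1
    rw [e6] at e2
    have e7 : nn 1 * nn s * (nn 1)⁻¹ = nn s⁻¹ := by
      rw [e4, ← e1, ← e2]
      simp only [nE]
      group
    simp only [hE]
    rw [← e7]
    group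
  na := by
    intro u
    have h1 : (1 : ZMod p) ≠ 0 := one_ne_zero
    have e1 := n_conj_a ha hb hbr h1 u
    have e5 : -u * 1⁻¹ * 1⁻¹ = -u := by simp
    rw [e5] at e1
    exact mul_inv_eq_iff_eq_mul.mp e1

end Main

end Cfsg.Agent.Lib.Root.PrimeBraid
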