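import Mathlib

/-!
A function `F` on the units of a prime field with values in an abelian group, subject to
`F (v x) + F (v y) = F v + F (v x y)` whenever `x + y = 1`, is a translate of a homomorphism.
The proof works in the group ring of the cyclic group, written as a quotient of `ℤ[X]`.
-/

set_option autoImplicit false

namespace Cfsg.Agent.Lib.Root.PrimeTorus

open Polynomial

/-- `1 + X + ⋯ + X^(a-1)`. -/
noncomputable def geomN (a : ℕ) : ℤ[X] := ∑ i ∈ Finset.range a, X ^ i

lemma geomN_mul (a : ℕ) : geomN a * (X - 1) = X ^ a - 1 := by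
  simpa [geomN] using geom_sum_mul (X : ℤ[X]) a

lemma geomN_add (a b : ℕ) : geomN (a + b) = geomN a + X ^ a * geomN b := by
  simp only [geomN, Finset.sum_range_add, Finset.mul_sum, pow_add]

lemma geomN_one : geomN 1 = 1 := by simp [geomN]

lemma geomN_zero : geomN 0 = 0 := by simp [geomN]

section Ideal

variable (M : Ideal ℤ[X])

lemma geomN_add_mem {a b : ℕ} (ha : geomN a ∈ M) (hb : geomN b ∈ M) : geomN (a + b) ∈ M := by
  rw [geomN_add]
  exact M.add_mem ha (M.mul_mem_left _ hb)

lemma geomN_mul_mem {n : ℕ} (hn : geomN n ∈ M) (q : ℕ) : geomN (n * q) ∈ M := by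
  induction q with
  | zero => simp [geomN_zero]
  | succ q ih =>
    rw [Nat.mul_succ]
    exact geomN_add_mem M ih hn

lemma geomN_mod {n : ℕ} (hn : geomN n ∈ M) (a : ℕ) : geomN a ∈ M ↔ geomN (a % n) ∈ M := by
  have h : geomN a = geomN (a % n) + X ^ (a % n) * geomN (n * (a / n)) := by
    rw [← geomN_add, Nat.mod_add_div]
  have h2 : X ^ (a % n) * geomN (n * (a / n)) ∈ M := M.mul_mem_left _ (geomN_mul_mem M hn _)
  constructor
  · intro h3
    have : geomN (a % n) = geomN a - X ^ (a % n) * geomN (n * (a / n)) := by rw [h]; ring_nf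
    rw [this]
    exact M.sub_mem h3 h2
  · intro h3
    rw [h]
    exact M.add_mem h3 h2

end Ideal

variable {p : ℕ} [hp : Fact p.Prime]

/-- Counting: a proper "subgroup" of the units cannot contain one of `x, 1 - x` for all `x ≠ 0, 1`. -/
lemma no_cover (K : Set (ZMod p)ˣ) (h1 : (1 : (ZMod p)ˣ) ∈ K) (hmul : ∀ x ∈ K, ∀ y ∈ K, x * y ∈ K)
    (g : (ZMod p)ˣ) (hg : g ∉ K)
    (hcov : ∀ x y : (ZMod p)ˣ, (x : ZMod p) + y = 1 → x ∈ K ∨ y ∈ K) : False := by
  classical
  haveI : NeZero p := ⟨hp.out.ne_zero⟩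
  -- inverses
  have hpow : ∀ x ∈ K, ∀ c : ℕ, x ^ c ∈ K := by
    intro x hx c
    induction c with
    | zero => simpa using h1
    | succ c ih => rw [pow_succ]; exact hmul _ ih _ hx
  have hinv : ∀ x ∈ K, x⁻¹ ∈ K := by
    intro x hx
    have hc : 0 < Fintype.card (ZMod p)ˣ := Fintype.card_pos
    have e : x⁻¹ = x ^ (Fintype.card (ZMod p)ˣ - 1) := by
      rw [inv_eq_iff_mul_eq_one, ← pow_succ', Nat.sub_add_cancel hc, pow_card_eq_one]
    rw [e]
    exact hpow x hx _
  let KF : Finset (ZMod p)ˣ := Finset.univ.filter (· ∈ K)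
  have hKF : ∀ x, x ∈ KF ↔ x ∈ K := by intro x; simp [KF]
  -- `2 |K| ≤ p - 1`
  have hcard1 : 2 * KF.card ≤ p - 1 := by
    have hdisj : Disjoint KF (KF.image (· * g)) := by
      rw [Finset.disjoint_left]
      intro x hx hx2
      obtain ⟨k, hk, rfl⟩ := Finset.mem_image.mp hx2
      apply hg
      have := hmul _ (hinv _ ((hKF _).1 hk)) _ ((hKF _).1 hx)
      simpa using this
    have hinj : (KF.image (· * g)).card = KF.card :=
      Finset.card_image_of_injective _ (mul_left_injective g)
    have := Finset.card_le_univ (KF ∪ KF.image (· * g))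
    rw [Finset.card_union_of_disjoint hdisj, hinj, ZMod.card_units p] at this
    omega
  have hpos : 1 ≤ KF.card := Finset.card_pos.mpr ⟨1, (hKF _).2 h1⟩
  -- the cover
  let Kz : Finset (ZMod p) := (KF.erase 1).image (fun u : (ZMod p)ˣ => (u : ZMod p))
  have hKz : Kz.card = KF.card - 1 := by
    rw [Finset.card_image_of_injective _ Units.val_injective, Finset.card_erase_of_mem ((hKF _).2 h1)]
  let U : Finset (ZMod p) := (Finset.univ.erase 0).erase 1
  have hU : U.card = p - 2 := by
    rw [Finset.card_erase_of_mem (by simp), Finset.card_erase_of_mem (by simp), Finset.card_univ, ZMod.card]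
    omega
  have hsub : U ⊆ Kz ∪ Kz.image (fun z => 1 - z) := by
    intro z hz
    have hz1 : z ≠ 1 := (Finset.mem_erase.mp hz).1
    have hz0 : z ≠ 0 := (Finset.mem_erase.mp (Finset.mem_erase.mp hz).2).1
    have hz' : 1 - z ≠ 0 := sub_ne_zero.mpr (Ne.symm hz1)
    rcases hcov (Units.mk0 z hz0) (Units.mk0 (1 - z) hz') (by simp) with h | h
    · refine Finset.mem_union_left _ (Finset.mem_image.mpr ⟨Units.mk0 z hz0, ?_, by simp⟩)
      refine Finset.mem_erase.mpr ⟨?_, (hKF _).2 h⟩
      intro h2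
      exact hz1 (by simpa using congrArg Units.val h2)
    · refine Finset.mem_union_right _ (Finset.mem_image.mpr ⟨1 - z, ?_, by ring⟩)
      refine Finset.mem_image.mpr ⟨Units.mk0 (1 - z) hz', ?_, by simp⟩
      refine Finset.mem_erase.mpr ⟨?_, (hKF _).2 h⟩
      intro h2
      have : 1 - z = 1 := by simpa using congrArg Units.val h2
      apply hz0
      linear_combination -this
  have h3 := Finset.card_le_card hsub
  have h4 := Finset.card_union_le Kz (Kz.image (fun z => 1 - z))
  have h5 : (Kz.image (fun z => 1 - z)).card ≤ Kz.card := Finset.card_image_le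
  have hp2 := hp.out.two_le
  omega

variable {Y : Type*} [AddCommGroup Y]

/-- The main statement. -/
theorem additive_main (F : (ZMod p)ˣ → Y)
    (hR : ∀ v x y : (ZMod p)ˣ, (x : ZMod p) + y = 1 → F (v * x) + F (v * y) = F v + F (v * x * y)) :
    ∀ v s t : (ZMod p)ˣ, F (s * (t * v)) + F v = F (s * v) + F (t * v) := by
  classical
  obtain ⟨g, hg⟩ := IsCyclic.exists_generator (α := (ZMod p)ˣ)
  have hpw : ∀ x : (ZMod p)ˣ, ∃ a : ℕ, g ^ a = x := by
    intro x
    have : x ∈ Submonoid.powers g := by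
      rw [mem_powers_iff_mem_zpowers]
      exact hg x
    obtain ⟨a, ha⟩ := this
    exact ⟨a, ha⟩
  let T : Module.End ℤ ((ZMod p)ˣ → Y) :=
    { toFun := fun f v => f (g * v)
      map_add' := fun _ _ => rfl
      map_smul' := fun _ _ => rfl }
  have hT : ∀ (a : ℕ) (f : (ZMod p)ˣ → Y) (v : (ZMod p)ˣ), (T ^ a) f v = f (g ^ a * v) := by
    intro a
    induction a with
    | zero => intro f v; simp
    | succ a ih =>
      intro f v
      rw [pow_succ, Module.End.mul_apply, ih]
      change f (g * (g ^ a * v)) = _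
      rw [pow_succ', mul_assoc]
  let Q : ℤ[X] →ₐ[ℤ] Module.End ℤ ((ZMod p)ˣ → Y) := aeval T
  have hQ : ∀ (a b : ℕ) (v : (ZMod p)ˣ), (Q ((X ^ a - 1) * (X ^ b - 1)) F) v =
      F (g ^ a * (g ^ b * v)) - F (g ^ b * v) - F (g ^ a * v) + F v := by
    intro a b v
    have e : Q ((X ^ a - 1) * (X ^ b - 1)) = (T ^ a - 1) * (T ^ b - 1) := by
      simp [Q, map_mul, map_sub, map_pow, aeval_X]
    rw [e, Module.End.mul_apply]
    simp only [LinearMap.sub_apply, Pi.sub_apply, Module.End.one_apply, hT]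
    rw [mul_left_comm (g ^ b) (g ^ a) v]
    abel
  let I : Ideal ℤ[X] :=
    { carrier := {P | Q (P * (X - 1) ^ 2) F = 0}
      add_mem' := by
        intro P P' hP hP'
        simp only [Set.mem_setOf_eq] at hP hP' ⊢
        rw [add_mul, map_add, LinearMap.add_apply, hP, hP', add_zero]
      zero_mem' := by simp
      smul_mem' := by
        intro c P hP
        simp only [Set.mem_setOf_eq] at hP ⊢
        rw [smul_eq_mul, mul_assoc, map_mul, Module.End.mul_apply, hP, map_zero] }
  have hmemI : ∀ P, P ∈ I ↔ Q (P * (X - 1) ^ 2) F = 0 := fun P => Iff.rfl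
  have hNN : ∀ a b, geomN a * geomN b * (X - 1) ^ 2 = (X ^ a - 1) * (X ^ b - 1) := by
    intro a b
    rw [← geomN_mul, ← geomN_mul]
    ring
  have hItop : I = ⊤ := by
    by_contra hne
    obtain ⟨M, hM, hIM⟩ := Ideal.exists_le_maximal I hne
    have hprime : M.IsPrime := hM.isPrime
    set n := orderOf g with hn
    have hgn : g ^ n = 1 := pow_orderOf_eq_one g
    have hNn : geomN n ∈ M := by
      apply hIM
      rw [hmemI]
      have e : geomN n * (X - 1) ^ 2 = (X ^ n - 1) * (X ^ 1 - 1) := by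
        rw [← geomN_mul]
        ring
      rw [e]
      ext v
      rw [hQ, hgn]
      simp
    let K : Set (ZMod p)ˣ := {x | ∃ a, g ^ a = x ∧ geomN a ∈ M}
    refine no_cover K ⟨0, by simp, by simp [geomN_zero]⟩ ?_ g ?_ ?_
    · rintro _ ⟨a, rfl, ha⟩ _ ⟨b, rfl, hb⟩
      exact ⟨a + b, pow_add _ _ _, geomN_add_mem M ha hb⟩
    · rintro ⟨a, ha, haM⟩
      have h1 : g ^ a = g ^ 1 := by simpa using ha
      rw [pow_eq_pow_iff_modEq] at h1
      rw [geomN_mod M hNn, show a % n = 1 % n from h1, ← geomN_mod M hNn, geomN_one] at haM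
      exact hprime.ne_top ((Ideal.eq_top_iff_one M).mpr haM)
    · intro x y hxy
      obtain ⟨a, rfl⟩ := hpw x
      obtain ⟨b, rfl⟩ := hpw y
      have hmem : geomN a * geomN b ∈ M := by
        apply hIM
        rw [hmemI, hNN]
        ext v
        rw [hQ]
        have := hR v (g ^ a) (g ^ b) hxy
        simp only [Pi.zero_apply]
        have e1 : g ^ a * (g ^ b * v) = v * g ^ a * g ^ b := by
          rw [mul_comm v, mul_comm (g ^ a * v), mul_comm (g ^ a) v]
          simp only [mul_assoc, mul_comm, mul_left_comm]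
        have e2 : g ^ b * v = v * g ^ b := mul_comm _ _
        have e3 : g ^ a * v = v * g ^ a := mul_comm _ _
        rw [e1, e2, e3]
        have h' : F (v * g ^ a * g ^ b) = F (v * g ^ a) + F (v * g ^ b) - F v := by rw [this]; abel
        rw [h']
        abel
      rcases hprime.mem_or_mem hmem with h | h
      · exact Or.inl ⟨a, rfl, h⟩
      · exact Or.inr ⟨b, rfl, h⟩
  have h1 : (1 : ℤ[X]) ∈ I := by rw [hItop]; trivial
  have h2 : ∀ P, Q (P * (X - 1) ^ 2) F = 0 := by
    intro P
    have : P * 1 ∈ I := I.mul_mem_left P h1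
    rw [mul_one] at this
    exact this
  intro v s t
  obtain ⟨a, rfl⟩ := hpw s
  obtain ⟨b, rfl⟩ := hpw t
  have h3 := h2 (geomN a * geomN b)
  rw [hNN] at h3
  have h4 := congrFun h3 v
  rw [hQ] at h4
  simp only [Pi.zero_apply] at h4
  have h5 : F (g ^ a * (g ^ b * v)) + F v = F (g ^ a * v) + F (g ^ b * v) := by
    have := sub_eq_zero.mp (show F (g ^ a * (g ^ b * v)) + F v - (F (g ^ a * v) + F (g ^ b * v)) = 0 by
      rw [← h4]; abel)
    exact this
  exact h5

/-- Multiplicative form. -/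
theorem mult_main {Z : Type*} [CommGroup Z] (f : (ZMod p)ˣ → Z)
    (hR : ∀ v x y : (ZMod p)ˣ, (x : ZMod p) + y = 1 → f (v * x) * f (v * y) = f v * f (v * x * y))
    (s t : (ZMod p)ˣ) : f (s * t) * f 1 = f s * f t := by
  have := additive_main (Y := Additive Z) (fun u => Additive.ofMul (f u))
    (fun v x y h => by
      have := hR v x y h
      rw [← ofMul_mul, ← ofMul_mul, this]) 1 s t
  simp only [mul_one, ← ofMul_mul] at this
  exact Additive.ofMul.injective this

end Cfsg.Agent.Lib.Root.PrimeTorus
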