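import Mathlib
import Cfsg.Agent.Lib.Root.Sigma
import Cfsg.Agent.S5017

/-!
Rank one groups with a quadratic action of the unipotent subgroups, in a ring.
-/

set_option autoImplicit false

namespace Cfsg.Agent.Lib.Root

open Cfsg

section QuadRep

variable {X R : Type*} [Group X] [Ring R] (ρ : X →* R)

/-- `ρ x - 1`. -/
def qOf (x : X) : R := ρ x - 1

variable {ρ}

lemma rho_eq (x : X) : ρ x = 1 + qOf ρ x := by simp [qOf]

lemma qOf_one : qOf ρ (1 : X) = 0 := by simp [qOf]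

lemma qOf_mul (x y : X) : qOf ρ (x * y) = qOf ρ x + qOf ρ y + qOf ρ x * qOf ρ y := by
  simp only [qOf, map_mul]
  noncomm_ring

lemma qOf_mul' (x y : X) : qOf ρ (x * y) = qOf ρ x * ρ y + qOf ρ y := by
  simp only [qOf, map_mul]
  noncomm_ring

lemma qOf_inv_left (x : X) : qOf ρ x⁻¹ = - (ρ x⁻¹ * qOf ρ x) := by
  have h : ρ x⁻¹ * ρ x = 1 := by rw [← map_mul, inv_mul_cancel, map_one]
  simp only [qOf]
  rw [mul_sub, h]
  noncomm_ring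

lemma qOf_inv_right (x : X) : qOf ρ x⁻¹ = - (qOf ρ x * ρ x⁻¹) := by
  have h : ρ x * ρ x⁻¹ = 1 := by rw [← map_mul, mul_inv_cancel, map_one]
  simp only [qOf]
  rw [sub_mul, h]
  noncomm_ring

lemma qOf_conj (g t : X) : qOf ρ (g * t * g⁻¹) = ρ g * qOf ρ t * ρ g⁻¹ := by
  have h : ρ g * ρ g⁻¹ = 1 := by rw [← map_mul, mul_inv_cancel, map_one]
  simp only [qOf, map_mul]
  rw [mul_sub, sub_mul, mul_one, h]

variable (ρ)

/-- The kernel of the action on `[N, X]`. -/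
def kerOn : Subgroup X where
  carrier := {z | ∀ x, qOf ρ z * qOf ρ x = 0}
  one_mem' := by
    intro x
    rw [qOf_one, zero_mul]
  mul_mem' := by
    intro z z' hz hz' x
    rw [qOf_mul', add_mul, hz' x, add_zero, rho_eq z', mul_assoc, add_mul, one_mul, hz' x, add_zero,
      hz x]
  inv_mem' := by
    intro z hz x
    rw [qOf_inv_right, neg_mul]
    have h1 : qOf ρ z * ρ z⁻¹ * qOf ρ x = qOf ρ z * (ρ z⁻¹ * qOf ρ x) := by noncomm_ring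
    have h2 : ρ z⁻¹ * qOf ρ x = qOf ρ (z⁻¹ * x) - qOf ρ z⁻¹ := by
      simp only [qOf, map_mul]
      noncomm_ring
    rw [h1, h2, mul_sub, hz, hz, sub_zero, neg_zero]

variable {ρ}

lemma mem_kerOn {z : X} : z ∈ kerOn ρ ↔ ∀ x, qOf ρ z * qOf ρ x = 0 := Iff.rfl

lemma kerOn_normal : (kerOn ρ).Normal := by
  constructor
  intro z hz g x
  rw [qOf_conj]
  have h1 : ρ g * qOf ρ z * ρ g⁻¹ * qOf ρ x = ρ g * (qOf ρ z * (ρ g⁻¹ * qOf ρ x)) := by noncomm_ring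
  have h2 : ρ g⁻¹ * qOf ρ x = qOf ρ (g⁻¹ * x) - qOf ρ g⁻¹ := by
    simp only [qOf, map_mul]
    noncomm_ring
  rw [h1, h2, mul_sub, hz, hz, sub_zero, mul_zero]

variable {A B : Subgroup X}

/-- The conjugates of `A` act quadratically. -/
lemma quad_conj (hq : ∀ a ∈ A, ∀ a' ∈ A, qOf ρ a' * qOf ρ a = 0) (g : X) :
    ∀ t ∈ conjBy A g, ∀ t' ∈ conjBy A g, qOf ρ t' * qOf ρ t = 0 := by
  intro t ht t' ht'
  have h1 := mem_conjBy.mp ht
  have h2 := mem_conjBy.mp ht'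
  have e1 : t = g * (g⁻¹ * t * g) * g⁻¹ := by group
  have e2 : t' = g * (g⁻¹ * t' * g) * g⁻¹ := by group
  rw [e1, e2, qOf_conj, qOf_conj]
  have h3 : ρ g⁻¹ * ρ g = 1 := by rw [← map_mul, inv_mul_cancel, map_one]
  have e3 : ρ g * qOf ρ (g⁻¹ * t' * g) * ρ g⁻¹ * (ρ g * qOf ρ (g⁻¹ * t * g) * ρ g⁻¹) =
      ρ g * (qOf ρ (g⁻¹ * t' * g) * (ρ g⁻¹ * ρ g) * qOf ρ (g⁻¹ * t * g)) * ρ g⁻¹ := by noncomm_ring
  rw [e3, h3, mul_one, hq _ h1 _ h2, mul_zero, zero_mul]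

/-- `B` acts quadratically. -/
lemma quad_right (hp : IsRankOnePair A B) (hq : ∀ a ∈ A, ∀ a' ∈ A, qOf ρ a' * qOf ρ a = 0) :
    ∀ c ∈ B, ∀ c' ∈ B, qOf ρ c' * qOf ρ c = 0 := by
  obtain ⟨y, -, hy⟩ := hp.right_mem_unipotent
  intro c hc c' hc'
  rw [hy] at hc hc'
  exact quad_conj hq y c hc c' hc'

lemma rho_inv_eq {a : X} (h : qOf ρ a * qOf ρ a = 0) : ρ a⁻¹ = 1 - qOf ρ a := by
  have h4 : ρ a⁻¹ * (1 + qOf ρ a) = 1 := by
    rw [← rho_eq, ← map_mul, inv_mul_cancel, map_one]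
  have h6 : (1 + qOf ρ a) * (1 - qOf ρ a) = 1 := by
    have : (1 + qOf ρ a) * (1 - qOf ρ a) = 1 - qOf ρ a * qOf ρ a := by noncomm_ring
    rw [this, h, sub_zero]
  calc ρ a⁻¹ = ρ a⁻¹ * ((1 + qOf ρ a) * (1 - qOf ρ a)) := by rw [h6, mul_one]
    _ = (ρ a⁻¹ * (1 + qOf ρ a)) * (1 - qOf ρ a) := by noncomm_ring
    _ = 1 - qOf ρ a := by rw [h4, one_mul]

lemma qOf_pow {a : X} (h : qOf ρ a * qOf ρ a = 0) (n : ℕ) : qOf ρ (a ^ n) = n • qOf ρ a := by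
  induction n with
  | zero => simp [qOf_one]
  | succ n ih =>
    rw [pow_succ, qOf_mul, ih, succ_nsmul]
    have : n • qOf ρ a * qOf ρ a = n • (qOf ρ a * qOf ρ a) := by noncomm_ring
    rw [this, h, nsmul_zero, add_zero]

section Pair

variable {a b : X} (hp : IsRankOnePair A B) (hq : ∀ a ∈ A, ∀ a' ∈ A, qOf ρ a' * qOf ρ a = 0)
  (ha : a ∈ A) (hb : b ∈ B) (hrel : conjBy A b⁻¹ = conjBy B a⁻¹)

include hp hq ha hb hrel

lemma rel_C {a₁ c : X} (ha₁ : a₁ ∈ A) (hc : c ∈ B) :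
    qOf ρ a₁ * qOf ρ c = qOf ρ a₁ * qOf ρ b * qOf ρ a * qOf ρ c := by
  have hu : b⁻¹ * a₁ * b⁻¹⁻¹ ∈ conjBy A b⁻¹ := conj_mem_conjBy ha₁
  have hv : a⁻¹ * c * a⁻¹⁻¹ ∈ conjBy A b⁻¹ := by
    rw [hrel]
    exact conj_mem_conjBy hc
  have h0 := quad_conj hq b⁻¹ _ hv _ hu
  rw [qOf_conj, qOf_conj] at h0
  have h1 : ρ b * (ρ b⁻¹ * qOf ρ a₁ * ρ b⁻¹⁻¹ * (ρ a⁻¹ * qOf ρ c * ρ a⁻¹⁻¹)) * ρ a⁻¹ =
      (ρ b * ρ b⁻¹) * qOf ρ a₁ * ρ b⁻¹⁻¹ * ρ a⁻¹ * qOf ρ c * (ρ a⁻¹⁻¹ * ρ a⁻¹) := by noncomm_ring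
  have h2 : ρ b * ρ b⁻¹ = 1 := by rw [← map_mul, mul_inv_cancel, map_one]
  have h3 : ρ a⁻¹⁻¹ * ρ a⁻¹ = 1 := by rw [← map_mul, inv_mul_cancel, map_one]
  rw [h0, mul_zero, zero_mul, h2, h3, one_mul, mul_one, inv_inv] at h1
  rw [rho_inv_eq (hq a ha a ha), rho_eq b] at h1
  have h7 := hq a ha a₁ ha₁
  have h8 := quad_right hp hq c hc b hb
  have e2 : qOf ρ a₁ * (1 + qOf ρ b) * (1 - qOf ρ a) * qOf ρ c =
      qOf ρ a₁ * qOf ρ c - (qOf ρ a₁ * qOf ρ a) * qOf ρ c + qOf ρ a₁ * (qOf ρ b * qOf ρ c)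
        - qOf ρ a₁ * qOf ρ b * qOf ρ a * qOf ρ c := by noncomm_ring
  rw [e2, h7, h8, zero_mul, mul_zero, sub_zero, add_zero] at h1
  exact (sub_eq_zero.mp h1.symm)

lemma rel_D {a₁ c : X} (ha₁ : a₁ ∈ A) (hc : c ∈ B) :
    qOf ρ c * qOf ρ a₁ = qOf ρ c * qOf ρ a * qOf ρ b * qOf ρ a₁ := by
  have hu : b⁻¹ * a₁ * b⁻¹⁻¹ ∈ conjBy A b⁻¹ := conj_mem_conjBy ha₁
  have hv : a⁻¹ * c * a⁻¹⁻¹ ∈ conjBy A b⁻¹ := by
    rw [hrel]
    exact conj_mem_conjBy hc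
  have h0 := quad_conj hq b⁻¹ _ hu _ hv
  rw [qOf_conj, qOf_conj] at h0
  have h1 : ρ a * (ρ a⁻¹ * qOf ρ c * ρ a⁻¹⁻¹ * (ρ b⁻¹ * qOf ρ a₁ * ρ b⁻¹⁻¹)) * ρ b⁻¹ =
      (ρ a * ρ a⁻¹) * qOf ρ c * ρ a⁻¹⁻¹ * ρ b⁻¹ * qOf ρ a₁ * (ρ b⁻¹⁻¹ * ρ b⁻¹) := by noncomm_ring
  have h2 : ρ a * ρ a⁻¹ = 1 := by rw [← map_mul, mul_inv_cancel, map_one]
  have h3 : ρ b⁻¹⁻¹ * ρ b⁻¹ = 1 := by rw [← map_mul, inv_mul_cancel, map_one]
  rw [h0, mul_zero, zero_mul, h2, h3, one_mul, mul_one, inv_inv] at h1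
  rw [rho_inv_eq (quad_right hp hq b hb b hb), rho_eq a] at h1
  have h7 := hq a₁ ha₁ a ha
  have h8 := quad_right hp hq b hb c hc
  have e2 : qOf ρ c * (1 + qOf ρ a) * (1 - qOf ρ b) * qOf ρ a₁ =
      qOf ρ c * qOf ρ a₁ + qOf ρ c * (qOf ρ a * qOf ρ a₁) - (qOf ρ c * qOf ρ b) * qOf ρ a₁
        - qOf ρ c * qOf ρ a * qOf ρ b * qOf ρ a₁ := by noncomm_ring
  rw [e2, h7, h8, zero_mul, mul_zero, sub_zero, add_zero] at h1
  exact (sub_eq_zero.mp h1.symm)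

end Pair

/-- A left factor killing `q z` for `z` in a generating set kills all `q z`. -/
lemma kill_all {g : R} (hgen : A ⊔ B = ⊤) (hA : ∀ z ∈ A, g * qOf ρ z = 0)
    (hB : ∀ z ∈ B, g * qOf ρ z = 0) (z : X) : g * qOf ρ z = 0 := by
  let Z : Subgroup X :=
    { carrier := {z | g * qOf ρ z = 0}
      one_mem' := by
        change g * qOf ρ 1 = 0
        rw [qOf_one, mul_zero]
      mul_mem' := by
        intro x y hx hy
        change g * qOf ρ (x * y) = 0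
        rw [qOf_mul', mul_add, hy, add_zero, ← mul_assoc]
        rw [show g * qOf ρ x = 0 from hx, zero_mul]
      inv_mem' := by
        intro x hx
        change g * qOf ρ x⁻¹ = 0
        rw [qOf_inv_right, mul_neg, ← mul_assoc]
        rw [show g * qOf ρ x = 0 from hx, zero_mul, neg_zero] }
  have hle : A ⊔ B ≤ Z := sup_le hA hB
  rw [hgen] at hle
  exact hle (Subgroup.mem_top z)

section Main

variable {a b : X} (hgen : A ⊔ B = ⊤) (hp : IsRankOnePair A B)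
  (hq : ∀ a ∈ A, ∀ a' ∈ A, qOf ρ a' * qOf ρ a = 0)

include hgen hp hq

lemma left_kill (ha : a ∈ A) (hb : b ∈ B) (hrel : conjBy A b⁻¹ = conjBy B a⁻¹) (z : X) :
    (qOf ρ a - qOf ρ a * qOf ρ b * qOf ρ a) * qOf ρ z = 0 := by
  apply kill_all hgen
  · intro z hz
    rw [sub_mul, hq z hz a ha, mul_assoc, hq z hz a ha, mul_zero, sub_zero]
  · intro z hz
    rw [sub_mul, rel_C hp hq ha hb hrel ha hz]
    noncomm_ring

lemma right_kill (ha : a ∈ A) (hb : b ∈ B) (hrel : conjBy A b⁻¹ = conjBy B a⁻¹) (z : X) :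
    (qOf ρ b - qOf ρ b * qOf ρ a * qOf ρ b) * qOf ρ z = 0 := by
  apply kill_all hgen
  · intro z hz
    rw [sub_mul, rel_D hp hq ha hb hrel hz hb]
    noncomm_ring
  · intro z hz
    have h8 := quad_right hp hq z hz b hb
    rw [sub_mul, h8, mul_assoc, h8, mul_zero, sub_zero]

/-- Either the action on `[N, X]` has central kernel, or `X` acts quadratically. -/
lemma kerOn_central (hX : ∃ x y : X, qOf ρ y * qOf ρ x ≠ 0) :
    kerOn ρ ≤ Subgroup.center X := by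
  rcases Cfsg.Agent.S5017.normal_dichotomy ⟨hgen, hp⟩ (kerOn ρ) kerOn_normal with h | h
  · exfalso
    obtain ⟨x, y, hxy⟩ := hX
    have hA : A ≤ kerOn ρ := by
      intro a₀ ha₀ z
      by_cases h1 : a₀ = 1
      · rw [h1, qOf_one, zero_mul]
      obtain ⟨b₀, hb₀, -, hrel₀⟩ := hp.cond_left a₀ ha₀ h1
      have hb₀' : b₀ ∈ kerOn ρ ⊔ A := by rw [h]; trivial
      haveI : (kerOn ρ).Normal := kerOn_normal
      have hb₀'' : b₀ ∈ ((kerOn ρ ⊔ A : Subgroup X) : Set X) := hb₀'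
      rw [Subgroup.normal_mul] at hb₀''
      obtain ⟨k, hk, a₁, ha₁, rfl⟩ := Set.mem_mul.mp hb₀''
      have h0 : qOf ρ (k * a₁) * qOf ρ a₀ = 0 := by
        rw [qOf_mul, add_mul, add_mul, hq a₀ ha₀ a₁ ha₁, mem_kerOn.mp hk, mul_assoc,
          hq a₀ ha₀ a₁ ha₁, mul_zero, add_zero, add_zero]
      have h2 := left_kill hgen hp hq ha₀ hb₀ hrel₀ z
      rw [mul_assoc (qOf ρ a₀), h0, mul_zero, sub_zero] at h2
      exact h2
    have htop : kerOn ρ = ⊤ := by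
      rw [← h]
      exact (sup_eq_left.mpr hA).symm
    exact hxy ((mem_kerOn.mp (htop ▸ Subgroup.mem_top y)) x)
  · exact h

theorem special_of_quadRep (hX : ∃ x y : X, qOf ρ y * qOf ρ x ≠ 0) : IsSpecialRankOnePair A B := by
  refine ⟨hp, ?_⟩
  intro a ha ha1 b hb hb1 hrel
  have hc := kerOn_central (ρ := ρ) hgen hp hq hX
  have hxx := hq a ha a ha
  have hyy := quad_right hp hq b hb b hb
  set u := b⁻¹ * a * b with hu
  set v := a⁻¹ * b⁻¹ * a with hv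
  have hdiff : ρ u - ρ v = (qOf ρ a - qOf ρ a * qOf ρ b * qOf ρ a) +
      (qOf ρ b - qOf ρ b * qOf ρ a * qOf ρ b) := by
    rw [hu, hv, map_mul, map_mul, map_mul, map_mul, rho_inv_eq hxx, rho_inv_eq hyy, rho_eq a, rho_eq b]
    have e1 : (1 - qOf ρ b) * (1 + qOf ρ a) * (1 + qOf ρ b) -
        (1 - qOf ρ a) * (1 - qOf ρ b) * (1 + qOf ρ a) =
        (qOf ρ a - qOf ρ a * qOf ρ b * qOf ρ a) + (qOf ρ b - qOf ρ b * qOf ρ a * qOf ρ b)
          - qOf ρ b * qOf ρ b + qOf ρ a * qOf ρ a := by noncomm_ring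
    rw [e1, hxx, hyy, sub_zero, add_zero]
  have ht : v⁻¹ * u ∈ kerOn ρ := by
    intro z
    have e : qOf ρ (v⁻¹ * u) = ρ v⁻¹ * (ρ u - ρ v) := by
      have h1 : ρ v⁻¹ * ρ v = 1 := by rw [← map_mul, inv_mul_cancel, map_one]
      simp only [qOf, map_mul]
      rw [mul_sub, h1]
    rw [e, hdiff, mul_assoc, add_mul, left_kill hgen hp hq ha hb hrel, right_kill hgen hp hq ha hb hrel,
      add_zero, mul_zero]
  have hcen := hc ht
  rw [Subgroup.mem_center_iff] at hcen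
  have hT : v⁻¹ * u ∈ conjBy A b⁻¹ := by
    have h1 : u ∈ conjBy A b⁻¹ := by
      have := conj_mem_conjBy (g := b⁻¹) ha
      simpa [hu] using this
    have h2 : v ∈ conjBy A b⁻¹ := by
      rw [hrel]
      have := conj_mem_conjBy (g := a⁻¹) hb
      simpa [hv, mul_assoc] using this
    exact Subgroup.mul_mem _ (Subgroup.inv_mem _ h2) h1
  have hA' : v⁻¹ * u ∈ A := by
    have h1 := mem_conjBy.mp hT
    have h2 := hcen b
    have e : b⁻¹⁻¹ * (v⁻¹ * u) * b⁻¹ = v⁻¹ * u := by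
      rw [inv_inv, h2]
      group
    rwa [e] at h1
  have h1 : v⁻¹ * u = 1 := hp.eq_one_of_mem_normalizer hA'
    (mem_normalizer_of_commute (fun x _ => (hcen x).symm))
  exact (inv_mul_eq_one.mp h1).symm

end Main

end QuadRep

end Cfsg.Agent.Lib.Root
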