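import Mathlib
import Cfsg.Prelude.Def_RootSubgroups

/-!
Quadratic pairs: `E(σ) = E_σ ∪ {1}`.
-/

set_option autoImplicit false

namespace Cfsg.Agent.Lib.Root

open Cfsg

section Ring

variable {R : Type*} [Ring R]

lemma unit_mul_sub_one (u v : Rˣ) (h : ((u : R) - 1) * ((v : R) - 1) = 0) :
    ((u * v : Rˣ) : R) - 1 = ((u : R) - 1) + ((v : R) - 1) := by
  have : ((u : R) - 1) * ((v : R) - 1) = (u : R) * v - u - v + 1 := by noncomm_ring
  rw [this] at h
  rw [Units.val_mul]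
  have h2 : (u : R) * v = (u : R) * v - u - v + 1 + u + v - 1 := by noncomm_ring
  rw [h2, h]
  noncomm_ring

lemma unit_inv_sub_one (u : Rˣ) (h : ((u : R) - 1) * ((u : R) - 1) = 0) :
    ((u⁻¹ : Rˣ) : R) - 1 = -((u : R) - 1) := by
  have h1 : ((u⁻¹ : Rˣ) : R) * ((u : R) * ((u : R) - 1)) = ((u⁻¹ : Rˣ) : R) * ((u : R) - 1) := by
    have h3 : (u : R) * ((u : R) - 1) = (u : R) - 1 := by
      have : (u : R) * ((u : R) - 1) = ((u : R) - 1) * ((u : R) - 1) + ((u : R) - 1) := by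
        noncomm_ring
      rw [this, h, zero_add]
    rw [h3]
  rw [← mul_assoc, Units.inv_mul, one_mul, mul_sub, Units.inv_mul, mul_one] at h1
  have h4 : ((u⁻¹ : Rˣ) : R) = 1 - ((u : R) - 1) := by
    rw [h1]
    noncomm_ring
  rw [h4]
  noncomm_ring

/-- The unit `1 + T` for `T² = 0`. -/
def sqZeroUnit (T : R) (h : T * T = 0) : Rˣ where
  val := 1 + T
  inv := 1 - T
  val_inv := by
    have : (1 + T) * (1 - T) = 1 - T * T := by noncomm_ring
    rw [this, h, sub_zero]
  inv_val := by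
    have : (1 - T) * (1 + T) = 1 - T * T := by noncomm_ring
    rw [this, h, sub_zero]

@[simp] lemma sqZeroUnit_val (T : R) (h : T * T = 0) : ((sqZeroUnit T h : Rˣ) : R) = 1 + T := rfl

end Ring

variable {k : Type*} [Field k] {M : Type*} [AddCommGroup M] [Module k M]

/-- `τ - 1`. -/
abbrev tOf (τ : LinearMap.GeneralLinearGroup k M) : M →ₗ[k] M := (τ : M →ₗ[k] M) - 1

lemma mem_scalarFamily {σ τ : LinearMap.GeneralLinearGroup k M} :
    τ ∈ scalarFamily σ ↔ ∃ c : k, (τ : M →ₗ[k] M) = 1 + c • tOf σ := Iff.rfl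

section Main

set_option linter.unusedSectionVars false

variable [FiniteDimensional k M] {G : Subgroup (LinearMap.GeneralLinearGroup k M)}
  {σ : LinearMap.GeneralLinearGroup k M}

lemma tOf_comp_eq_zero (hσ : σ ∈ minimalQuadraticElements G)
    {τ τ' : LinearMap.GeneralLinearGroup k M} (hτ : τ ∈ sameActionClass G σ)
    (hτ' : τ' ∈ sameActionClass G σ) : tOf τ * tOf τ' = 0 := by
  have hsq : tOf σ * tOf σ = 0 := hσ.1.2.1.1
  refine LinearMap.ext fun m => ?_
  have h1 : tOf τ' m ∈ LinearMap.range (tOf σ) := by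
    rw [← hτ'.2.2]
    exact ⟨m, rfl⟩
  obtain ⟨n, hn⟩ := h1
  have h2 : tOf τ' m ∈ LinearMap.ker (tOf τ) := by
    rw [hτ.2.1, ← hn, LinearMap.mem_ker]
    exact congrArg (fun f : M →ₗ[k] M => f n) hsq
  exact h2

/-- Products stay in the class, unless trivial. -/
lemma mul_mem_class (hσ : σ ∈ minimalQuadraticElements G)
    {τ τ' : LinearMap.GeneralLinearGroup k M} (hτ : τ ∈ sameActionClass G σ)
    (hτ' : τ' ∈ sameActionClass G σ) (hne : tOf τ + tOf τ' ≠ 0) :
    τ * τ' ∈ sameActionClass G σ := by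
  have h00 := tOf_comp_eq_zero hσ hτ hτ
  have h01 := tOf_comp_eq_zero hσ hτ hτ'
  have h10 := tOf_comp_eq_zero hσ hτ' hτ
  have h11 := tOf_comp_eq_zero hσ hτ' hτ'
  have hT : tOf (τ * τ') = tOf τ + tOf τ' := unit_mul_sub_one τ τ' h01
  have hGmem : τ * τ' ∈ G := G.mul_mem hτ.1.1.1 hτ'.1.1.1
  have hsq : tOf (τ * τ') * tOf (τ * τ') = 0 := by
    rw [hT, mul_add, add_mul, add_mul, h00, h01, h10, h11]
    simp
  have hfam : scalarFamily (τ * τ') ⊆ (G : Set (LinearMap.GeneralLinearGroup k M)) := by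
    rintro ρ ⟨c, hρ⟩
    have hc0 : (c • tOf τ) * (c • tOf τ) = 0 := by
      rw [smul_mul_smul_comm, h00, smul_zero]
    have hc1 : (c • tOf τ') * (c • tOf τ') = 0 := by
      rw [smul_mul_smul_comm, h11, smul_zero]
    have hc2 : (c • tOf τ) * (c • tOf τ') = 0 := by
      rw [smul_mul_smul_comm, h01, smul_zero]
    let u₁ := sqZeroUnit (c • tOf τ) hc0
    let u₂ := sqZeroUnit (c • tOf τ') hc1
    have hu₁ : u₁ ∈ G := hτ.1.1.2.2 ⟨c, rfl⟩
    have hu₂ : u₂ ∈ G := hτ'.1.1.2.2 ⟨c, rfl⟩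
    have he : ρ = u₁ * u₂ := by
      apply Units.ext
      rw [Units.val_mul]
      change (ρ : M →ₗ[k] M) = (1 + c • tOf τ) * (1 + c • tOf τ')
      have hρ' : (ρ : M →ₗ[k] M) = 1 + c • tOf (τ * τ') := hρ
      rw [hρ', hT, mul_add, add_mul, add_mul, hc2, smul_add]
      simp only [one_mul, mul_one, add_zero]
      abel
    rw [he]
    exact G.mul_mem hu₁ hu₂
  have hquad : τ * τ' ∈ quadraticElements G :=
    ⟨hGmem, ⟨hsq, by change tOf (τ * τ') ≠ 0; rw [hT]; exact hne⟩, hfam⟩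
  have hrange : LinearMap.range (tOf (τ * τ')) ≤ LinearMap.range (tOf σ) := by
    rintro _ ⟨m, rfl⟩
    rw [hT]
    refine Submodule.add_mem _ ?_ ?_
    · rw [← hτ.2.2]; exact ⟨m, rfl⟩
    · rw [← hτ'.2.2]; exact ⟨m, rfl⟩
  have hmin : commutatorRank σ ≤ commutatorRank (τ * τ') := hσ.2 _ hquad
  have hrangeeq : LinearMap.range (tOf (τ * τ')) = LinearMap.range (tOf σ) :=
    Submodule.eq_of_le_of_finrank_le hrange hmin
  have hker : LinearMap.ker (tOf σ) ≤ LinearMap.ker (tOf (τ * τ')) := by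
    intro m hm
    rw [LinearMap.mem_ker, hT, LinearMap.add_apply]
    have h1 : m ∈ LinearMap.ker (tOf τ) := by rw [hτ.2.1]; exact hm
    have h2 : m ∈ LinearMap.ker (tOf τ') := by rw [hτ'.2.1]; exact hm
    rw [LinearMap.mem_ker.mp h1, LinearMap.mem_ker.mp h2, add_zero]
  have hkereq : LinearMap.ker (tOf (τ * τ')) = LinearMap.ker (tOf σ) := by
    symm
    apply Submodule.eq_of_le_of_finrank_le hker
    have e1 := LinearMap.finrank_range_add_finrank_ker (tOf σ)
    have e2 := LinearMap.finrank_range_add_finrank_ker (tOf (τ * τ'))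
    rw [hrangeeq] at e2
    omega
  refine ⟨⟨hquad, fun ρ hρ => ?_⟩, hkereq, hrangeeq⟩
  have h3 : commutatorRank (τ * τ') = commutatorRank σ := by
    unfold commutatorRank
    rw [show ((τ * τ' : LinearMap.GeneralLinearGroup k M) : M →ₗ[k] M) - 1 = tOf (τ * τ') from rfl,
      hrangeeq]
  rw [h3]
  exact hσ.2 ρ hρ

/-- Inverses stay in the class. -/
lemma inv_mem_class (hσ : σ ∈ minimalQuadraticElements G)
    {τ : LinearMap.GeneralLinearGroup k M} (hτ : τ ∈ sameActionClass G σ) :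
    τ⁻¹ ∈ sameActionClass G σ := by
  have h00 := tOf_comp_eq_zero hσ hτ hτ
  have hT : tOf τ⁻¹ = - tOf τ := unit_inv_sub_one τ h00
  have hquad : τ⁻¹ ∈ quadraticElements G := by
    refine ⟨G.inv_mem hτ.1.1.1, ⟨?_, ?_⟩, ?_⟩
    · change tOf τ⁻¹ * tOf τ⁻¹ = 0
      rw [hT, neg_mul_neg, h00]
    · change tOf τ⁻¹ ≠ 0
      rw [hT]
      exact neg_ne_zero.mpr hτ.1.1.2.1.2
    · rintro ρ ⟨c, hρ⟩
      apply hτ.1.1.2.2
      refine ⟨-c, ?_⟩
      rw [hρ]
      change 1 + c • tOf τ⁻¹ = _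
      rw [hT]
      simp [smul_neg, sub_eq_add_neg, add_comm]
  have hrange : LinearMap.range (tOf τ⁻¹) = LinearMap.range (tOf τ) := by
    rw [hT, LinearMap.range_neg]
  have hker : LinearMap.ker (tOf τ⁻¹) = LinearMap.ker (tOf τ) := by
    rw [hT, LinearMap.ker_neg]
  refine ⟨⟨hquad, fun ρ hρ => ?_⟩, hker.trans hτ.2.1, hrange.trans hτ.2.2⟩
  have h3 : commutatorRank τ⁻¹ = commutatorRank τ := by
    unfold commutatorRank
    rw [show ((τ⁻¹ : LinearMap.GeneralLinearGroup k M) : M →ₗ[k] M) - 1 = tOf τ⁻¹ from rfl, hrange]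
  rw [h3]
  exact hτ.1.2 ρ hρ

/-- The subgroup `E_σ ∪ {1}`. -/
def classSubgroup (hσ : σ ∈ minimalQuadraticElements G) :
    Subgroup (LinearMap.GeneralLinearGroup k M) where
  carrier := sameActionClass G σ ∪ {1}
  one_mem' := Or.inr rfl
  mul_mem' := by
    rintro a b (ha | ha) (hb | hb)
    · by_cases h0 : tOf a + tOf b = 0
      · right
        apply Units.ext
        have h1 := unit_mul_sub_one a b (tOf_comp_eq_zero hσ ha hb)
        have h2 : tOf (a * b) = 0 := h1.trans h0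
        exact sub_eq_zero.mp h2
      · exact Or.inl (mul_mem_class hσ ha hb h0)
    · rw [hb, mul_one]; exact Or.inl ha
    · rw [ha, one_mul]; exact Or.inl hb
    · rw [ha, hb, one_mul]; exact Or.inr rfl
  inv_mem' := by
    rintro a (ha | ha)
    · exact Or.inl (inv_mem_class hσ ha)
    · rw [ha, inv_one]; exact Or.inr rfl

lemma sameActionSubgroup_eq (hσ : σ ∈ minimalQuadraticElements G) :
    sameActionSubgroup G σ = classSubgroup hσ := by
  apply le_antisymm
  · rw [sameActionSubgroup, Subgroup.closure_le]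
    exact fun x hx => Or.inl hx
  · rintro x (hx | hx)
    · exact Subgroup.subset_closure hx
    · rw [hx]; exact Subgroup.one_mem _

lemma class_commute (hσ : σ ∈ minimalQuadraticElements G)
    {a b : LinearMap.GeneralLinearGroup k M} (ha : a ∈ sameActionClass G σ)
    (hb : b ∈ sameActionClass G σ) : a * b = b * a := by
  apply Units.ext
  have h1 := unit_mul_sub_one a b (tOf_comp_eq_zero hσ ha hb)
  have h2 := unit_mul_sub_one b a (tOf_comp_eq_zero hσ hb ha)
  have h3 : ((a * b : LinearMap.GeneralLinearGroup k M) : M →ₗ[k] M) - 1 =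
      ((b * a : LinearMap.GeneralLinearGroup k M) : M →ₗ[k] M) - 1 := by
    rw [h1, h2, add_comm]
  exact sub_left_injective h3

lemma class_pow (hσ : σ ∈ minimalQuadraticElements G) {a : LinearMap.GeneralLinearGroup k M}
    (ha : a ∈ sameActionClass G σ) (n : ℕ) :
    ((a ^ n : LinearMap.GeneralLinearGroup k M) : M →ₗ[k] M) = 1 + (n : k) • tOf a := by
  have h0 := tOf_comp_eq_zero hσ ha ha
  induction n with
  | zero => simp
  | succ n ih =>
    rw [pow_succ, Units.val_mul, ih]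
    have h1 : (a : M →ₗ[k] M) = 1 + tOf a := by
      change (a : M →ₗ[k] M) = 1 + ((a : M →ₗ[k] M) - 1)
      abel
    conv_lhs => rw [h1]
    simp only [mul_add, add_mul, one_mul, mul_one, smul_mul_assoc, h0, smul_zero, add_zero]
    push_cast
    rw [add_smul, one_smul]
    abel

end Main

end Cfsg.Agent.Lib.Root
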