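import Mathlib
import Cfsg.Agent.Lib.Root.Lines

/-!
Abstract root subgroups: `A, B, C` with `[A,B], [B,C]` in the set and `[A,C] = 1`.
-/

set_option autoImplicit false

namespace Cfsg.Agent.Lib.Root

open Cfsg

variable {G : Type*} [Group G] {S : Set (Subgroup G)}

lemma comm_of_sup {H₁ H₂ : Subgroup G} {y : G} (h₁ : ∀ x ∈ H₁, x * y = y * x)
    (h₂ : ∀ x ∈ H₂, x * y = y * x) : ∀ x ∈ H₁ ⊔ H₂, x * y = y * x := by
  have hle : H₁ ⊔ H₂ ≤ Subgroup.centralizer ({y} : Set G) := by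
    apply sup_le
    · intro x hx
      rw [Subgroup.mem_centralizer_singleton_iff]
      exact (h₁ x hx)
    · intro x hx
      rw [Subgroup.mem_centralizer_singleton_iff]
      exact (h₂ x hx)
  intro x hx
  have := hle hx
  rw [Subgroup.mem_centralizer_singleton_iff] at this
  exact this

lemma comm_of_sup_sup {H₁ H₂ K₁ K₂ : Subgroup G} (h₁₁ : ∀ x ∈ H₁, ∀ y ∈ K₁, x * y = y * x)
    (h₁₂ : ∀ x ∈ H₁, ∀ y ∈ K₂, x * y = y * x) (h₂₁ : ∀ x ∈ H₂, ∀ y ∈ K₁, x * y = y * x)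
    (h₂₂ : ∀ x ∈ H₂, ∀ y ∈ K₂, x * y = y * x) : ∀ x ∈ H₁ ⊔ H₂, ∀ y ∈ K₁ ⊔ K₂, x * y = y * x := by
  intro x hx y hy
  have h1 : ∀ u ∈ H₁, ∀ v ∈ K₁ ⊔ K₂, u * v = v * u := fun u hu v hv =>
    (comm_of_sup (fun z hz => (h₁₁ u hu z hz).symm) (fun z hz => (h₁₂ u hu z hz).symm) v hv).symm
  have h2 : ∀ u ∈ H₂, ∀ v ∈ K₁ ⊔ K₂, u * v = v * u := fun u hu v hv =>
    (comm_of_sup (fun z hz => (h₂₁ u hu z hz).symm) (fun z hz => (h₂₂ u hu z hz).symm) v hv).symm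
  exact comm_of_sup (fun z hz => h1 z hz y hy) (fun z hz => h2 z hz y hy) x hx

lemma commutator_eq_bot_of_comm {H K : Subgroup G} (h : ∀ x ∈ H, ∀ y ∈ K, x * y = y * x) :
    ⁅H, K⁆ = ⊥ := by
  rw [eq_bot_iff, Subgroup.commutator_le]
  intro x hx y hy
  rw [Subgroup.mem_bot, commutatorElement_eq_one_iff_mul_comm]
  exact h x hx y hy

/-! ### Relative commutators -/

section Rel

variable {N : Subgroup G}

lemma normalizer_conj_mem {r x : G} (hr : r ∈ Subgroup.normalizer (N : Set G)) (hx : x ∈ N) :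
    r * x * r⁻¹ ∈ N := (Subgroup.mem_normalizer_iff.mp hr x).mp hx

/-- The elements `r` normalizing `N` with `[x, r] ∈ N`. -/
def rSet (N : Subgroup G) (x : G) : Subgroup G where
  carrier := {r | r ∈ Subgroup.normalizer (N : Set G) ∧ x * r * x⁻¹ * r⁻¹ ∈ N}
  one_mem' := ⟨Subgroup.one_mem _, by simp [N.one_mem]⟩
  mul_mem' := by
    rintro r r' ⟨hr, hq⟩ ⟨hr', hq'⟩
    refine ⟨Subgroup.mul_mem _ hr hr', ?_⟩
    have e : x * (r * r') * x⁻¹ * (r * r')⁻¹ =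
        (x * r * x⁻¹ * r⁻¹) * (r * (x * r' * x⁻¹ * r'⁻¹) * r⁻¹) := by group
    rw [e]
    exact N.mul_mem hq (normalizer_conj_mem hr hq')
  inv_mem' := by
    rintro r ⟨hr, hq⟩
    refine ⟨Subgroup.inv_mem _ hr, ?_⟩
    have e : x * r⁻¹ * x⁻¹ * r⁻¹⁻¹ = r⁻¹ * (x * r * x⁻¹ * r⁻¹)⁻¹ * r⁻¹⁻¹ := by group
    rw [e]
    exact normalizer_conj_mem (Subgroup.inv_mem _ hr) (N.inv_mem hq)

/-- The elements `x` normalizing `N` with `[x, r] ∈ N`. -/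
def lSet (N : Subgroup G) (r : G) : Subgroup G where
  carrier := {x | x ∈ Subgroup.normalizer (N : Set G) ∧ x * r * x⁻¹ * r⁻¹ ∈ N}
  one_mem' := ⟨Subgroup.one_mem _, by simp [N.one_mem]⟩
  mul_mem' := by
    rintro x x' ⟨hx, hq⟩ ⟨hx', hq'⟩
    refine ⟨Subgroup.mul_mem _ hx hx', ?_⟩
    have e : (x * x') * r * (x * x')⁻¹ * r⁻¹ =
        (x * (x' * r * x'⁻¹ * r⁻¹) * x⁻¹) * (x * r * x⁻¹ * r⁻¹) := by group
    rw [e]
    exact N.mul_mem (normalizer_conj_mem hx hq') hq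
  inv_mem' := by
    rintro x ⟨hx, hq⟩
    refine ⟨Subgroup.inv_mem _ hx, ?_⟩
    have e : x⁻¹ * r * x⁻¹⁻¹ * r⁻¹ = x⁻¹ * (x * r * x⁻¹ * r⁻¹)⁻¹ * x⁻¹⁻¹ := by group
    rw [e]
    exact normalizer_conj_mem (Subgroup.inv_mem _ hx) (N.inv_mem hq)

lemma rel_sup_right {K₁ K₂ : Subgroup G} {x : G} (h₁ : K₁ ≤ Subgroup.normalizer (N : Set G))
    (h₂ : K₂ ≤ Subgroup.normalizer (N : Set G)) (q₁ : ∀ r ∈ K₁, x * r * x⁻¹ * r⁻¹ ∈ N)
    (q₂ : ∀ r ∈ K₂, x * r * x⁻¹ * r⁻¹ ∈ N) : ∀ r ∈ K₁ ⊔ K₂, x * r * x⁻¹ * r⁻¹ ∈ N := by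
  have hle : K₁ ⊔ K₂ ≤ rSet N x :=
    sup_le (fun r hr => ⟨h₁ hr, q₁ r hr⟩) (fun r hr => ⟨h₂ hr, q₂ r hr⟩)
  exact fun r hr => (hle hr).2

lemma rel_sup_left {H₁ H₂ : Subgroup G} {r : G} (h₁ : H₁ ≤ Subgroup.normalizer (N : Set G))
    (h₂ : H₂ ≤ Subgroup.normalizer (N : Set G)) (q₁ : ∀ x ∈ H₁, x * r * x⁻¹ * r⁻¹ ∈ N)
    (q₂ : ∀ x ∈ H₂, x * r * x⁻¹ * r⁻¹ ∈ N) : ∀ x ∈ H₁ ⊔ H₂, x * r * x⁻¹ * r⁻¹ ∈ N := by
  have hle : H₁ ⊔ H₂ ≤ lSet N r :=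
    sup_le (fun x hx => ⟨h₁ hx, q₁ x hx⟩) (fun x hx => ⟨h₂ hx, q₂ x hx⟩)
  exact fun x hx => (hle hx).2

/-- If `[H, R] ≤ N ≤ H`, then `R` normalizes `N` is not implied, so we get normalization of `H`. -/
lemma normalizer_of_rel {R H N' : Subgroup G} (hle : N' ≤ H)
    (hq : ∀ x ∈ H, ∀ r ∈ R, x * r * x⁻¹ * r⁻¹ ∈ N') : R ≤ Subgroup.normalizer (H : Set G) := by
  intro r hr
  have hmem : ∀ r ∈ R, ∀ x ∈ H, r * x * r⁻¹ ∈ H := by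
    intro r hr x hx
    have h1 := hle (hq x⁻¹ (H.inv_mem hx) r hr)
    have e2 : r * x * r⁻¹ = x * (x⁻¹ * r * x⁻¹⁻¹ * r⁻¹) := by group
    rw [e2]
    exact H.mul_mem hx h1
  rw [Subgroup.mem_normalizer_iff]
  intro x
  constructor
  · exact hmem r hr x
  · intro hx
    have := hmem r⁻¹ (R.inv_mem hr) _ hx
    have e : r⁻¹ * (r * x * r⁻¹) * r⁻¹⁻¹ = x := by group
    rwa [e] at this

end Rel

/-- Descending central series. -/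
lemma nilpotent_of_chain {R H₁ H₂ H₃ H₄ : Subgroup G}
    (h₀ : ∀ x ∈ R, ∀ r ∈ R, x * r * x⁻¹ * r⁻¹ ∈ H₁)
    (h₁ : ∀ x ∈ H₁, ∀ r ∈ R, x * r * x⁻¹ * r⁻¹ ∈ H₂)
    (h₂ : ∀ x ∈ H₂, ∀ r ∈ R, x * r * x⁻¹ * r⁻¹ ∈ H₃)
    (h₃ : ∀ x ∈ H₃, ∀ r ∈ R, x * r * x⁻¹ * r⁻¹ ∈ H₄)
    (h₄ : ∀ x ∈ H₄, ∀ r ∈ R, x * r * x⁻¹ * r⁻¹ = 1) : Group.IsNilpotent ↥R := by
  let H : ℕ → Subgroup ↥R := fun k =>
    match k with
    | 0 => ⊤
    | 1 => H₁.subgroupOf R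
    | 2 => H₂.subgroupOf R
    | 3 => H₃.subgroupOf R
    | 4 => H₄.subgroupOf R
    | _ => ⊥
  rw [Subgroup.nilpotent_iff_finite_descending_central_series]
  refine ⟨5, H, ⟨rfl, ?_⟩, rfl⟩
  intro x n hx g
  rw [commutatorElement_def]
  rcases n with _ | _ | _ | _ | _ | n
  · exact Subgroup.mem_subgroupOf.mpr (h₀ x x.2 g g.2)
  · have hx' : (x : G) ∈ H₁ := Subgroup.mem_subgroupOf.mp hx
    exact Subgroup.mem_subgroupOf.mpr (h₁ x hx' g g.2)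
  · have hx' : (x : G) ∈ H₂ := Subgroup.mem_subgroupOf.mp hx
    exact Subgroup.mem_subgroupOf.mpr (h₂ x hx' g g.2)
  · have hx' : (x : G) ∈ H₃ := Subgroup.mem_subgroupOf.mp hx
    exact Subgroup.mem_subgroupOf.mpr (h₃ x hx' g g.2)
  · have hx' : (x : G) ∈ H₄ := Subgroup.mem_subgroupOf.mp hx
    have h5 := h₄ x hx' g g.2
    have : x * g * x⁻¹ * g⁻¹ = 1 := Subtype.ext h5
    rw [this]
    exact Subgroup.one_mem _
  · have hx' : x = 1 := hx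
    rw [hx']
    simp only [one_mul, mul_inv_cancel, inv_one, mul_one]
    exact Subgroup.one_mem _

/-- Class two criterion. -/
lemma commutator_sup_of_central {H K W : Subgroup G} (hH : ∀ x ∈ H, ∀ y ∈ H, x * y = y * x)
    (hK : ∀ x ∈ K, ∀ y ∈ K, x * y = y * x) (hW : ⁅H, K⁆ ≤ W)
    (hWc : ∀ w ∈ W, ∀ x ∈ H ⊔ K, w * x = x * w) :
    ∀ x ∈ H ⊔ K, ∀ y ∈ H ⊔ K, x * y * x⁻¹ * y⁻¹ ∈ W := by
  set X := H ⊔ K with hX
  -- `X` normalizes `W`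
  have hXW : X ≤ Subgroup.normalizer (W : Set G) := fun x hx =>
    mem_normalizer_of_commute (fun w hw => (hWc w hw x hx).symm)
  have hHX : H ≤ Subgroup.normalizer (W : Set G) := le_trans le_sup_left hXW
  have hKX : K ≤ Subgroup.normalizer (W : Set G) := le_trans le_sup_right hXW
  have h1 : ∀ h ∈ H, ∀ y ∈ X, h * y * h⁻¹ * y⁻¹ ∈ W := by
    intro h hh
    apply rel_sup_right hHX hKX
    · intro y hy
      rw [hH h hh y hy]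
      simp [W.one_mem]
    · intro y hy
      exact hW (cm_mem hh hy)
  have h2 : ∀ k ∈ K, ∀ y ∈ X, k * y * k⁻¹ * y⁻¹ ∈ W := by
    intro k hk
    apply rel_sup_right hHX hKX
    · intro y hy
      have := hW (cm_mem hy hk)
      have e : k * y * k⁻¹ * y⁻¹ = (y * k * y⁻¹ * k⁻¹)⁻¹ := by group
      rw [e]
      exact W.inv_mem this
    · intro y hy
      rw [hK k hk y hy]
      simp [W.one_mem]
  intro x hx y hy
  exact rel_sup_left hHX hKX (fun h hh => h1 h hh y hy) (fun k hk => h2 k hk y hy) x hx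

section Triple

variable {A B C : Subgroup G}

lemma not_rankOne_A_E (hS : IsRootSubgroupSet S) (hA : A ∈ S) (hC : C ∈ S)
    (hc₂ : RootCommutatorCase S B C) (hAC : ⁅A, C⁆ = ⊥) : ¬ IsRankOnePair A ⁅B, C⁆ := by
  intro hp
  obtain ⟨c, hc, hc1⟩ := (Subgroup.bot_or_exists_ne_one _).resolve_left (hS.ne_bot _ hC)
  obtain ⟨e, he, he1⟩ := hp.exists_ne_one_right
  have he' : e ∈ ⁅C, B⁆ := by rw [Subgroup.commutator_comm]; exact he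
  obtain ⟨b₁, hb₁, hrel⟩ := hc₂.symm.surj_right (C.inv_mem hc) (inv_ne_one.mpr hc1) he'
  have hz : c ∈ Subgroup.centralizer ((⁅B, C⁆ ⊔ A : Subgroup G) : Set G) := by
    rw [Subgroup.mem_centralizer_iff]
    intro x hx
    exact comm_of_sup (fun y hy => hc₂.comm_right hy hc)
      (fun y hy => line_comm hAC hy hc) x hx
  apply not_mem_rootElements hS hA hp.symm hz hc1 e he he1
  have e1 : c * e = b₁ * c * b₁⁻¹ := by rw [← hrel]; group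
  rw [e1]
  refine ⟨?_, conjBy C b₁, hS.conj_mem C hC b₁, conj_mem_conjBy hc⟩
  intro h
  apply hc1
  have : c = b₁⁻¹ * (b₁ * c * b₁⁻¹) * b₁ := by group
  rw [this, h]
  group

lemma not_rankOne_D_C (hS : IsRootSubgroupSet S) (hA : A ∈ S) (hC : C ∈ S)
    (hc₁ : RootCommutatorCase S A B) (hAC : ⁅A, C⁆ = ⊥) : ¬ IsRankOnePair ⁅A, B⁆ C := by
  intro hp
  obtain ⟨a, ha, ha1⟩ := (Subgroup.bot_or_exists_ne_one _).resolve_left (hS.ne_bot _ hA)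
  obtain ⟨d, hd, hd1⟩ := hp.exists_ne_one_left
  obtain ⟨b₁, hb₁, hrel⟩ := hc₁.surj_right (A.inv_mem ha) (inv_ne_one.mpr ha1) hd
  have hz : a ∈ Subgroup.centralizer ((⁅A, B⁆ ⊔ C : Subgroup G) : Set G) := by
    rw [Subgroup.mem_centralizer_iff]
    intro x hx
    exact comm_of_sup (fun y hy => hc₁.comm_left hy ha)
      (fun y hy => (line_comm hAC ha hy).symm) x hx
  apply not_mem_rootElements hS hC hp hz ha1 d hd hd1
  have e1 : a * d = b₁ * a * b₁⁻¹ := by rw [← hrel]; group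
  rw [e1]
  refine ⟨?_, conjBy A b₁, hS.conj_mem A hA b₁, conj_mem_conjBy ha⟩
  intro h
  apply ha1
  have : a = b₁⁻¹ * (b₁ * a * b₁⁻¹) * b₁ := by group
  rw [this, h]
  group

/-- All the data of the triple. -/
structure TripleData (S : Set (Subgroup G)) (A B C : Subgroup G) : Prop where
  hS : IsRootSubgroupSet S
  hA : A ∈ S
  hB : B ∈ S
  hC : C ∈ S
  hc₁ : RootCommutatorCase S A B
  hc₂ : RootCommutatorCase S B C
  hAC : ⁅A, C⁆ = ⊥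

namespace TripleData

variable (T : TripleData S A B C)
include T

lemma caseAE : ⁅A, ⁅B, C⁆⁆ = ⊥ ∨ RootCommutatorCase S A ⁅B, C⁆ := by
  rcases T.hS.pair A T.hA _ T.hc₂.1 with h | h | h
  · exact Or.inl h
  · exact absurd h (not_rankOne_A_E T.hS T.hA T.hC T.hc₂ T.hAC)
  · exact Or.inr h

lemma caseDC : ⁅⁅A, B⁆, C⁆ = ⊥ ∨ RootCommutatorCase S ⁅A, B⁆ C := by
  rcases T.hS.pair _ T.hc₁.1 C T.hC with h | h | h
  · exact Or.inl h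
  · exact absurd h (not_rankOne_D_C T.hS T.hA T.hC T.hc₁ T.hAC)
  · exact Or.inr h

lemma ac_comm {a c : G} (ha : a ∈ A) (hc : c ∈ C) : a * c = c * a := line_comm T.hAC ha hc

lemma w1_central {w x : G} (hw : w ∈ ⁅A, ⁅B, C⁆⁆) (hx : x ∈ A ⊔ ⁅B, C⁆) : w * x = x * w :=
  central_of_cases T.caseAE hw hx

lemma w2_central {w x : G} (hw : w ∈ ⁅⁅A, B⁆, C⁆) (hx : x ∈ ⁅A, B⁆ ⊔ C) : w * x = x * w :=
  central_of_cases T.caseDC hw hx

/-- `C` centralizes `W₁`. -/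
lemma c_comm_w1 {w c : G} (hw : w ∈ ⁅A, ⁅B, C⁆⁆) (hc : c ∈ C) : w * c = c * w :=
  comm_of_sup (fun y hy => T.ac_comm hy hc) (fun y hy => T.hc₂.comm_right hy hc) w
    (commutator_le_sup _ _ hw)

/-- `A` centralizes `W₂`. -/
lemma a_comm_w2 {w a : G} (hw : w ∈ ⁅⁅A, B⁆, C⁆) (ha : a ∈ A) : w * a = a * w :=
  comm_of_sup (fun y hy => T.hc₁.comm_left hy ha) (fun y hy => (T.ac_comm ha hy).symm) w
    (commutator_le_sup _ _ hw)

lemma formula₁ {a c b₁ : G} (ha : a ∈ A) (hc : c ∈ C) (hb₁ : b₁ ∈ B) :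
    a * (b₁ * c * b₁⁻¹) * a⁻¹ * (b₁ * c * b₁⁻¹)⁻¹ =
      a * (c⁻¹ * b₁ * c * b₁⁻¹) * a⁻¹ * (c⁻¹ * b₁ * c * b₁⁻¹)⁻¹ := by
  have hE : c⁻¹ * b₁ * c * b₁⁻¹ ∈ ⁅B, C⁆ := by
    have := cm_mem (C.inv_mem hc) hb₁
    rw [Subgroup.commutator_comm] at this
    simpa using this
  set e := c⁻¹ * b₁ * c * b₁⁻¹ with he
  have e0 : b₁ * c * b₁⁻¹ = c * e := by rw [he]; group
  rw [e0]
  have hw := cm_mem ha hE
  have h1 := T.c_comm_w1 hw hc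
  have h2 := T.ac_comm ha hc
  calc a * (c * e) * a⁻¹ * (c * e)⁻¹ = (a * c) * e * a⁻¹ * e⁻¹ * c⁻¹ := by group
    _ = (c * a) * e * a⁻¹ * e⁻¹ * c⁻¹ := by rw [h2]
    _ = c * (a * e * a⁻¹ * e⁻¹) * c⁻¹ := by group
    _ = (a * e * a⁻¹ * e⁻¹) * c * c⁻¹ := by rw [← h1]
    _ = a * e * a⁻¹ * e⁻¹ := by group

lemma formula₂ {a c b₁ : G} (ha : a ∈ A) (hc : c ∈ C) (hb₁ : b₁ ∈ B) :
    (b₁⁻¹ * a * b₁) * c * (b₁⁻¹ * a * b₁)⁻¹ * c⁻¹ =
      (a⁻¹ * b₁⁻¹ * a * b₁) * c * (a⁻¹ * b₁⁻¹ * a * b₁)⁻¹ * c⁻¹ := by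
  have hD : a⁻¹ * b₁⁻¹ * a * b₁ ∈ ⁅A, B⁆ := by
    have := cm_mem (A.inv_mem ha) (B.inv_mem hb₁)
    simpa using this
  set d := a⁻¹ * b₁⁻¹ * a * b₁ with hd
  have e0 : b₁⁻¹ * a * b₁ = a * d := by rw [hd]; group
  rw [e0]
  have hw := cm_mem hD hc
  have h1 := T.a_comm_w2 hw ha
  have h2 := T.ac_comm ha hc
  have h3 : c * a⁻¹ = a⁻¹ * c := (T.ac_comm (A.inv_mem ha) hc).symm
  calc (a * d) * c * (a * d)⁻¹ * c⁻¹ = a * (d * c * d⁻¹ * c⁻¹) * (c * a⁻¹) * c⁻¹ := by group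
    _ = a * (d * c * d⁻¹ * c⁻¹) * (a⁻¹ * c) * c⁻¹ := by rw [h3]
    _ = a * (d * c * d⁻¹ * c⁻¹) * a⁻¹ := by group
    _ = (d * c * d⁻¹ * c⁻¹) * a * a⁻¹ := by rw [← h1]
    _ = d * c * d⁻¹ * c⁻¹ := by group

lemma commutator_X {b₁ : G} (hb₁ : b₁ ∈ B) (hb₁1 : b₁ ≠ 1) :
    ⁅A, conjBy C b₁⁆ = ⁅A, ⁅B, C⁆⁆ := by
  apply le_antisymm
  · rw [Subgroup.commutator_le]
    intro a ha x hx
    have hc := mem_conjBy.mp hx
    have e : x = b₁ * (b₁⁻¹ * x * b₁) * b₁⁻¹ := by group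
    rw [commutatorElement_def, e, T.formula₁ ha hc hb₁]
    apply cm_mem ha
    have := cm_mem (C.inv_mem hc) hb₁
    rw [Subgroup.commutator_comm] at this
    simpa using this
  · rw [Subgroup.commutator_le]
    intro a ha e he
    have he' : e ∈ ⁅C, B⁆ := by rw [Subgroup.commutator_comm]; exact he
    obtain ⟨c', hc', hrel⟩ := T.hc₂.symm.surj_left hb₁ hb₁1 he'
    have hc : c'⁻¹ ∈ C := C.inv_mem hc'
    have h1 := T.formula₁ ha hc hb₁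
    have e2 : (c'⁻¹)⁻¹ * b₁ * c'⁻¹ * b₁⁻¹ = e := by rw [← hrel]; group
    rw [e2] at h1
    rw [commutatorElement_def, ← h1]
    exact cm_mem ha (conj_mem_conjBy hc)

lemma commutator_Y {b₁ : G} (hb₁ : b₁ ∈ B) (hb₁1 : b₁ ≠ 1) :
    ⁅conjBy A b₁⁻¹, C⁆ = ⁅⁅A, B⁆, C⁆ := by
  apply le_antisymm
  · rw [Subgroup.commutator_le]
    intro x hx c hc
    have ha := mem_conjBy.mp hx
    rw [inv_inv] at ha
    have e : x = b₁⁻¹ * (b₁ * x * b₁⁻¹) * b₁ := by group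
    rw [commutatorElement_def, e, T.formula₂ ha hc hb₁]
    apply cm_mem _ hc
    have := cm_mem (A.inv_mem ha) (B.inv_mem hb₁)
    simpa using this
  · rw [Subgroup.commutator_le]
    intro d hd c hc
    obtain ⟨a', ha', hrel⟩ := T.hc₁.surj_left (B.inv_mem hb₁) (inv_ne_one.mpr hb₁1) hd
    have ha : a'⁻¹ ∈ A := A.inv_mem ha'
    have h1 := T.formula₂ ha hc hb₁
    have e2 : (a'⁻¹)⁻¹ * b₁⁻¹ * a'⁻¹ * b₁ = d := by rw [← hrel]; group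
    rw [e2] at h1
    rw [commutatorElement_def, ← h1]
    have h2 : b₁⁻¹ * a'⁻¹ * b₁⁻¹⁻¹ ∈ conjBy A b₁⁻¹ := conj_mem_conjBy ha
    rw [inv_inv] at h2
    exact cm_mem h2 hc

lemma conj_w1 {b₁ : G} (hb₁ : b₁ ∈ B) (hb₁1 : b₁ ≠ 1) :
    conjBy ⁅A, ⁅B, C⁆⁆ b₁⁻¹ = ⁅⁅A, B⁆, C⁆ := by
  rw [← T.commutator_X hb₁ hb₁1, ← T.commutator_Y hb₁ hb₁1]
  have : conjBy ⁅A, conjBy C b₁⁆ b₁⁻¹ = ⁅conjBy A b₁⁻¹, conjBy (conjBy C b₁) b₁⁻¹⁆ :=
    Subgroup.map_commutator _ _ _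
  rw [this, conjBy_inv_conjBy]

lemma X_Y_comm {b : G} (hb : b ∈ B) : ∀ x ∈ A ⊔ conjBy C b⁻¹, ∀ y ∈ conjBy A b⁻¹ ⊔ C, x * y = y * x := by
  apply comm_of_sup_sup
  · intro x hx y hy
    exact sup_commutator_comm T.hS T.hA T.hc₁ ((le_sup_left : A ≤ A ⊔ ⁅A, B⁆) hx)
      (conjBy_le_sup_commutator (B.inv_mem hb) hy)
  · intro x hx y hy
    exact T.ac_comm hx hy
  · intro x hx y hy
    have h1 := mem_conjBy.mp hx
    have h2 := mem_conjBy.mp hy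
    have h3 := T.ac_comm h2 h1
    set g := b⁻¹
    have e1 : x * y = g * ((g⁻¹ * x * g) * (g⁻¹ * y * g)) * g⁻¹ := by group
    have e2 : y * x = g * ((g⁻¹ * y * g) * (g⁻¹ * x * g)) * g⁻¹ := by group
    rw [e1, e2, h3]
  · intro x hx y hy
    exact sup_commutator_comm T.hS T.hC T.hc₂.symm (conjBy_le_sup_commutator (B.inv_mem hb) hx)
      ((le_sup_left : C ≤ C ⊔ ⁅C, B⁆) hy)

lemma D_le {b : G} (hb : b ∈ B) (hb1 : b ≠ 1) :
    ⁅A, B⁆ ≤ (A ⊔ conjBy C b⁻¹) ⊔ (conjBy A b⁻¹ ⊔ C) := by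
  intro d hd
  obtain ⟨a', ha', hrel⟩ := T.hc₁.surj_left (B.inv_mem hb) (inv_ne_one.mpr hb1) hd
  have e : d = a' * (b⁻¹ * a'⁻¹ * b⁻¹⁻¹) := by rw [← hrel]; group
  rw [e]
  refine Subgroup.mul_mem _ (?_) (?_)
  · exact (le_sup_left : A ⊔ conjBy C b⁻¹ ≤ _) ((le_sup_left : A ≤ _) ha')
  · exact (le_sup_right : conjBy A b⁻¹ ⊔ C ≤ _) ((le_sup_left : conjBy A b⁻¹ ≤ _)
      (conj_mem_conjBy (A.inv_mem ha')))

lemma E_le {b : G} (hb : b ∈ B) (hb1 : b ≠ 1) :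
    ⁅B, C⁆ ≤ (A ⊔ conjBy C b⁻¹) ⊔ (conjBy A b⁻¹ ⊔ C) := by
  intro e he
  have he' : e ∈ ⁅C, B⁆ := by rw [Subgroup.commutator_comm]; exact he
  obtain ⟨c', hc', hrel⟩ := T.hc₂.symm.surj_left (B.inv_mem hb) (inv_ne_one.mpr hb1) he'
  have e2 : e = c' * (b⁻¹ * c'⁻¹ * b⁻¹⁻¹) := by rw [← hrel]; group
  rw [e2]
  refine Subgroup.mul_mem _ (?_) (?_)
  · exact (le_sup_right : conjBy A b⁻¹ ⊔ C ≤ _) ((le_sup_right : C ≤ _) hc')
  · exact (le_sup_left : A ⊔ conjBy C b⁻¹ ≤ _) ((le_sup_right : conjBy C b⁻¹ ≤ _)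
      (conj_mem_conjBy (C.inv_mem hc')))

/-- The product `XY`. -/
lemma P_eq {b : G} (hb : b ∈ B) (hb1 : b ≠ 1) :
    (A ⊔ conjBy C b⁻¹) ⊔ (conjBy A b⁻¹ ⊔ C) = (A ⊔ C) ⊔ (⁅A, B⁆ ⊔ ⁅B, C⁆) := by
  apply le_antisymm
  · apply sup_le
    · apply sup_le
      · exact le_trans le_sup_left le_sup_left
      · have h1 := conjBy_le_sup_commutator (A := C) (B := B) (B.inv_mem hb)
        rw [Subgroup.commutator_comm] at h1
        refine le_trans h1 (sup_le (le_trans le_sup_right le_sup_left) ?_)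
        exact le_trans le_sup_right le_sup_right
    · apply sup_le
      · have h1 := conjBy_le_sup_commutator (A := A) (B := B) (B.inv_mem hb)
        refine le_trans h1 (sup_le (le_trans le_sup_left le_sup_left) ?_)
        exact le_trans le_sup_left le_sup_right
      · exact le_trans le_sup_right le_sup_left
  · apply sup_le
    · apply sup_le
      · exact le_trans le_sup_left le_sup_left
      · exact le_trans le_sup_right le_sup_right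
    · exact sup_le (T.D_le hb hb1) (T.E_le hb hb1)

lemma B_normalizes_P : B ≤ Subgroup.normalizer (((A ⊔ C) ⊔ (⁅A, B⁆ ⊔ ⁅B, C⁆) : Subgroup G) : Set G) := by
  have key : ∀ g ∈ B, conjBy ((A ⊔ C) ⊔ (⁅A, B⁆ ⊔ ⁅B, C⁆)) g ≤ (A ⊔ C) ⊔ (⁅A, B⁆ ⊔ ⁅B, C⁆) := by
    intro g hg
    rw [conjBy_sup, conjBy_sup, conjBy_sup]
    have h1 : conjBy ⁅A, B⁆ g = ⁅A, B⁆ :=
      conjBy_eq_of_commute (fun x hx => (T.hc₁.comm_right hx hg).symm)
    have h2 : conjBy ⁅B, C⁆ g = ⁅B, C⁆ :=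
      conjBy_eq_of_commute (fun x hx => (T.hc₂.comm_left hx hg).symm)
    rw [h1, h2]
    refine sup_le (sup_le ?_ ?_) (le_sup_right)
    · refine le_trans (conjBy_le_sup_commutator hg) (sup_le (le_trans le_sup_left le_sup_left) ?_)
      exact le_trans le_sup_left le_sup_right
    · have h3 := conjBy_le_sup_commutator (A := C) (B := B) hg
      rw [Subgroup.commutator_comm] at h3
      refine le_trans h3 (sup_le (le_trans le_sup_right le_sup_left) ?_)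
      exact le_trans le_sup_right le_sup_right
  intro g hg
  apply mem_normalizer_of_conj_le
  apply le_antisymm (key g hg)
  have h4 := conjBy_le (key g⁻¹ (B.inv_mem hg)) g
  rwa [conjBy_conjBy_inv] at h4

lemma R_normalizes_P :
    A ⊔ B ⊔ C ≤ Subgroup.normalizer (((A ⊔ C) ⊔ (⁅A, B⁆ ⊔ ⁅B, C⁆) : Subgroup G) : Set G) := by
  refine sup_le (sup_le ?_ T.B_normalizes_P) ?_
  · intro a ha
    exact mem_normalizer_of_conj_le (conjBy_eq_self_of_mem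
      ((le_trans le_sup_left le_sup_left : A ≤ (A ⊔ C) ⊔ (⁅A, B⁆ ⊔ ⁅B, C⁆)) ha))
  · intro c hc
    exact mem_normalizer_of_conj_le (conjBy_eq_self_of_mem
      ((le_trans le_sup_right le_sup_left : C ≤ (A ⊔ C) ⊔ (⁅A, B⁆ ⊔ ⁅B, C⁆)) hc))

lemma P_sup_B : (A ⊔ C) ⊔ (⁅A, B⁆ ⊔ ⁅B, C⁆) ⊔ B = A ⊔ B ⊔ C := by
  apply le_antisymm
  · refine sup_le (sup_le (sup_le ?_ le_sup_right) (sup_le ?_ ?_)) ?_
    · exact le_trans le_sup_left le_sup_left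
    · exact le_trans (commutator_le_sup A B) le_sup_left
    · exact le_trans (commutator_le_sup B C)
        (sup_le (le_trans le_sup_right le_sup_left) le_sup_right)
    · exact le_trans le_sup_right le_sup_left
  · refine sup_le (sup_le ?_ le_sup_right) ?_
    · exact le_trans (le_trans le_sup_left le_sup_left) le_sup_left
    · exact le_trans (le_trans le_sup_right le_sup_left) le_sup_left

lemma exists_b_ne : ∃ b ∈ B, b ≠ 1 :=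
  (Subgroup.bot_or_exists_ne_one _).resolve_left (T.hS.ne_bot _ T.hB)

/-- `d` commutes with `W₁`. -/
lemma d_comm_w1 {d w : G} (hd : d ∈ ⁅A, B⁆) (hw : w ∈ ⁅A, ⁅B, C⁆⁆) : d * w = w * d := by
  obtain ⟨b, hb, hb1⟩ := T.exists_b_ne
  obtain ⟨a', ha', hrel⟩ := T.hc₁.surj_left (B.inv_mem hb) (inv_ne_one.mpr hb1) hd
  have e : d = a' * (b⁻¹ * a'⁻¹ * b⁻¹⁻¹) := by rw [← hrel]; group
  have h1 : a' * w = w * a' := (T.w1_central hw ((le_sup_left : A ≤ _) ha')).symm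
  have hwX : w ∈ A ⊔ conjBy C b⁻¹ := by
    rw [← T.commutator_X (B.inv_mem hb) (inv_ne_one.mpr hb1)] at hw
    exact commutator_le_sup _ _ hw
  have h2 := T.X_Y_comm hb w hwX (b⁻¹ * a'⁻¹ * b⁻¹⁻¹)
    ((le_sup_left : conjBy A b⁻¹ ≤ _) (conj_mem_conjBy (A.inv_mem ha')))
  rw [e]
  calc a' * (b⁻¹ * a'⁻¹ * b⁻¹⁻¹) * w = a' * ((b⁻¹ * a'⁻¹ * b⁻¹⁻¹) * w) := by group
    _ = a' * (w * (b⁻¹ * a'⁻¹ * b⁻¹⁻¹)) := by rw [h2]
    _ = (a' * w) * (b⁻¹ * a'⁻¹ * b⁻¹⁻¹) := by group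
    _ = (w * a') * (b⁻¹ * a'⁻¹ * b⁻¹⁻¹) := by rw [h1]
    _ = w * (a' * (b⁻¹ * a'⁻¹ * b⁻¹⁻¹)) := by group

lemma d_comm_w2 {d w : G} (hd : d ∈ ⁅A, B⁆) (hw : w ∈ ⁅⁅A, B⁆, C⁆) : d * w = w * d :=
  (T.w2_central hw ((le_sup_left : ⁅A, B⁆ ≤ _) hd)).symm

/-- `W` is not a rank one partner of `B`. -/
lemma caseWB {W : Subgroup G} (hW : W = ⊥ ∨ W ∈ S) (hd : ∀ d ∈ ⁅A, B⁆, ∀ w ∈ W, d * w = w * d) :
    ⁅W, B⁆ = ⊥ ∨ RootCommutatorCase S W B := by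
  rcases hW with rfl | hW
  · left
    exact Subgroup.commutator_bot_left _
  rcases T.hS.pair W hW B T.hB with h | h | h
  · exact Or.inl h
  · exfalso
    obtain ⟨b', hb', hb'1⟩ := T.exists_b_ne
    obtain ⟨d, hd', hd1⟩ := (Subgroup.bot_or_exists_ne_one _).resolve_left (T.hS.ne_bot _ T.hc₁.1)
    obtain ⟨a₀, ha₀, hrel⟩ := T.hc₁.surj_left hb' hb'1 hd'
    have hz : d ∈ Subgroup.centralizer ((B ⊔ W : Subgroup G) : Set G) := by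
      rw [Subgroup.mem_centralizer_iff]
      intro x hx
      exact comm_of_sup (fun y hy => T.hc₁.comm_right hd' hy |>.symm)
        (fun y hy => (hd d hd' y hy).symm) x hx
    apply not_mem_rootElements T.hS hW h.symm hz hd1 b' hb' hb'1
    have e1 : d * b' = a₀ * b' * a₀⁻¹ := by rw [← hrel]; group
    rw [e1]
    refine ⟨?_, conjBy B a₀, T.hS.conj_mem B T.hB a₀, conj_mem_conjBy hb'⟩
    intro h1
    apply hb'1
    have : b' = a₀⁻¹ * (a₀ * b' * a₀⁻¹) * a₀ := by group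
    rw [this, h1]
    group
  · exact Or.inr h

lemma w1_bot_or : ⁅A, ⁅B, C⁆⁆ = ⊥ ∨ ⁅A, ⁅B, C⁆⁆ ∈ S := by
  rcases T.caseAE with h | h
  · exact Or.inl h
  · exact Or.inr h.1

lemma w2_bot_or : ⁅⁅A, B⁆, C⁆ = ⊥ ∨ ⁅⁅A, B⁆, C⁆ ∈ S := by
  rcases T.caseDC with h | h
  · exact Or.inl h
  · exact Or.inr h.1

lemma w1_b_le : ⁅⁅A, ⁅B, C⁆⁆, B⁆ ≤ ⁅A, ⁅B, C⁆⁆ ⊔ ⁅⁅A, B⁆, C⁆ := by
  rw [Subgroup.commutator_le]
  intro w hw b₁ hb₁
  rw [commutatorElement_def]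
  by_cases hb1 : b₁ = 1
  · rw [hb1]
    simp [Subgroup.one_mem]
  have h1 := T.conj_w1 (B.inv_mem hb₁) (inv_ne_one.mpr hb1)
  rw [inv_inv] at h1
  have h2 : b₁ * w⁻¹ * b₁⁻¹ ∈ ⁅⁅A, B⁆, C⁆ := by
    rw [← h1]
    exact conj_mem_conjBy (Subgroup.inv_mem _ hw)
  have e : w * b₁ * w⁻¹ * b₁⁻¹ = w * (b₁ * w⁻¹ * b₁⁻¹) := by group
  rw [e]
  exact Subgroup.mul_mem _ ((le_sup_left : ⁅A, ⁅B, C⁆⁆ ≤ _) hw) ((le_sup_right : ⁅⁅A, B⁆, C⁆ ≤ _) h2)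

lemma w2_b_le : ⁅⁅⁅A, B⁆, C⁆, B⁆ ≤ ⁅A, ⁅B, C⁆⁆ ⊔ ⁅⁅A, B⁆, C⁆ := by
  rw [Subgroup.commutator_le]
  intro w hw b₁ hb₁
  rw [commutatorElement_def]
  by_cases hb1 : b₁ = 1
  · rw [hb1]
    simp [Subgroup.one_mem]
  have h1 := T.conj_w1 hb₁ hb1
  have h2 : b₁ * w⁻¹ * b₁⁻¹ ∈ ⁅A, ⁅B, C⁆⁆ := by
    have h3 : b₁ * w⁻¹ * b₁⁻¹ ∈ conjBy ⁅⁅A, B⁆, C⁆ b₁ := conj_mem_conjBy (Subgroup.inv_mem _ hw)
    rwa [← h1, conjBy_conjBy_inv] at h3
  have e : w * b₁ * w⁻¹ * b₁⁻¹ = w * (b₁ * w⁻¹ * b₁⁻¹) := by group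
  rw [e]
  exact Subgroup.mul_mem _ ((le_sup_right : ⁅⁅A, B⁆, C⁆ ≤ _) hw) ((le_sup_left : ⁅A, ⁅B, C⁆⁆ ≤ _) h2)

lemma w1_le_R : ⁅A, ⁅B, C⁆⁆ ≤ A ⊔ B ⊔ C :=
  le_trans (commutator_le_sup _ _) (sup_le (le_trans le_sup_left le_sup_left)
    (le_trans (commutator_le_sup _ _) (sup_le (le_trans le_sup_right le_sup_left) le_sup_right)))

lemma w2_le_R : ⁅⁅A, B⁆, C⁆ ≤ A ⊔ B ⊔ C :=
  le_trans (commutator_le_sup _ _) (sup_le (le_trans (commutator_le_sup _ _) le_sup_left) le_sup_right)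

/-- `R` is nilpotent. -/
theorem nilpotent_R : Group.IsNilpotent ↥(A ⊔ B ⊔ C) := by
  set D := ⁅A, B⁆ with hD
  set E := ⁅B, C⁆ with hE
  set W₁ := ⁅A, E⁆ with hW₁
  set W₂ := ⁅D, C⁆ with hW₂
  set F₁ := ⁅W₁, B⁆ with hF₁
  set F₂ := ⁅W₂, B⁆ with hF₂
  set R := A ⊔ B ⊔ C with hR
  have hAR : A ≤ R := le_trans le_sup_left le_sup_left
  have hBR : B ≤ R := le_trans le_sup_right le_sup_left
  have hCR : C ≤ R := le_sup_right
  have hDR : D ≤ R := le_trans (commutator_le_sup A B) le_sup_left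
  have hER : E ≤ R := le_trans (commutator_le_sup B C) (sup_le hBR hCR)
  have hW₁R : W₁ ≤ R := T.w1_le_R
  have hW₂R : W₂ ≤ R := T.w2_le_R
  have cq : ∀ (N : Subgroup G) {x r : G}, x * r = r * x → x * r * x⁻¹ * r⁻¹ ∈ N := by
    intro N x r h
    rw [h]
    simp [N.one_mem]
  -- leaves
  have w1A : ∀ w ∈ W₁, ∀ a ∈ A, w * a = a * w := fun w hw a ha =>
    T.w1_central hw ((le_sup_left : A ≤ _) ha)
  have w1C : ∀ w ∈ W₁, ∀ c ∈ C, w * c = c * w := fun w hw c hc => T.c_comm_w1 hw hc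
  have w2A : ∀ w ∈ W₂, ∀ a ∈ A, w * a = a * w := fun w hw a ha => T.a_comm_w2 hw ha
  have w2C : ∀ w ∈ W₂, ∀ c ∈ C, w * c = c * w := fun w hw c hc =>
    T.w2_central hw ((le_sup_right : C ≤ _) hc)
  have zA : ∀ z ∈ W₁ ⊔ W₂, ∀ a ∈ A, z * a = a * z := fun z hz a ha =>
    comm_of_sup (fun y hy => w1A y hy a ha) (fun y hy => w2A y hy a ha) z hz
  have zC : ∀ z ∈ W₁ ⊔ W₂, ∀ c ∈ C, z * c = c * z := fun z hz c hc =>
    comm_of_sup (fun y hy => w1C y hy c hc) (fun y hy => w2C y hy c hc) z hz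
  have f1B : ∀ f ∈ F₁, ∀ b ∈ B, f * b = b * f := fun f hf b hb =>
    central_of_cases (T.caseWB T.w1_bot_or (fun d hd w hw => T.d_comm_w1 hd hw)) hf
      ((le_sup_right : B ≤ _) hb)
  have f2B : ∀ f ∈ F₂, ∀ b ∈ B, f * b = b * f := fun f hf b hb =>
    central_of_cases (T.caseWB T.w2_bot_or (fun d hd w hw => T.d_comm_w2 hd hw)) hf
      ((le_sup_right : B ≤ _) hb)
  have hF_le : F₁ ⊔ F₂ ≤ W₁ ⊔ W₂ := sup_le T.w1_b_le T.w2_b_le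
  -- step 4
  have h₄c : ∀ x ∈ F₁ ⊔ F₂, ∀ r ∈ R, x * r = r * x := by
    intro x hx r hr
    have hA' : ∀ y ∈ A, x * y = y * x := fun y hy => zA x (hF_le hx) y hy
    have hC' : ∀ y ∈ C, x * y = y * x := fun y hy => zC x (hF_le hx) y hy
    have hB' : ∀ y ∈ B, x * y = y * x := fun y hy =>
      comm_of_sup (fun z hz => f1B z hz y hy) (fun z hz => f2B z hz y hy) x hx
    have hR' : ∀ y ∈ R, y * x = x * y := fun y hy => comm_of_sup (H₁ := A ⊔ B) (H₂ := C)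
      (comm_of_sup (fun y hy => (hA' y hy).symm) (fun y hy => (hB' y hy).symm))
      (fun y hy => (hC' y hy).symm) y hy
    exact (hR' r hr).symm
  have h₄ : ∀ x ∈ F₁ ⊔ F₂, ∀ r ∈ R, x * r * x⁻¹ * r⁻¹ = 1 := by
    intro x hx r hr
    rw [h₄c x hx r hr]
    group
  have hN₄ : R ≤ Subgroup.normalizer ((F₁ ⊔ F₂ : Subgroup G) : Set G) := fun r hr =>
    mem_normalizer_of_commute (fun x hx => (h₄c x hx r hr).symm)
  -- a generic lift over `R`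
  have lift : ∀ {N : Subgroup G}, R ≤ Subgroup.normalizer (N : Set G) → ∀ {x : G},
      (∀ a ∈ A, x * a * x⁻¹ * a⁻¹ ∈ N) → (∀ b ∈ B, x * b * x⁻¹ * b⁻¹ ∈ N) →
      (∀ c ∈ C, x * c * x⁻¹ * c⁻¹ ∈ N) → ∀ r ∈ R, x * r * x⁻¹ * r⁻¹ ∈ N := by
    intro N hN x qA qB qC
    exact rel_sup_right (K₁ := A ⊔ B) (K₂ := C) (le_trans le_sup_left hN) (le_trans le_sup_right hN)
      (rel_sup_right (le_trans (le_trans le_sup_left le_sup_left) hN)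
        (le_trans (le_trans le_sup_right le_sup_left) hN) qA qB) qC
  -- step 3
  have h₃ : ∀ x ∈ W₁ ⊔ W₂, ∀ r ∈ R, x * r * x⁻¹ * r⁻¹ ∈ F₁ ⊔ F₂ := by
    intro x hx r hr
    have hW₁n : W₁ ≤ Subgroup.normalizer ((F₁ ⊔ F₂ : Subgroup G) : Set G) := le_trans hW₁R hN₄
    have hW₂n : W₂ ≤ Subgroup.normalizer ((F₁ ⊔ F₂ : Subgroup G) : Set G) := le_trans hW₂R hN₄
    refine rel_sup_left hW₁n hW₂n (fun y hy => ?_) (fun y hy => ?_) x hx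
    · exact lift hN₄ (fun a ha => cq _ (w1A y hy a ha))
        (fun b hb => (le_sup_left : F₁ ≤ F₁ ⊔ F₂) (cm_mem hy hb))
        (fun c hc => cq _ (w1C y hy c hc)) r hr
    · exact lift hN₄ (fun a ha => cq _ (w2A y hy a ha))
        (fun b hb => (le_sup_right : F₂ ≤ F₁ ⊔ F₂) (cm_mem hy hb))
        (fun c hc => cq _ (w2C y hy c hc)) r hr
  have hN₃ : R ≤ Subgroup.normalizer ((W₁ ⊔ W₂ : Subgroup G) : Set G) := normalizer_of_rel hF_le h₃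
  -- step 2
  have dA : ∀ d ∈ D, ∀ a ∈ A, d * a = a * d := fun d hd a ha => T.hc₁.comm_left hd ha
  have dB : ∀ d ∈ D, ∀ b ∈ B, d * b = b * d := fun d hd b hb => T.hc₁.comm_right hd hb
  have eB : ∀ e ∈ E, ∀ b ∈ B, e * b = b * e := fun e he b hb => T.hc₂.comm_left he hb
  have eC : ∀ e ∈ E, ∀ c ∈ C, e * c = c * e := fun e he c hc => T.hc₂.comm_right he hc
  have dQ : ∀ {N : Subgroup G}, R ≤ Subgroup.normalizer (N : Set G) → W₁ ⊔ W₂ ≤ N → ∀ d ∈ D, ∀ r ∈ R,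
      d * r * d⁻¹ * r⁻¹ ∈ N := by
    intro N hN hle d hd r hr
    exact lift hN (fun a ha => cq _ (dA d hd a ha)) (fun b hb => cq _ (dB d hd b hb))
      (fun c hc => hle ((le_sup_right : W₂ ≤ W₁ ⊔ W₂) (cm_mem hd hc))) r hr
  have eQ : ∀ {N : Subgroup G}, R ≤ Subgroup.normalizer (N : Set G) → W₁ ⊔ W₂ ≤ N → ∀ e ∈ E, ∀ r ∈ R,
      e * r * e⁻¹ * r⁻¹ ∈ N := by
    intro N hN hle e he r hr
    refine lift hN (fun a ha => ?_) (fun b hb => cq _ (eB e he b hb))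
      (fun c hc => cq _ (eC e he c hc)) r hr
    apply hle
    apply (le_sup_left : W₁ ≤ W₁ ⊔ W₂)
    have := cm_mem he ha
    rwa [Subgroup.commutator_comm] at this
  have h₂ : ∀ x ∈ (D ⊔ E) ⊔ (W₁ ⊔ W₂), ∀ r ∈ R, x * r * x⁻¹ * r⁻¹ ∈ W₁ ⊔ W₂ := by
    intro x hx r hr
    have hn1 : D ⊔ E ≤ Subgroup.normalizer ((W₁ ⊔ W₂ : Subgroup G) : Set G) :=
      le_trans (sup_le hDR hER) hN₃
    have hn2 : W₁ ⊔ W₂ ≤ Subgroup.normalizer ((W₁ ⊔ W₂ : Subgroup G) : Set G) :=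
      le_trans (sup_le hW₁R hW₂R) hN₃
    refine rel_sup_left hn1 hn2 (fun y hy => ?_) (fun y hy => ?_) x hx
    · exact rel_sup_left (le_trans hDR hN₃) (le_trans hER hN₃)
        (fun u hu => dQ hN₃ le_rfl u hu r hr) (fun u hu => eQ hN₃ le_rfl u hu r hr) y hy
    · exact hF_le (h₃ y hy r hr)
  have hN₂ : R ≤ Subgroup.normalizer (((D ⊔ E) ⊔ (W₁ ⊔ W₂) : Subgroup G) : Set G) :=
    normalizer_of_rel le_sup_right h₂
  -- step 1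
  have hzle : W₁ ⊔ W₂ ≤ (D ⊔ E) ⊔ (W₁ ⊔ W₂) := le_sup_right
  have h₁ : ∀ x ∈ (A ⊔ C) ⊔ (D ⊔ E), ∀ r ∈ R, x * r * x⁻¹ * r⁻¹ ∈ (D ⊔ E) ⊔ (W₁ ⊔ W₂) := by
    intro x hx r hr
    have hn1 : A ⊔ C ≤ Subgroup.normalizer (((D ⊔ E) ⊔ (W₁ ⊔ W₂) : Subgroup G) : Set G) :=
      le_trans (sup_le hAR hCR) hN₂
    have hn2 : D ⊔ E ≤ Subgroup.normalizer (((D ⊔ E) ⊔ (W₁ ⊔ W₂) : Subgroup G) : Set G) :=
      le_trans (sup_le hDR hER) hN₂
    refine rel_sup_left hn1 hn2 (fun y hy => ?_) (fun y hy => ?_) x hx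
    · refine rel_sup_left (le_trans hAR hN₂) (le_trans hCR hN₂) (fun u hu => ?_) (fun u hu => ?_) y hy
      · refine lift hN₂ (fun a ha => cq _ (comm_of_mem_of_S T.hS T.hA hu ha)) (fun b hb => ?_)
          (fun c hc => cq _ (T.ac_comm hu hc)) r hr
        apply (le_sup_left : D ⊔ E ≤ _)
        exact (le_sup_left : D ≤ _) (cm_mem hu hb)
      · refine lift hN₂ (fun a ha => cq _ (T.ac_comm ha hu).symm) (fun b hb => ?_)
          (fun c hc => cq _ (comm_of_mem_of_S T.hS T.hC hu hc)) r hr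
        apply (le_sup_left : D ⊔ E ≤ _)
        apply (le_sup_right : E ≤ _)
        have := cm_mem hu hb
        rwa [Subgroup.commutator_comm] at this
    · exact rel_sup_left (le_trans hDR hN₂) (le_trans hER hN₂)
        (fun u hu => dQ hN₂ hzle u hu r hr) (fun u hu => eQ hN₂ hzle u hu r hr) y hy
  have hN₁ : R ≤ Subgroup.normalizer (((A ⊔ C) ⊔ (D ⊔ E) : Subgroup G) : Set G) := T.R_normalizes_P
  -- step 0
  have h₀ : ∀ x ∈ R, ∀ r ∈ R, x * r * x⁻¹ * r⁻¹ ∈ (A ⊔ C) ⊔ (D ⊔ E) := by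
    intro x hx r hr
    have hABn : A ⊔ B ≤ Subgroup.normalizer (((A ⊔ C) ⊔ (D ⊔ E) : Subgroup G) : Set G) :=
      le_trans (sup_le hAR hBR) hN₁
    have hDle : D ≤ (A ⊔ C) ⊔ (D ⊔ E) := le_trans le_sup_left le_sup_right
    have hEle : E ≤ (A ⊔ C) ⊔ (D ⊔ E) := le_trans le_sup_right le_sup_right
    refine rel_sup_left hABn (le_trans hCR hN₁) (fun y hy => ?_) (fun y hy => ?_) x hx
    · refine rel_sup_left (le_trans hAR hN₁) (le_trans hBR hN₁) (fun u hu => ?_) (fun u hu => ?_) y hy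
      · exact lift hN₁ (fun a ha => cq _ (comm_of_mem_of_S T.hS T.hA hu ha))
          (fun b hb => hDle (cm_mem hu hb)) (fun c hc => cq _ (T.ac_comm hu hc)) r hr
      · refine lift hN₁ (fun a ha => ?_) (fun b hb => cq _ (comm_of_mem_of_S T.hS T.hB hu hb))
          (fun c hc => hEle (cm_mem hu hc)) r hr
        apply hDle
        have := cm_mem hu ha
        rwa [Subgroup.commutator_comm] at this
    · refine lift hN₁ (fun a ha => cq _ (T.ac_comm ha hy).symm) (fun b hb => ?_)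
        (fun c hc => cq _ (comm_of_mem_of_S T.hS T.hC hy hc)) r hr
      apply hEle
      have := cm_mem hy hb
      rwa [Subgroup.commutator_comm] at this
  exact nilpotent_of_chain h₀ h₁ h₂ h₃ h₄

/-- The first clause. -/
theorem abelian_or_class_two {b : G} (hb : b ∈ B) (hb1 : b ≠ 1) :
    ((IsMulCommutative ↥(A ⊔ conjBy C b⁻¹) ∧ IsMulCommutative ↥(conjBy A b⁻¹ ⊔ C)) ∨
      ((¬ IsMulCommutative ↥(A ⊔ conjBy C b⁻¹) ∧
          ⁅⁅A ⊔ conjBy C b⁻¹, A ⊔ conjBy C b⁻¹⁆, A ⊔ conjBy C b⁻¹⁆ = ⊥) ∧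
        (¬ IsMulCommutative ↥(conjBy A b⁻¹ ⊔ C) ∧
          ⁅⁅conjBy A b⁻¹ ⊔ C, conjBy A b⁻¹ ⊔ C⁆, conjBy A b⁻¹ ⊔ C⁆ = ⊥))) := by
  have hC' : conjBy C b⁻¹ ∈ S := T.hS.conj_mem C T.hC _
  have hA' : conjBy A b⁻¹ ∈ S := T.hS.conj_mem A T.hA _
  have hX := T.commutator_X (b₁ := b⁻¹) (B.inv_mem hb) (inv_ne_one.mpr hb1)
  have hY := T.commutator_Y (b₁ := b) hb hb1
  have hconj := T.conj_w1 hb hb1
  have gen : ∀ {H K : Subgroup G}, H ∈ S → K ∈ S → ⁅H, K⁆ = ⊥ → IsMulCommutative ↥(H ⊔ K) := by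
    intro H K hH hK h0
    refine ⟨⟨fun x y => Subtype.ext ?_⟩⟩
    exact comm_of_sup_sup (fun u hu v hv => comm_of_mem_of_S T.hS hH hu hv)
      (fun u hu v hv => line_comm h0 hu hv)
      (fun u hu v hv => (line_comm h0 hv hu).symm) (fun u hu v hv => comm_of_mem_of_S T.hS hK hu hv)
      x x.2 y y.2
  have gen2 : ∀ {H K : Subgroup G}, H ∈ S → K ∈ S → ⁅H, K⁆ ≠ ⊥ → ⁅H, K⁆ ∈ S →
      ¬ IsMulCommutative ↥(H ⊔ K) ∧ ⁅⁅H ⊔ K, H ⊔ K⁆, H ⊔ K⁆ = ⊥ := by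
    intro H K hH hK h0 h1
    constructor
    · intro hc
      apply h0
      apply commutator_eq_bot_of_comm
      intro u hu v hv
      have := hc.is_comm.comm (⟨u, (le_sup_left : H ≤ H ⊔ K) hu⟩ : ↥(H ⊔ K))
        ⟨v, (le_sup_right : K ≤ H ⊔ K) hv⟩
      exact congrArg Subtype.val this
    · have hcase : RootCommutatorCase S H K := commCase_of_mem T.hS hH hK h1
      have hcent := commutator_sup_of_central (fun u hu v hv => comm_of_mem_of_S T.hS hH hu hv)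
        (fun u hu v hv => comm_of_mem_of_S T.hS hK hu hv)
        (le_refl _) (fun w hw x hx => hcase.2.1 w hw x hx)
      apply commutator_eq_bot_of_comm
      intro u hu v hv
      have hu' : u ∈ ⁅H, K⁆ := by
        have hle : ⁅H ⊔ K, H ⊔ K⁆ ≤ ⁅H, K⁆ := by
          rw [Subgroup.commutator_le]
          intro x hx y hy
          rw [commutatorElement_def]
          exact hcent x hx y hy
        exact hle hu
      exact hcase.2.1 u hu' v hv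
  rcases T.w1_bot_or with h | h
  · left
    have h2 : ⁅⁅A, B⁆, C⁆ = ⊥ := by
      rw [← hconj, h]
      exact conjBy_bot _
    exact ⟨gen T.hA hC' (by rw [hX]; exact h), gen hA' T.hC (by rw [hY]; exact h2)⟩
  · by_cases h0 : ⁅A, ⁅B, C⁆⁆ = ⊥
    · left
      have h2 : ⁅⁅A, B⁆, C⁆ = ⊥ := by
        rw [← hconj, h0]
        exact conjBy_bot _
      exact ⟨gen T.hA hC' (by rw [hX]; exact h0), gen hA' T.hC (by rw [hY]; exact h2)⟩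
    · right
      have h2 : ⁅⁅A, B⁆, C⁆ ≠ ⊥ := by
        intro h3
        rw [← hconj] at h3
        exact h0 (conjBy_eq_bot h3)
      have h3 : ⁅⁅A, B⁆, C⁆ ∈ S := by
        rw [← hconj]
        exact T.hS.conj_mem _ h _
      exact ⟨gen2 T.hA hC' (by rw [hX]; exact h0) (by rw [hX]; exact h),
        gen2 hA' T.hC (by rw [hY]; exact h2) (by rw [hY]; exact h3)⟩

end TripleData

end Triple

end Cfsg.Agent.Lib.Root
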