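import Mathlib
import Cfsg.Prelude.Def_RootSubgroups
import Cfsg.Agent.Lib.Transv.Conj
import Cfsg.Agent.Lib.Classical.SL

/-! Transvections `1 + a bᵀ` in special linear groups. -/

set_option autoImplicit false

namespace Cfsg.Agent.Lib.Root

open Matrix Cfsg

section general

variable {F ι : Type*} [Field F] [Fintype ι] [DecidableEq ι]

theorem tv_vmv_mul (a b c d : ι → F) :
    vecMulVec a b * vecMulVec c d = (b ⬝ᵥ c) • vecMulVec a d := by
  ext i j
  simp only [Matrix.mul_apply, vecMulVec_apply, Matrix.smul_apply, smul_eq_mul, dotProduct]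
  rw [Finset.sum_mul]
  exact Finset.sum_congr rfl fun k _ => by ring

theorem tv_vmv_mulVec (a b x : ι → F) : vecMulVec a b *ᵥ x = (b ⬝ᵥ x) • a := by
  funext i
  simp only [mulVec, dotProduct, vecMulVec_apply, Pi.smul_apply, smul_eq_mul]
  rw [Finset.sum_mul]
  exact Finset.sum_congr rfl fun k _ => by ring

theorem tv_det (a b : ι → F) : (1 + vecMulVec a b).det = 1 + b ⬝ᵥ a := by
  rw [vecMulVec_eq Unit, det_one_add_replicateCol_mul_replicateRow]

/-- The transvection `1 + a bᵀ`, with `b·a = 0`, as an element of the special linear group. -/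
def tvSL (a b : ι → F) (h : b ⬝ᵥ a = 0) : SpecialLinearGroup ι F :=
  ⟨1 + vecMulVec a b, by rw [tv_det, h, add_zero]⟩

@[simp] theorem tvSL_coe (a b : ι → F) (h : b ⬝ᵥ a = 0) :
    ((tvSL a b h : SpecialLinearGroup ι F) : Matrix ι ι F) = 1 + vecMulVec a b := rfl

theorem vmv_eq_zero_iff {a b : ι → F} : vecMulVec a b = 0 ↔ a = 0 ∨ b = 0 := by
  constructor
  · intro h
    by_contra hcon
    push Not at hcon
    obtain ⟨i, hi⟩ := Function.ne_iff.mp hcon.1
    obtain ⟨j, hj⟩ := Function.ne_iff.mp hcon.2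
    have := congrFun (congrFun h i) j
    simp only [vecMulVec_apply, Matrix.zero_apply] at this
    exact (mul_ne_zero hi hj) this
  · rintro (rfl | rfl) <;> ext i j <;> simp [vecMulVec_apply]

theorem single_eq_vmv (i j : ι) (c : F) :
    Matrix.single i j c = vecMulVec (c • (Pi.single i 1 : ι → F)) (Pi.single j 1 : ι → F) := by
  ext k l
  simp only [vecMulVec_apply, Matrix.single_apply, Pi.smul_apply, Pi.single_apply, smul_eq_mul]
  by_cases h1 : i = k <;> by_cases h2 : j = l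
  · simp [h1, h2]
  · simp [h1, h2, Ne.symm h2]
  · simp [h1, h2, Ne.symm h1]
  · simp [h1, h2, Ne.symm h1, Ne.symm h2]

theorem single_dot (i j : ι) (hij : i ≠ j) :
    (Pi.single j 1 : ι → F) ⬝ᵥ (Pi.single i 1 : ι → F) = 0 := by
  simp [single_dotProduct, Pi.single_apply, hij]

/-- Conjugation by an element of the special linear group. -/
theorem sl_conj_vmv (g : SpecialLinearGroup ι F) (a b : ι → F) :
    (g : Matrix ι ι F) * vecMulVec a b * ((g⁻¹ : SpecialLinearGroup ι F) : Matrix ι ι F) =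
      vecMulVec ((g : Matrix ι ι F) *ᵥ a) (b ᵥ* ((g⁻¹ : SpecialLinearGroup ι F) : Matrix ι ι F)) := by
  rw [mul_vecMulVec, vecMulVec_mul]

theorem sl_mul_inv (g : SpecialLinearGroup ι F) :
    (g : Matrix ι ι F) * ((g⁻¹ : SpecialLinearGroup ι F) : Matrix ι ι F) = 1 := by
  rw [← Matrix.SpecialLinearGroup.coe_mul, mul_inv_cancel, Matrix.SpecialLinearGroup.coe_one]

theorem sl_inv_mul (g : SpecialLinearGroup ι F) :
    ((g⁻¹ : SpecialLinearGroup ι F) : Matrix ι ι F) * (g : Matrix ι ι F) = 1 := by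
  rw [← Matrix.SpecialLinearGroup.coe_mul, inv_mul_cancel, Matrix.SpecialLinearGroup.coe_one]

/-- conjugate of a transvection -/
theorem sl_conj_tv (g : SpecialLinearGroup ι F) (a b : ι → F) :
    (g : Matrix ι ι F) * (1 + vecMulVec a b) * ((g⁻¹ : SpecialLinearGroup ι F) : Matrix ι ι F) =
      1 + vecMulVec ((g : Matrix ι ι F) *ᵥ a) (b ᵥ* ((g⁻¹ : SpecialLinearGroup ι F) : Matrix ι ι F)) := by
  rw [mul_add, add_mul, mul_one, sl_mul_inv, sl_conj_vmv]

theorem sl_mulVec_ne_zero (g : SpecialLinearGroup ι F) {a : ι → F} (ha : a ≠ 0) :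
    (g : Matrix ι ι F) *ᵥ a ≠ 0 := by
  intro h
  apply ha
  calc a = (1 : Matrix ι ι F) *ᵥ a := (one_mulVec a).symm
    _ = (((g⁻¹ : SpecialLinearGroup ι F) : Matrix ι ι F) * (g : Matrix ι ι F)) *ᵥ a := by rw [sl_inv_mul]
    _ = ((g⁻¹ : SpecialLinearGroup ι F) : Matrix ι ι F) *ᵥ ((g : Matrix ι ι F) *ᵥ a) := (mulVec_mulVec _ _ _).symm
    _ = 0 := by rw [h, mulVec_zero]

theorem sl_vecMul_ne_zero (g : SpecialLinearGroup ι F) {a : ι → F} (ha : a ≠ 0) :
    a ᵥ* (g : Matrix ι ι F) ≠ 0 := by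
  intro h
  apply ha
  calc a = a ᵥ* (1 : Matrix ι ι F) := (vecMul_one a).symm
    _ = a ᵥ* ((g : Matrix ι ι F) * ((g⁻¹ : SpecialLinearGroup ι F) : Matrix ι ι F)) := by rw [sl_mul_inv]
    _ = (a ᵥ* (g : Matrix ι ι F)) ᵥ* ((g⁻¹ : SpecialLinearGroup ι F) : Matrix ι ι F) := (vecMul_vecMul _ _ _).symm
    _ = 0 := by rw [h, zero_vecMul]

theorem sl_dot_conj (g : SpecialLinearGroup ι F) (a b : ι → F) :
    (b ᵥ* ((g⁻¹ : SpecialLinearGroup ι F) : Matrix ι ι F)) ⬝ᵥ ((g : Matrix ι ι F) *ᵥ a) = b ⬝ᵥ a := by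
  rw [dotProduct_mulVec, vecMul_vecMul, sl_inv_mul, vecMul_one]

end general

section class3

variable {F : Type*} [Field F] {n : ℕ}

local notation "ι" => Fin (n + 3)

/-- Every transvection is conjugate to `1 + E₀₁`. -/
theorem tv_conj_std {a b : ι → F} (ha : a ≠ 0) (hb : b ≠ 0) (h : b ⬝ᵥ a = 0) :
    ∃ g : SpecialLinearGroup ι F, (g : Matrix ι ι F) * (1 + vecMulVec (Pi.single 0 1) (Pi.single 1 1)) =
      (1 + vecMulVec a b) * (g : Matrix ι ι F) := by
  have h0 : (Pi.single (0 : ι) (1 : F) : ι → F) ≠ 0 := by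
    intro h1
    have := congrFun h1 0
    simp at this
  have h1 : (Pi.single (1 : ι) (1 : F) : ι → F) ≠ 0 := by
    intro h1
    have := congrFun h1 1
    simp at this
  have hd : (Pi.single (1 : ι) (1 : F) : ι → F) ⬝ᵥ (Pi.single (0 : ι) (1 : F) : ι → F) = 0 :=
    single_dot (F := F) (0 : ι) 1 (by simp [Fin.ext_iff])
  obtain ⟨G, hG1, hG2⟩ := Cfsg.Agent.Lib.Transv.exists_SL_of_pairs h0 ha h1 hb hd h (by simp)
  exact ⟨G, Cfsg.Agent.Lib.Transv.mul_one_add_vecMulVec hG1 hG2⟩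

end class3

end Cfsg.Agent.Lib.Root
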