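import Mathlib
import Cfsg.Agent.Lib.Root.TvBasic
import Cfsg.Agent.Lib.Root.SL2
import Cfsg.Agent.Lib.Root.Triple

/-! Root groups of transvections `1 + c a bᵀ` in special linear groups; pairs of them. -/

set_option autoImplicit false

namespace Cfsg.Agent.Lib.Root

open Matrix Cfsg
open scoped commutatorElement

section transport

variable {G H : Type*} [Group G] [Group H]

theorem conjBy_map (Φ : G →* H) (A : Subgroup G) (g : G) :
    conjBy (A.map Φ) (Φ g) = (conjBy A g).map Φ := by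
  rw [conjBy, conjBy, Subgroup.map_map, Subgroup.map_map]
  congr 1
  ext x
  simp

/-- The image of a rank one pair under an injective homomorphism. -/
theorem rankOne_map (Φ : G →* H) (hinj : Function.Injective Φ) {A B : Subgroup G} (h : IsRankOnePair A B) :
    IsRankOnePair (A.map Φ) (B.map Φ) := by
  have hcond : ∀ {A B : Subgroup G}, IsRankOnePair A B → RankOneCondition (A.map Φ) (B.map Φ) := by
    intro A B h
    rintro _ ⟨a, ha, rfl⟩ ha1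
    have ha1' : a ≠ 1 := by
      rintro rfl
      exact ha1 (map_one Φ)
    obtain ⟨b, hb, hb1, hrel⟩ := h.cond_left a ha ha1'
    refine ⟨Φ b, ⟨b, hb, rfl⟩, ?_, ?_⟩
    · intro h1
      apply hb1
      apply hinj
      rw [h1, map_one]
    · rw [← map_inv, ← map_inv, conjBy_map, conjBy_map, hrel]
  refine ⟨(Subgroup.map_injective hinj).ne h.ne, ?_, ?_, hcond h, hcond h.symm⟩
  · haveI := h.nilpotent_left
    exact Group.nilpotent_of_surjective (A.equivMapOfInjective Φ hinj).toMonoidHom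
      (A.equivMapOfInjective Φ hinj).surjective
  · haveI := h.nilpotent_right
    exact Group.nilpotent_of_surjective (B.equivMapOfInjective Φ hinj).toMonoidHom
      (B.equivMapOfInjective Φ hinj).surjective

/-- `SL₂` data give the pair of images of `SL₂`. -/
theorem psl2_of_hom {k : Type*} [Field k] (Φ : Matrix.SpecialLinearGroup (Fin 2) k →* G)
    (hker : Φ.ker ≤ Subgroup.center _) :
    IsPSL2PairOver k ((upperUnipotentSL2 k).map Φ) ((lowerUnipotentSL2 k).map Φ) := by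
  refine ⟨Φ, ?_, hker, rfl, rfl⟩
  rw [← Subgroup.map_sup, sup_comm, sup_lower_upper]
  exact MonoidHom.range_eq_map Φ

end transport

section general

variable {F ι : Type*} [Field F] [Fintype ι] [DecidableEq ι]

local notation "SLι" => Matrix.SpecialLinearGroup ι F

theorem vmv_smul_left (a b : ι → F) (c : F) : vecMulVec (c • a) b = c • vecMulVec a b := by
  ext i j
  simp only [vecMulVec_apply, Pi.smul_apply, Matrix.smul_apply, smul_eq_mul]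
  ring

theorem vmv_smul_right (a b : ι → F) (c : F) : vecMulVec a (c • b) = c • vecMulVec a b := by
  ext i j
  simp only [vecMulVec_apply, Pi.smul_apply, Matrix.smul_apply, smul_eq_mul]
  ring

theorem vmv_sq {a b : ι → F} (h : b ⬝ᵥ a = 0) : vecMulVec a b * vecMulVec a b = 0 := by
  rw [tv_vmv_mul, h, zero_smul]

/-- The root element `1 + c a bᵀ`. -/
def tvE (a b : ι → F) (h : b ⬝ᵥ a = 0) (c : F) : SLι :=
  tvSL (c • a) b (by rw [dotProduct_smul, h, smul_zero])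

theorem tvE_coe (a b : ι → F) (h : b ⬝ᵥ a = 0) (c : F) :
    ((tvE a b h c : SLι) : Matrix ι ι F) = 1 + c • vecMulVec a b := by
  rw [tvE, tvSL_coe, vmv_smul_left]

theorem tvE_add (a b : ι → F) (h : b ⬝ᵥ a = 0) (c d : F) :
    tvE a b h (c + d) = tvE a b h c * tvE a b h d := by
  apply Subtype.ext
  rw [Matrix.SpecialLinearGroup.coe_mul, tvE_coe, tvE_coe, tvE_coe]
  simp only [mul_add, add_mul, mul_one, one_mul, smul_mul_assoc, mul_smul_comm, vmv_sq h, smul_zero,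
    add_zero, add_smul]
  abel

theorem tvE_zero (a b : ι → F) (h : b ⬝ᵥ a = 0) : tvE a b h 0 = 1 := by
  apply Subtype.ext
  rw [tvE_coe, zero_smul, add_zero, Matrix.SpecialLinearGroup.coe_one]

theorem tvE_neg (a b : ι → F) (h : b ⬝ᵥ a = 0) (c : F) : tvE a b h (-c) = (tvE a b h c)⁻¹ :=
  eq_inv_of_mul_eq_one_left (by rw [← tvE_add, neg_add_cancel, tvE_zero])

theorem tvE_eq_one {a b : ι → F} {h : b ⬝ᵥ a = 0} (ha : a ≠ 0) (hb : b ≠ 0) {c : F}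
    (h1 : tvE a b h c = 1) : c = 0 := by
  have h2 := congrArg (fun t : SLι => (t : Matrix ι ι F)) h1
  simp only [tvE_coe, Matrix.SpecialLinearGroup.coe_one] at h2
  have h3 : c • vecMulVec a b = 0 := by simpa using h2
  rcases smul_eq_zero.mp h3 with h4 | h4
  · exact h4
  · rcases vmv_eq_zero_iff.mp h4 with h5 | h5
    · exact absurd h5 ha
    · exact absurd h5 hb

/-- The root group. -/
def rootT (a b : ι → F) (h : b ⬝ᵥ a = 0) : Subgroup SLι where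
  carrier := {t | ∃ c, t = tvE a b h c}
  mul_mem' := by
    rintro _ _ ⟨c, rfl⟩ ⟨d, rfl⟩
    exact ⟨c + d, (tvE_add a b h c d).symm⟩
  one_mem' := ⟨0, (tvE_zero a b h).symm⟩
  inv_mem' := by
    rintro _ ⟨c, rfl⟩
    exact ⟨-c, (tvE_neg a b h c).symm⟩

theorem mem_rootT {a b : ι → F} {h : b ⬝ᵥ a = 0} {t : SLι} : t ∈ rootT a b h ↔ ∃ c, t = tvE a b h c := Iff.rfl

theorem tvE_mem (a b : ι → F) (h : b ⬝ᵥ a = 0) (c : F) : tvE a b h c ∈ rootT a b h := ⟨c, rfl⟩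

theorem rootT_comm {a b : ι → F} {h : b ⬝ᵥ a = 0} {x y : SLι} (hx : x ∈ rootT a b h) (hy : y ∈ rootT a b h) :
    x * y = y * x := by
  obtain ⟨c, rfl⟩ := hx
  obtain ⟨d, rfl⟩ := hy
  rw [← tvE_add, ← tvE_add, add_comm]

theorem rootT_isComm (a b : ι → F) (h : b ⬝ᵥ a = 0) : IsMulCommutative (rootT a b h) :=
  ⟨⟨fun x y => Subtype.ext (rootT_comm x.2 y.2)⟩⟩

theorem rootT_ne_bot {a b : ι → F} {h : b ⬝ᵥ a = 0} (ha : a ≠ 0) (hb : b ≠ 0) : rootT a b h ≠ ⊥ := by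
  intro h1
  have h2 : tvE a b h 1 ∈ rootT a b h := tvE_mem _ _ _ _
  rw [h1, Subgroup.mem_bot] at h2
  exact one_ne_zero (tvE_eq_one ha hb h2)

theorem rootT_eq_of_vmv {a b a' b' : ι → F} {h : b ⬝ᵥ a = 0} {h' : b' ⬝ᵥ a' = 0} {s : F} (hs : s ≠ 0)
    (e : vecMulVec a' b' = s • vecMulVec a b) : rootT a' b' h' = rootT a b h := by
  have key : ∀ c, tvE a' b' h' c = tvE a b h (c * s) := by
    intro c
    apply Subtype.ext
    rw [tvE_coe, tvE_coe, e, smul_smul]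
  ext t
  constructor
  · rintro ⟨c, rfl⟩
    exact ⟨c * s, key c⟩
  · rintro ⟨c, rfl⟩
    refine ⟨c * s⁻¹, ?_⟩
    rw [key, mul_assoc, inv_mul_cancel₀ hs, mul_one]

theorem tvE_conj (g : SLι) (a b : ι → F) (h : b ⬝ᵥ a = 0) (c : F) :
    g * tvE a b h c * g⁻¹ = tvE ((g : Matrix ι ι F) *ᵥ a) (b ᵥ* ((g⁻¹ : SLι) : Matrix ι ι F))
      (by rw [sl_dot_conj, h]) c := by
  apply Subtype.ext
  simp only [Matrix.SpecialLinearGroup.coe_mul]
  rw [tvE_coe, tvE_coe, ← sl_conj_vmv, mul_add, add_mul, mul_one, sl_mul_inv, mul_smul_comm, smul_mul_assoc,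
    ]

theorem rootT_conj (g : SLι) (a b : ι → F) (h : b ⬝ᵥ a = 0) :
    conjBy (rootT a b h) g = rootT ((g : Matrix ι ι F) *ᵥ a) (b ᵥ* ((g⁻¹ : SLι) : Matrix ι ι F))
      (by rw [sl_dot_conj, h]) := by
  ext t
  constructor
  · rintro ⟨y, ⟨c, rfl⟩, rfl⟩
    exact ⟨c, tvE_conj g a b h c⟩
  · rintro ⟨c, rfl⟩
    exact ⟨tvE a b h c, tvE_mem _ _ _ _, tvE_conj g a b h c⟩

/-- Commuting root elements. -/
theorem tvE_commute {v φ w ψ : ι → F} (h0 : φ ⬝ᵥ v = 0) (h1 : ψ ⬝ᵥ w = 0) (hα : ψ ⬝ᵥ v = 0) (hβ : φ ⬝ᵥ w = 0)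
    (c d : F) : tvE v φ h0 c * tvE w ψ h1 d = tvE w ψ h1 d * tvE v φ h0 c := by
  apply Subtype.ext
  simp only [Matrix.SpecialLinearGroup.coe_mul, tvE_coe]
  simp only [mul_add, add_mul, mul_one, one_mul, smul_mul_assoc, mul_smul_comm, tv_vmv_mul, hα, hβ, zero_smul,
    smul_zero, add_zero]
  abel

theorem rootT_commutator_bot {v φ w ψ : ι → F} (h0 : φ ⬝ᵥ v = 0) (h1 : ψ ⬝ᵥ w = 0) (hα : ψ ⬝ᵥ v = 0)
    (hβ : φ ⬝ᵥ w = 0) : ⁅rootT v φ h0, rootT w ψ h1⁆ = ⊥ := by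
  apply commutator_eq_bot_of_comm
  rintro _ ⟨c, rfl⟩ _ ⟨d, rfl⟩
  exact tvE_commute h0 h1 hα hβ c d

/-- The commutator formula. -/
theorem tvE_commutator {v φ w ψ : ι → F} (h0 : φ ⬝ᵥ v = 0) (h1 : ψ ⬝ᵥ w = 0) (hα : ψ ⬝ᵥ v = 0) (c d : F) :
    tvE v φ h0 c * tvE w ψ h1 d * (tvE v φ h0 c)⁻¹ * (tvE w ψ h1 d)⁻¹ = tvE v ψ hα (c * d * (φ ⬝ᵥ w)) := by
  have e : tvE v φ h0 c * tvE w ψ h1 d = tvE v ψ hα (c * d * (φ ⬝ᵥ w)) * (tvE w ψ h1 d * tvE v φ h0 c) := by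
    apply Subtype.ext
    simp only [Matrix.SpecialLinearGroup.coe_mul, tvE_coe]
    simp only [mul_add, add_mul, mul_one, one_mul, smul_mul_assoc, mul_smul_comm, tv_vmv_mul, hα, h1, zero_smul,
      smul_zero, add_zero]
    module
  rw [e]
  group

variable {v φ w ψ : ι → F} {h0 : φ ⬝ᵥ v = 0} {h1 : ψ ⬝ᵥ w = 0}

theorem rootT_commCase {S : Set (Subgroup SLι)} (hα : ψ ⬝ᵥ v = 0) (hβ : φ ⬝ᵥ w ≠ 0) (hC : rootT v ψ hα ∈ S)
    (hv : v ≠ 0) (hφ : φ ≠ 0) (hw : w ≠ 0) (hψ : ψ ≠ 0) :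
    RootCommutatorCase S (rootT v φ h0) (rootT w ψ h1) := by
  have hcomm : ⁅rootT v φ h0, rootT w ψ h1⁆ = rootT v ψ hα := by
    apply le_antisymm
    · rw [Subgroup.commutator_le]
      rintro _ ⟨c, rfl⟩ _ ⟨d, rfl⟩
      rw [commutatorElement_def, tvE_commutator h0 h1 hα]
      exact tvE_mem _ _ _ _
    · rintro _ ⟨s, rfl⟩
      have e := tvE_commutator h0 h1 hα 1 (s * (φ ⬝ᵥ w)⁻¹)
      have e2 : 1 * (s * (φ ⬝ᵥ w)⁻¹) * (φ ⬝ᵥ w) = s := by
        field_simp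
      rw [e2] at e
      rw [← e, ← commutatorElement_def]
      exact Subgroup.commutator_mem_commutator (tvE_mem _ _ _ _) (tvE_mem _ _ _ _)
  refine ⟨hcomm ▸ hC, ?_, ?_, ?_⟩
  · rw [hcomm]
    rintro _ ⟨s, rfl⟩ x hx
    symm
    refine comm_of_sup ?_ ?_ x hx
    · rintro _ ⟨c, rfl⟩
      exact tvE_commute h0 hα hα h0 c s
    · rintro _ ⟨d, rfl⟩
      exact tvE_commute h1 hα h1 hα d s
  · rintro _ ⟨c, rfl⟩ hc
    have hc0 : c ≠ 0 := by
      rintro rfl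
      exact hc (tvE_zero _ _ _)
    apply le_antisymm
    · rw [Subgroup.closure_le]
      rintro _ ⟨b, hb, rfl⟩
      have := Subgroup.commutator_mem_commutator (tvE_mem v φ h0 c) hb
      rwa [commutatorElement_def] at this
    · rw [hcomm]
      rintro _ ⟨s, rfl⟩
      apply Subgroup.subset_closure
      refine ⟨tvE w ψ h1 (s * (c * (φ ⬝ᵥ w))⁻¹), tvE_mem _ _ _ _, ?_⟩
      show _ * _ * _ * _ = _
      rw [tvE_commutator h0 h1 hα]
      congr 1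
      field_simp
  · rintro _ ⟨d, rfl⟩ hd
    have hd0 : d ≠ 0 := by
      rintro rfl
      exact hd (tvE_zero _ _ _)
    apply le_antisymm
    · rw [Subgroup.closure_le]
      rintro _ ⟨a, ha, rfl⟩
      have := Subgroup.commutator_mem_commutator ha (tvE_mem w ψ h1 d)
      rwa [commutatorElement_def] at this
    · rw [hcomm]
      rintro _ ⟨s, rfl⟩
      apply Subgroup.subset_closure
      refine ⟨tvE v φ h0 (s * (d * (φ ⬝ᵥ w))⁻¹), tvE_mem _ _ _ _, ?_⟩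
      show _ * _ * _ * _ = _
      rw [tvE_commutator h0 h1 hα]
      congr 1
      field_simp

end general

section hom

variable {F ι : Type*} [Field F] [Fintype ι] [DecidableEq ι]

local notation "SL2F" => Matrix.SpecialLinearGroup (Fin 2) F

theorem tvMat_key {E : Matrix ι (Fin 2) F} {P : Matrix (Fin 2) ι F} (h : P * E = 1)
    (U V : Matrix (Fin 2) (Fin 2) F) : (E * U * P) * (E * V * P) = E * (U * V) * P := by
  simp only [Matrix.mul_assoc]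
  rw [← Matrix.mul_assoc P E, h, Matrix.one_mul]

/-- The embedding of `SL₂` given by a pair of matrices. -/
def tvMat (E : Matrix ι (Fin 2) F) (P : Matrix (Fin 2) ι F) (h : P * E = 1) : SL2F →* Matrix ι ι F where
  toFun X := 1 + E * ((X : Matrix (Fin 2) (Fin 2) F) - 1) * P
  map_one' := by simp
  map_mul' X Y := by
    have e : ((X * Y : SL2F) : Matrix (Fin 2) (Fin 2) F) - 1 =
        ((X : Matrix (Fin 2) (Fin 2) F) - 1) + ((Y : Matrix (Fin 2) (Fin 2) F) - 1) +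
          ((X : Matrix (Fin 2) (Fin 2) F) - 1) * ((Y : Matrix (Fin 2) (Fin 2) F) - 1) := by
      rw [Matrix.SpecialLinearGroup.coe_mul]
      noncomm_ring
    have e2 : ∀ a b : Matrix ι ι F, (1 + a) * (1 + b) = 1 + (a + b + a * b) := fun a b => by noncomm_ring
    rw [e, e2, tvMat_key h, Matrix.mul_add, Matrix.mul_add, Matrix.add_mul, Matrix.add_mul]

theorem tvMat_apply (E : Matrix ι (Fin 2) F) (P : Matrix (Fin 2) ι F) (h : P * E = 1) (X : SL2F) :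
    tvMat E P h X = 1 + E * ((X : Matrix (Fin 2) (Fin 2) F) - 1) * P := rfl

theorem tvMat_inj (E : Matrix ι (Fin 2) F) (P : Matrix (Fin 2) ι F) (h : P * E = 1) :
    Function.Injective (tvMat E P h) := by
  intro X Y hXY
  rw [tvMat_apply, tvMat_apply] at hXY
  have h1 := add_left_cancel hXY
  have h2 : P * (E * ((X : Matrix (Fin 2) (Fin 2) F) - 1) * P) * E = P * (E * ((Y : Matrix (Fin 2) (Fin 2) F) - 1) * P) * E := by
    rw [h1]
  have e : ∀ U : Matrix (Fin 2) (Fin 2) F, P * (E * U * P) * E = U := by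
    intro U
    simp only [Matrix.mul_assoc]
    rw [h, Matrix.mul_one, ← Matrix.mul_assoc, h, Matrix.one_mul]
  rw [e, e] at h2
  apply Subtype.ext
  exact sub_left_inj.mp h2

theorem tvMat_det (E : Matrix ι (Fin 2) F) (P : Matrix (Fin 2) ι F) (h : P * E = 1) (X : SL2F) :
    (tvMat E P h X).det = 1 := by
  rw [tvMat_apply, Matrix.det_one_add_mul_comm, ← Matrix.mul_assoc, h, Matrix.one_mul]
  rw [add_sub_cancel]
  exact X.2

/-- The embedding into the special linear group. -/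
def tvHomSL (E : Matrix ι (Fin 2) F) (P : Matrix (Fin 2) ι F) (h : P * E = 1) :
    SL2F →* Matrix.SpecialLinearGroup ι F where
  toFun X := ⟨tvMat E P h X, tvMat_det E P h X⟩
  map_one' := Subtype.ext (map_one _)
  map_mul' X Y := Subtype.ext (map_mul _ X Y)

theorem tvHomSL_coe (E : Matrix ι (Fin 2) F) (P : Matrix (Fin 2) ι F) (h : P * E = 1) (X : SL2F) :
    ((tvHomSL E P h X : Matrix.SpecialLinearGroup ι F) : Matrix ι ι F) = tvMat E P h X := rfl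

theorem tvHomSL_inj (E : Matrix ι (Fin 2) F) (P : Matrix (Fin 2) ι F) (h : P * E = 1) :
    Function.Injective (tvHomSL E P h) := by
  intro X Y hXY
  apply tvMat_inj E P h
  have := congrArg Subtype.val hXY
  exact this

/-- Columns. -/
def eMat (v w : ι → F) : Matrix ι (Fin 2) F := Matrix.of fun i j => ![v i, w i] j

/-- Rows. -/
def pMat (f g : ι → F) : Matrix (Fin 2) ι F := Matrix.of fun r j => ![f j, g j] r

theorem pMat_mul_eMat {f g v w : ι → F} (h1 : f ⬝ᵥ v = 1) (h2 : f ⬝ᵥ w = 0) (h3 : g ⬝ᵥ v = 0) (h4 : g ⬝ᵥ w = 1) :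
    pMat f g * eMat v w = 1 := by
  ext r s
  fin_cases r <;> fin_cases s
  · simpa [Matrix.mul_apply, pMat, eMat, dotProduct] using h1
  · simpa [Matrix.mul_apply, pMat, eMat, dotProduct] using h2
  · simpa [Matrix.mul_apply, pMat, eMat, dotProduct] using h3
  · simpa [Matrix.mul_apply, pMat, eMat, dotProduct] using h4

theorem eMat_mul_pMat (v w f g : ι → F) (U : Matrix (Fin 2) (Fin 2) F) :
    eMat v w * U * pMat f g = U 0 0 • vecMulVec v f + U 0 1 • vecMulVec v g + U 1 0 • vecMulVec w f +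
      U 1 1 • vecMulVec w g := by
  ext i j
  simp only [Matrix.mul_apply, Fin.sum_univ_two, pMat, eMat, Matrix.of_apply, Matrix.add_apply, Matrix.smul_apply,
    vecMulVec_apply, smul_eq_mul, Matrix.cons_val_zero, Matrix.cons_val_one]
  ring

theorem tvMat_bU {v w f g : ι → F} (h : pMat f g * eMat v w = 1) (y : F) :
    tvMat (eMat v w) (pMat f g) h (bU y) = 1 + y • vecMulVec v g := by
  rw [tvMat_apply, eMat_mul_pMat]
  have e : ((bU y : SL2F) : Matrix (Fin 2) (Fin 2) F) - 1 = !![0, y; 0, 0] := by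
    ext r s
    fin_cases r <;> fin_cases s <;> simp [bU]
  rw [e]
  simp

theorem tvMat_aL {v w f g : ι → F} (h : pMat f g * eMat v w = 1) (x : F) :
    tvMat (eMat v w) (pMat f g) h (aL x) = 1 + x • vecMulVec w f := by
  rw [tvMat_apply, eMat_mul_pMat]
  have e : ((aL x : SL2F) : Matrix (Fin 2) (Fin 2) F) - 1 = !![0, 0; x, 0] := by
    ext r s
    fin_cases r <;> fin_cases s <;> simp [aL]
  rw [e]
  simp

variable {v φ w ψ : ι → F} {h0 : φ ⬝ᵥ v = 0} {h1 : ψ ⬝ᵥ w = 0}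

/-- The rank one case. -/
theorem rootT_rankOne_data (hα : ψ ⬝ᵥ v ≠ 0) (hβ : φ ⬝ᵥ w ≠ 0) :
    ∃ Φ : SL2F →* Matrix.SpecialLinearGroup ι F, Function.Injective Φ ∧
      (upperUnipotentSL2 F).map Φ = rootT v φ h0 ∧ (lowerUnipotentSL2 F).map Φ = rootT w ψ h1 := by
  have hP : pMat ((ψ ⬝ᵥ v)⁻¹ • ψ) ((φ ⬝ᵥ w)⁻¹ • φ) * eMat v w = 1 := by
    apply pMat_mul_eMat
    · rw [smul_dotProduct, smul_eq_mul, inv_mul_cancel₀ hα]
    · rw [smul_dotProduct, h1, smul_zero]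
    · rw [smul_dotProduct, h0, smul_zero]
    · rw [smul_dotProduct, smul_eq_mul, inv_mul_cancel₀ hβ]
  refine ⟨tvHomSL _ _ hP, tvHomSL_inj _ _ hP, ?_, ?_⟩
  · have key : ∀ y, tvHomSL _ _ hP (bU y) = tvE v φ h0 (y * (φ ⬝ᵥ w)⁻¹) := by
      intro y
      apply Subtype.ext
      rw [tvHomSL_coe, tvMat_bU, tvE_coe, vmv_smul_right, smul_smul]
    ext t
    constructor
    · rintro ⟨X, hX, rfl⟩
      rw [eq_bU hX, key]
      exact tvE_mem _ _ _ _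
    · rintro ⟨c, rfl⟩
      refine ⟨bU (c * (φ ⬝ᵥ w)), bU_mem _, ?_⟩
      rw [key, mul_assoc, mul_inv_cancel₀ hβ, mul_one]
  · have key : ∀ x, tvHomSL _ _ hP (aL x) = tvE w ψ h1 (x * (ψ ⬝ᵥ v)⁻¹) := by
      intro x
      apply Subtype.ext
      rw [tvHomSL_coe, tvMat_aL, tvE_coe, vmv_smul_right, smul_smul]
    ext t
    constructor
    · rintro ⟨X, hX, rfl⟩
      rw [eq_aL hX, key]
      exact tvE_mem _ _ _ _
    · rintro ⟨c, rfl⟩
      refine ⟨aL (c * (ψ ⬝ᵥ v)), aL_mem _, ?_⟩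
      rw [key, mul_assoc, mul_inv_cancel₀ hα, mul_one]

theorem rootT_rankOne (hα : ψ ⬝ᵥ v ≠ 0) (hβ : φ ⬝ᵥ w ≠ 0) : IsRankOnePair (rootT v φ h0) (rootT w ψ h1) := by
  obtain ⟨Φ, hinj, hU, hL⟩ := rootT_rankOne_data (h0 := h0) (h1 := h1) hα hβ
  rw [← hU, ← hL]
  exact rankOne_map Φ hinj isRankOnePair_lower_upper.symm

theorem rootT_psl2 (hα : ψ ⬝ᵥ v ≠ 0) (hβ : φ ⬝ᵥ w ≠ 0) : IsPSL2PairOver F (rootT v φ h0) (rootT w ψ h1) := by
  obtain ⟨Φ, hinj, hU, hL⟩ := rootT_rankOne_data (h0 := h0) (h1 := h1) hα hβ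
  rw [← hU, ← hL]
  apply psl2_of_hom
  rw [(MonoidHom.ker_eq_bot_iff Φ).mpr hinj]
  exact bot_le

/-- A common partner. -/
theorem exists_bridge (hv : v ≠ 0) (hφ : φ ≠ 0) (hw : w ≠ 0) (hψ : ψ ≠ 0) (h0 : φ ⬝ᵥ v = 0) (h1 : ψ ⬝ᵥ w = 0) :
    ∃ u ρ : ι → F, ρ ⬝ᵥ u = 0 ∧ ρ ⬝ᵥ v ≠ 0 ∧ φ ⬝ᵥ u ≠ 0 ∧ ψ ⬝ᵥ u ≠ 0 ∧ ρ ⬝ᵥ w ≠ 0 := by
  have hd : ∀ {x : ι → F}, x ≠ 0 → ∃ y : ι → F, y ⬝ᵥ x ≠ 0 := by
    intro x hx
    obtain ⟨i, hi⟩ := Function.ne_iff.mp hx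
    exact ⟨Pi.single i 1, by simpa [single_dotProduct] using hi⟩
  have hd' : ∀ {x : ι → F}, x ≠ 0 → ∃ y : ι → F, x ⬝ᵥ y ≠ 0 := by
    intro x hx
    obtain ⟨i, hi⟩ := Function.ne_iff.mp hx
    exact ⟨Pi.single i 1, by simpa [dotProduct_single] using hi⟩
  -- the vector `u`
  obtain ⟨u, hu1, hu2⟩ : ∃ u : ι → F, φ ⬝ᵥ u ≠ 0 ∧ ψ ⬝ᵥ u ≠ 0 := by
    obtain ⟨u₁, h₁⟩ := hd' hφ
    obtain ⟨u₂, h₂⟩ := hd' hψ
    by_cases h3 : ψ ⬝ᵥ u₁ = 0
    · by_cases h4 : φ ⬝ᵥ u₂ = 0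
      · refine ⟨u₁ + u₂, ?_, ?_⟩
        · rwa [dotProduct_add, h4, add_zero]
        · rwa [dotProduct_add, h3, zero_add]
      · exact ⟨u₂, h4, h₂⟩
    · exact ⟨u₁, h₁, h3⟩
  -- the functional
  obtain ⟨θ₁, hθ₁⟩ := hd hv
  obtain ⟨θ₂, hθ₂⟩ := hd hw
  set ρ₁ := θ₁ - ((θ₁ ⬝ᵥ u) * (φ ⬝ᵥ u)⁻¹) • φ with hρ₁
  set ρ₂ := θ₂ - ((θ₂ ⬝ᵥ u) * (ψ ⬝ᵥ u)⁻¹) • ψ with hρ₂
  have a1 : ρ₁ ⬝ᵥ u = 0 := by
    rw [hρ₁, sub_dotProduct, smul_dotProduct, smul_eq_mul]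
    field_simp
    ring
  have a2 : ρ₂ ⬝ᵥ u = 0 := by
    rw [hρ₂, sub_dotProduct, smul_dotProduct, smul_eq_mul]
    field_simp
    ring
  have a3 : ρ₁ ⬝ᵥ v ≠ 0 := by
    rw [hρ₁, sub_dotProduct, smul_dotProduct, h0, smul_zero, sub_zero]
    exact hθ₁
  have a4 : ρ₂ ⬝ᵥ w ≠ 0 := by
    rw [hρ₂, sub_dotProduct, smul_dotProduct, h1, smul_zero, sub_zero]
    exact hθ₂
  by_cases b1 : ρ₁ ⬝ᵥ w = 0
  · by_cases b2 : ρ₂ ⬝ᵥ v = 0
    · refine ⟨u, ρ₁ + ρ₂, ?_, ?_, hu1, hu2, ?_⟩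
      · rw [add_dotProduct, a1, a2, add_zero]
      · rwa [add_dotProduct, b2, add_zero]
      · rwa [add_dotProduct, b1, zero_add]
    · exact ⟨u, ρ₂, a2, b2, hu1, hu2, a4⟩
  · exact ⟨u, ρ₁, a1, a3, hu1, hu2, b1⟩

end hom

end Cfsg.Agent.Lib.Root
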