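import Mathlib
import Cfsg.Agent.Lib.Root.TvRoot
import Cfsg.Agent.Lib.Root.CommCase

/-! Transport of root subgroup data to the subgroup generated by the family. -/

set_option autoImplicit false

namespace Cfsg.Agent.Lib.Root

open Cfsg

variable {G : Type*} [Group G]

theorem comm_of_map_eq {H : Subgroup G} {A B C : Subgroup H}
    (h : A.map H.subtype = B.map H.subtype) (hC : C = C) : A = B :=
  Subgroup.map_injective H.subtype_injective h

theorem map_subgroupOf_self {H A : Subgroup G} (h : A ≤ H) : (A.subgroupOf H).map H.subtype = A :=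
  Subgroup.map_subgroupOf_eq_of_le h

/-- Reflection of rank one pairs along an injective homomorphism. -/
theorem rankOne_of_map {K : Type*} [Group K] (Φ : K →* G) (hinj : Function.Injective Φ) {A B : Subgroup K}
    (h : IsRankOnePair (A.map Φ) (B.map Φ)) : IsRankOnePair A B := by
  have hcond : ∀ {A B : Subgroup K}, RankOneCondition (A.map Φ) (B.map Φ) → RankOneCondition A B := by
    intro A B h a ha ha1
    have ha1' : Φ a ≠ 1 := fun h1 => ha1 (hinj (by rw [h1, map_one]))
    obtain ⟨_, ⟨b, hb, rfl⟩, hb1, hrel⟩ := h (Φ a) ⟨a, ha, rfl⟩ ha1'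
    refine ⟨b, hb, fun h1 => hb1 (by rw [h1, map_one]), ?_⟩
    rw [← map_inv, ← map_inv, conjBy_map, conjBy_map] at hrel
    exact Subgroup.map_injective hinj hrel
  refine ⟨fun e => h.ne (by rw [e]), ?_, ?_, hcond h.cond_left, hcond h.cond_right⟩
  · haveI := h.nilpotent_left
    exact Group.nilpotent_of_surjective (A.equivMapOfInjective Φ hinj).symm.toMonoidHom
      (A.equivMapOfInjective Φ hinj).symm.surjective
  · haveI := h.nilpotent_right
    exact Group.nilpotent_of_surjective (B.equivMapOfInjective Φ hinj).symm.toMonoidHom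
      (B.equivMapOfInjective Φ hinj).symm.surjective

/-- A pair in the subgroup. -/
theorem rankOne_subgroupOf {H A B : Subgroup G} (hA : A ≤ H) (hB : B ≤ H) (h : IsRankOnePair A B) :
    IsRankOnePair (A.subgroupOf H) (B.subgroupOf H) := by
  apply rankOne_of_map H.subtype H.subtype_injective
  rwa [map_subgroupOf_self hA, map_subgroupOf_self hB]

theorem rankOne_of_subgroupOf {H A B : Subgroup G} (hA : A ≤ H) (hB : B ≤ H)
    (h : IsRankOnePair (A.subgroupOf H) (B.subgroupOf H)) : IsRankOnePair A B := by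
  have := rankOne_map H.subtype H.subtype_injective h
  rwa [map_subgroupOf_self hA, map_subgroupOf_self hB] at this

theorem commutator_subgroupOf {H A B : Subgroup G} (hA : A ≤ H) (hB : B ≤ H) :
    ⁅A.subgroupOf H, B.subgroupOf H⁆ = (⁅A, B⁆ : Subgroup G).subgroupOf H := by
  apply Subgroup.map_injective H.subtype_injective
  rw [Subgroup.map_commutator, map_subgroupOf_self hA, map_subgroupOf_self hB,
    map_subgroupOf_self (commutator_le_of_le hA hB)]
  where
    commutator_le_of_le {H A B : Subgroup G} (hA : A ≤ H) (hB : B ≤ H) : (⁅A, B⁆ : Subgroup G) ≤ H := by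
      rw [Subgroup.commutator_le]
      intro a ha b hb
      have ha' := hA ha
      have hb' := hB hb
      rw [commutatorElement_def]
      exact mul_mem (mul_mem (mul_mem ha' hb') (inv_mem ha')) (inv_mem hb')

theorem commutator_le_of_le' {H A B : Subgroup G} (hA : A ≤ H) (hB : B ≤ H) : (⁅A, B⁆ : Subgroup G) ≤ H := by
  rw [Subgroup.commutator_le]
  intro a ha b hb
  have ha' := hA ha
  have hb' := hB hb
  rw [commutatorElement_def]
  exact mul_mem (mul_mem (mul_mem ha' hb') (inv_mem ha')) (inv_mem hb')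

theorem conjBy_subgroupOf {H A : Subgroup G} (hA : A ≤ H) (g : H) (hc : conjBy A (g : G) ≤ H) :
    conjBy (A.subgroupOf H) g = (conjBy A (g : G)).subgroupOf H := by
  apply Subgroup.map_injective H.subtype_injective
  have := conjBy_map H.subtype (A.subgroupOf H) g
  rw [← this, map_subgroupOf_self hA, map_subgroupOf_self hc]
  rfl

/-- The family inside the subgroup it generates. -/
abbrev subFam (S : Set (Subgroup G)) : Set (Subgroup ↥(⨆ B ∈ S, B)) :=
  (fun A : Subgroup G => A.subgroupOf (⨆ B ∈ S, B)) '' S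

theorem le_famSup {S : Set (Subgroup G)} {A : Subgroup G} (hA : A ∈ S) : A ≤ ⨆ B ∈ S, B :=
  le_iSup₂_of_le A hA le_rfl

theorem commCase_sub {S : Set (Subgroup G)} {A B : Subgroup G} (hA : A ∈ S) (hB : B ∈ S)
    (h : RootCommutatorCase S A B) :
    RootCommutatorCase (subFam S) (A.subgroupOf (⨆ B ∈ S, B)) (B.subgroupOf (⨆ B ∈ S, B)) := by
  have hA' := le_famSup hA
  have hB' := le_famSup hB
  have hcm := commutator_subgroupOf hA' hB'
  have hC' : (⁅A, B⁆ : Subgroup G) ≤ ⨆ B ∈ S, B := commutator_le_of_le' hA' hB'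
  refine ⟨?_, ?_, ?_, ?_⟩
  · rw [hcm]
    exact ⟨_, h.1, rfl⟩
  · intro c hc x hx
    apply Subtype.ext
    have h1 : (c : G) ∈ ⁅A, B⁆ := by
      rw [hcm] at hc
      exact hc
    have h2 : (x : G) ∈ A ⊔ B := by
      have : (x : G) ∈ ((A.subgroupOf (⨆ B ∈ S, B)) ⊔ (B.subgroupOf (⨆ B ∈ S, B))).map (⨆ B ∈ S, B).subtype :=
        ⟨x, hx, rfl⟩
      rwa [Subgroup.map_sup, map_subgroupOf_self hA', map_subgroupOf_self hB'] at this
    exact h.2.1 _ h1 _ h2
  · intro a ha ha1
    have ha1' : (a : G) ≠ 1 := fun e => ha1 (Subtype.ext e)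
    have key := h.2.2.1 a ha ha1'
    apply Subgroup.map_injective (⨆ B ∈ S, B).subtype_injective
    rw [hcm, map_subgroupOf_self hC', MonoidHom.map_closure, ← key]
    congr 1
    ext y
    constructor
    · rintro ⟨_, ⟨b, hb, rfl⟩, rfl⟩
      exact ⟨b, hb, rfl⟩
    · rintro ⟨b, hb, rfl⟩
      exact ⟨_, ⟨⟨b, hB' hb⟩, hb, rfl⟩, rfl⟩
  · intro b hb hb1
    have hb1' : (b : G) ≠ 1 := fun e => hb1 (Subtype.ext e)
    have key := h.2.2.2 b hb hb1'
    apply Subgroup.map_injective (⨆ B ∈ S, B).subtype_injective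
    rw [hcm, map_subgroupOf_self hC', MonoidHom.map_closure, ← key]
    congr 1
    ext y
    constructor
    · rintro ⟨_, ⟨a, ha, rfl⟩, rfl⟩
      exact ⟨a, ha, rfl⟩
    · rintro ⟨a, ha, rfl⟩
      exact ⟨_, ⟨⟨a, hA' ha⟩, ha, rfl⟩, rfl⟩

/-- The main transport. -/
theorem subFam_root {S : Set (Subgroup G)} (hc : ∀ A ∈ S, IsMulCommutative A) (hne : ∀ A ∈ S, A ≠ ⊥)
    (hconj : ∀ A ∈ S, ∀ g ∈ (⨆ B ∈ S, B), conjBy A g ∈ S)
    (hpair : ∀ A ∈ S, ∀ B ∈ S, ⁅A, B⁆ = ⊥ ∨ IsRankOnePair A B ∨ RootCommutatorCase S A B) :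
    IsRootSubgroupSet (subFam S) where
  commutative := by
    rintro _ ⟨A, hA, rfl⟩
    haveI := hc A hA
    constructor
    constructor
    rintro ⟨x, hx⟩ ⟨y, hy⟩
    have : (⟨x.1, hx⟩ : A) * ⟨y.1, hy⟩ = ⟨y.1, hy⟩ * ⟨x.1, hx⟩ := mul_comm' _ _
    have h2 := congrArg Subtype.val this
    apply Subtype.ext
    apply Subtype.ext
    exact h2
  ne_bot := by
    rintro _ ⟨A, hA, rfl⟩ h0
    apply hne A hA
    have := map_subgroupOf_self (le_famSup hA)
    show A = ⊥
    rw [← this]
    simp only at h0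
    rw [h0, Subgroup.map_bot]
  generates := by
    apply Subgroup.map_injective (⨆ B ∈ S, B).subtype_injective
    rw [iSup_image, ← MonoidHom.range_eq_map, Subgroup.range_subtype]
    simp only [Subgroup.map_iSup]
    apply iSup_congr
    intro A
    apply iSup_congr
    intro hA
    exact map_subgroupOf_self (le_famSup hA)
  conj_mem := by
    rintro _ ⟨A, hA, rfl⟩ g
    exact ⟨_, hconj A hA g g.2, (conjBy_subgroupOf (le_famSup hA) g (le_famSup (hconj A hA g g.2))).symm⟩
  pair := by
    rintro _ ⟨A, hA, rfl⟩ _ ⟨B, hB, rfl⟩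
    rcases hpair A hA B hB with h | h | h
    · left
      show ⁅A.subgroupOf _, B.subgroupOf _⁆ = ⊥
      rw [commutator_subgroupOf (le_famSup hA) (le_famSup hB), h]
      exact Subgroup.bot_subgroupOf _
    · right; left
      exact rankOne_subgroupOf (le_famSup hA) (le_famSup hB) h
    · right; right
      exact commCase_sub hA hB h

/-- Images of `SL₂` in the subgroup. -/
theorem psl2_sub {k : Type*} [Field k] {H A B : Subgroup G} (hA : A ≤ H) (hB : B ≤ H) (h : IsPSL2PairOver k A B) :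
    IsPSL2PairOver k (A.subgroupOf H) (B.subgroupOf H) := by
  obtain ⟨φ, hr, hk, hu, hl⟩ := h
  have hle : φ.range ≤ H := by
    rw [hr]
    exact sup_le hA hB
  let φ' : Matrix.SpecialLinearGroup (Fin 2) k →* H := φ.codRestrict H (fun x => hle ⟨x, rfl⟩)
  have hφ' : ∀ x, ((φ' x : H) : G) = φ x := fun x => rfl
  have hcomp : H.subtype.comp φ' = φ := by
    ext x
    rfl
  refine ⟨φ', ?_, ?_, ?_, ?_⟩
  · apply Subgroup.map_injective H.subtype_injective
    rw [Subgroup.map_sup, map_subgroupOf_self hA, map_subgroupOf_self hB, ← hr, MonoidHom.map_range, hcomp]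
  · intro x hx
    apply hk
    rw [MonoidHom.mem_ker] at hx ⊢
    have := congrArg Subtype.val hx
    exact this
  · apply Subgroup.map_injective H.subtype_injective
    rw [map_subgroupOf_self hA, Subgroup.map_map, hcomp, hu]
  · apply Subgroup.map_injective H.subtype_injective
    rw [map_subgroupOf_self hB, Subgroup.map_map, hcomp, hl]

/-- Paths. -/
theorem subFam_conn {S : Set (Subgroup G)} (h : IsConnectedFamily (FAdj S) S) :
    IsConnectedFamily (FAdj (subFam S)) (subFam S) := by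
  rintro _ ⟨A, hA, rfl⟩ _ ⟨B, hB, rfl⟩
  have key : ∀ C D : Subgroup G, Relation.ReflTransGen (FAdj S) C D → C ∈ S →
      Relation.ReflTransGen (FAdj (subFam S)) (C.subgroupOf (⨆ B ∈ S, B)) (D.subgroupOf (⨆ B ∈ S, B)) := by
    intro C D hCD hC
    induction hCD with
    | refl => exact Relation.ReflTransGen.refl
    | tail _ hbc ih =>
      refine ih.tail ⟨⟨_, hbc.1, rfl⟩, ⟨_, hbc.2.1, rfl⟩, ?_⟩
      exact rankOne_subgroupOf (le_famSup hbc.1) (le_famSup hbc.2.1) hbc.2.2
  exact key A B (h A hA B hB) hA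

/-- Two members of the image with the rank one relation. -/
theorem rankOne_of_sub {S : Set (Subgroup G)} {A B : Subgroup G} (hA : A ∈ S) (hB : B ∈ S)
    (h : IsRankOnePair (A.subgroupOf (⨆ B ∈ S, B)) (B.subgroupOf (⨆ B ∈ S, B))) : IsRankOnePair A B :=
  rankOne_of_subgroupOf (le_famSup hA) (le_famSup hB) h

end Cfsg.Agent.Lib.Root
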