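import Mathlib
import Cfsg.Prelude.Def_Classical
import Cfsg.Agent.Lib.Root.SubFam

/-! Siegel transvection groups of the hyperbolic quadratic form: pairs of singular lines. -/

set_option autoImplicit false

namespace Cfsg.Agent.Lib.Root.Siegel

open Matrix Cfsg Cfsg.Agent.Lib.Root

variable {F : Type*} [Field F] {N : ℕ}

local notation "V" => (Fin N ⊕ Fin N → F)
local notation "QQ" => Cfsg.quadFormPlus N F

/-- The polar form. -/
def ff (u v : Fin N ⊕ Fin N → F) : F := QQ (u + v) - QQ u - QQ v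

theorem ff_eq (u v : V) : ff u v = ∑ i, (u (.inl i) * v (.inr i) + v (.inl i) * u (.inr i)) := by
  simp only [ff, Cfsg.quadFormPlus, Pi.add_apply]
  rw [← Finset.sum_sub_distrib, ← Finset.sum_sub_distrib]
  apply Finset.sum_congr rfl
  intro i _
  ring

theorem QQ_add (u v : V) : QQ (u + v) = QQ u + QQ v + ff u v := by
  simp only [ff]
  ring

theorem QQ_smul (c : F) (u : V) : QQ (c • u) = c ^ 2 * QQ u := by
  simp only [Cfsg.quadFormPlus, Pi.smul_apply, smul_eq_mul, Finset.mul_sum]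
  apply Finset.sum_congr rfl
  intro i _
  ring

theorem ff_comm (u v : V) : ff u v = ff v u := by
  rw [ff_eq, ff_eq]
  apply Finset.sum_congr rfl
  intro i _
  ring

theorem ff_add_left (u u' v : V) : ff (u + u') v = ff u v + ff u' v := by
  simp only [ff_eq, Pi.add_apply]
  rw [← Finset.sum_add_distrib]
  apply Finset.sum_congr rfl
  intro i _
  ring

theorem ff_add_right (u v v' : V) : ff u (v + v') = ff u v + ff u v' := by
  rw [ff_comm, ff_add_left, ff_comm v, ff_comm v']

theorem ff_smul_left (c : F) (u v : V) : ff (c • u) v = c * ff u v := by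
  simp only [ff_eq, Pi.smul_apply, smul_eq_mul, Finset.mul_sum]
  apply Finset.sum_congr rfl
  intro i _
  ring

theorem ff_smul_right (c : F) (u v : V) : ff u (c • v) = c * ff u v := by
  rw [ff_comm, ff_smul_left, ff_comm]

theorem ff_neg_left (u v : V) : ff (-u) v = - ff u v := by
  have : -u = (-1 : F) • u := by simp
  rw [this, ff_smul_left]
  ring

theorem ff_neg_right (u v : V) : ff u (-v) = - ff u v := by
  rw [ff_comm, ff_neg_left, ff_comm]

theorem ff_sub_left (u u' v : V) : ff (u - u') v = ff u v - ff u' v := by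
  rw [sub_eq_add_neg, ff_add_left, ff_neg_left]
  ring

theorem ff_sub_right (u v v' : V) : ff u (v - v') = ff u v - ff u v' := by
  rw [ff_comm, ff_sub_left, ff_comm v, ff_comm v']

theorem ff_self (u : V) : ff u u = 2 * QQ u := by
  have h := QQ_smul (2 : F) u
  have e : (2 : F) • u = u + u := two_smul F u
  rw [e, QQ_add] at h
  linear_combination h

theorem ff_self_zero {u : V} (h : QQ u = 0) : ff u u = 0 := by
  rw [ff_self, h, mul_zero]

theorem ff_zero_left (v : V) : ff (0 : V) v = 0 := by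
  have : (0 : V) = (0 : F) • (0 : V) := by simp
  rw [this, ff_smul_left, zero_mul]

theorem ff_zero_right (v : V) : ff v (0 : V) = 0 := by
  rw [ff_comm, ff_zero_left]

theorem QQ_zero : QQ (0 : V) = 0 := by
  simp [Cfsg.quadFormPlus]

theorem ff_nondeg {u : V} (h : ∀ x, ff x u = 0) : u = 0 := by
  funext j
  rcases j with i | i
  · have := h (Pi.single (.inr i) 1)
    rw [ff_eq, Finset.sum_eq_single i] at this
    · simpa using this
    · intro k _ hk
      simp [hk]
    · simp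
  · have := h (Pi.single (.inl i) 1)
    rw [ff_eq, Finset.sum_eq_single i] at this
    · simpa using this
    · intro k _ hk
      simp [hk]
    · simp

/-- The gradient of the form. -/
def grad (u : Fin N ⊕ Fin N → F) : Fin N ⊕ Fin N → F := Sum.elim (fun i => u (.inr i)) (fun i => u (.inl i))

theorem grad_dot (u x : V) : grad u ⬝ᵥ x = ff x u := by
  rw [ff_eq]
  simp only [dotProduct, Fintype.sum_sum_type, grad, Sum.elim_inl, Sum.elim_inr]
  rw [← Finset.sum_add_distrib]
  apply Finset.sum_congr rfl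
  intro i _
  ring

/-- The Siegel matrix. -/
def sgM (u v : Fin N ⊕ Fin N → F) (c : F) : Matrix (Fin N ⊕ Fin N) (Fin N ⊕ Fin N) F :=
  1 + c • (vecMulVec v (grad u) - vecMulVec u (grad v))

theorem sgM_mulVec (u v : V) (c : F) (x : V) : sgM u v c *ᵥ x = x + c • (ff x u • v - ff x v • u) := by
  simp only [sgM, add_mulVec, one_mulVec, smul_mulVec, sub_mulVec, vecMulVec_mulVec, grad_dot, op_smul_eq_smul]

theorem mat_ext' {A B : Matrix (Fin N ⊕ Fin N) (Fin N ⊕ Fin N) F} (h : ∀ x : V, A *ᵥ x = B *ᵥ x) : A = B := by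
  ext i j
  have := congrFun (h (Pi.single j 1)) i
  simpa using this

/-- The vectors span a singular line (or less). -/
structure Sing (u v : Fin N ⊕ Fin N → F) : Prop where
  qu : QQ u = 0
  qv : QQ v = 0
  uv : ff u v = 0

theorem Sing.symm {u v : V} (h : Sing u v) : Sing v u := ⟨h.qv, h.qu, by rw [ff_comm]; exact h.uv⟩

theorem Sing.uu {u v : V} (h : Sing u v) : ff u u = 0 := ff_self_zero h.qu
theorem Sing.vv {u v : V} (h : Sing u v) : ff v v = 0 := ff_self_zero h.qv
theorem Sing.vu {u v : V} (h : Sing u v) : ff v u = 0 := by rw [ff_comm]; exact h.uv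

theorem sgM_mul {u v : V} (h : Sing u v) (c d : F) : sgM u v c * sgM u v d = sgM u v (c + d) := by
  apply mat_ext'
  intro x
  rw [← mulVec_mulVec, sgM_mulVec, sgM_mulVec, sgM_mulVec]
  simp only [ff_add_left, ff_smul_left, ff_sub_left, h.uu, h.vv, h.uv, h.vu, mul_zero, sub_zero, add_zero]
  module

theorem sgM_zero (u v : V) : sgM u v 0 = 1 := by
  simp [sgM]

theorem sgM_swap (u v : V) (c : F) : sgM v u c = sgM u v (-c) := by
  apply mat_ext'
  intro x
  rw [sgM_mulVec, sgM_mulVec]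
  module

theorem sgM_Q {u v : V} (h : Sing u v) (c : F) (x : V) : QQ (sgM u v c *ᵥ x) = QQ x := by
  rw [sgM_mulVec, QQ_add]
  have e : c • (ff x u • v - ff x v • u) = (c * ff x u) • v + (-(c * ff x v)) • u := by module
  rw [e, QQ_add, QQ_smul, QQ_smul, h.qu, h.qv, ff_smul_left, ff_smul_right, ff_add_right, ff_smul_right,
    ff_smul_right, h.vu]
  ring

theorem sgM_base (p r : V) (α β γ δ c : F) :
    sgM (α • p + β • r) (γ • p + δ • r) c = sgM p r (c * (α * δ - β * γ)) := by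
  apply mat_ext'
  intro x
  rw [sgM_mulVec, sgM_mulVec]
  simp only [ff_add_right, ff_smul_right]
  module

/-- Equality of parameters. -/
theorem sgM_inj {u v : V} (hind : ∀ α β : F, α • u + β • v = 0 → α = 0 ∧ β = 0) {c d : F}
    (h : sgM u v c = sgM u v d) : c = d := by
  have hu : u ≠ 0 := by
    rintro rfl
    have := (hind 1 0 (by simp)).1
    exact one_ne_zero this
  obtain ⟨x, hx⟩ : ∃ x, ff x u ≠ 0 := by
    by_contra hcon
    push Not at hcon
    exact hu (ff_nondeg hcon)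
  have h1 := congrArg (fun A => A *ᵥ x) h
  simp only [sgM_mulVec] at h1
  have h2 := add_left_cancel h1
  have h3 : ((c - d) * ff x u) • v + (-((c - d) * ff x v)) • u = 0 := by
    have : ((c - d) * ff x u) • v + (-((c - d) * ff x v)) • u =
        c • (ff x u • v - ff x v • u) - d • (ff x u • v - ff x v • u) := by module
    rw [this, h2, sub_self]
  have h4 := (hind _ _ (by rw [add_comm]; exact h3)).2
  have h5 := mul_eq_zero.mp h4
  rcases h5 with h5 | h5
  · exact sub_eq_zero.mp h5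
  · exact absurd h5 hx

/-- The isometry group. -/
abbrev OGp (F : Type*) [Field F] (N : ℕ) : Type _ := ↥(Cfsg.isometryGroup F (Cfsg.quadFormPlus N F))

local notation "OO" => (OGp F N)

/-- The element of the isometry group. -/
def sgE {u v : V} (h : Sing u v) (c : F) : OO :=
  ⟨⟨sgM u v c, sgM u v (-c), by rw [sgM_mul h, add_neg_cancel, sgM_zero], by rw [sgM_mul h, neg_add_cancel, sgM_zero]⟩,
    fun x _ => sgM_Q h c x⟩

theorem sgE_coe {u v : V} (h : Sing u v) (c : F) : (sgE h c).1.1 = sgM u v c := rfl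

theorem oo_ext {a b : OO} (h : a.1.1 = b.1.1) : a = b := Subtype.ext (Units.ext h)

theorem oo_form (g : OO) (x : V) : QQ (g.1.1 *ᵥ x) = QQ x := g.2 x x

theorem oo_ff (g : OO) (x y : V) : ff (g.1.1 *ᵥ x) (g.1.1 *ᵥ y) = ff x y := by
  simp only [ff]
  rw [← mulVec_add, oo_form, oo_form, oo_form]

theorem oo_inv_mulVec (g : OO) (x : V) : (g⁻¹).1.1 *ᵥ (g.1.1 *ᵥ x) = x := by
  rw [mulVec_mulVec]
  have : (g⁻¹).1.1 * g.1.1 = 1 := congrArg (fun a : OO => a.1.1) (inv_mul_cancel g)
  rw [this, one_mulVec]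

theorem oo_mulVec_inv (g : OO) (x : V) : g.1.1 *ᵥ ((g⁻¹).1.1 *ᵥ x) = x := by
  rw [mulVec_mulVec]
  have : g.1.1 * (g⁻¹).1.1 = 1 := congrArg (fun a : OO => a.1.1) (mul_inv_cancel g)
  rw [this, one_mulVec]

theorem oo_ff_inv (g : OO) (x y : V) : ff ((g⁻¹).1.1 *ᵥ x) y = ff x (g.1.1 *ᵥ y) := by
  have := oo_ff g ((g⁻¹).1.1 *ᵥ x) y
  rw [oo_mulVec_inv] at this
  exact this.symm

/-- The root group. -/
def rootO {u v : V} (h : Sing u v) : Subgroup OO where
  carrier := {σ | ∃ c, σ.1.1 = sgM u v c}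
  mul_mem' := by
    rintro a b ⟨c, hc⟩ ⟨d, hd⟩
    refine ⟨c + d, ?_⟩
    show a.1.1 * b.1.1 = _
    rw [hc, hd, sgM_mul h]
  one_mem' := ⟨0, (sgM_zero u v).symm⟩
  inv_mem' := by
    rintro a ⟨c, hc⟩
    refine ⟨-c, ?_⟩
    have h1 : a * sgE h (-c) = 1 := by
      apply oo_ext
      show a.1.1 * sgM u v (-c) = 1
      rw [hc, sgM_mul h, add_neg_cancel, sgM_zero]
    rw [inv_eq_of_mul_eq_one_right h1]
    rfl

theorem mem_rootO {u v : V} {h : Sing u v} {σ : OO} : σ ∈ rootO h ↔ ∃ c, σ.1.1 = sgM u v c := Iff.rfl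

theorem sgE_mem {u v : V} (h : Sing u v) (c : F) : sgE h c ∈ rootO h := ⟨c, rfl⟩

theorem rootO_comm {u v : V} {h : Sing u v} {a b : OO} (ha : a ∈ rootO h) (hb : b ∈ rootO h) : a * b = b * a := by
  obtain ⟨c, hc⟩ := ha
  obtain ⟨d, hd⟩ := hb
  apply oo_ext
  show a.1.1 * b.1.1 = b.1.1 * a.1.1
  rw [hc, hd, sgM_mul h, sgM_mul h, add_comm]

theorem rootO_eq_of {u v u' v' : V} {h : Sing u v} {h' : Sing u' v'} {s : F} (hs : s ≠ 0)
    (e : ∀ c, sgM u' v' c = sgM u v (c * s)) : rootO h' = rootO h := by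
  ext σ
  constructor
  · rintro ⟨c, hc⟩
    exact ⟨c * s, by rw [hc, e]⟩
  · rintro ⟨c, hc⟩
    refine ⟨c * s⁻¹, ?_⟩
    rw [hc, e, mul_assoc, inv_mul_cancel₀ hs, mul_one]

theorem rootO_swap {u v : V} (h : Sing u v) : rootO h.symm = rootO h :=
  rootO_eq_of (s := -1) (by simp) (fun c => by rw [sgM_swap]; congr 1; ring)

theorem rootO_base {p r u v : V} {h : Sing p r} {h' : Sing u v} {α β γ δ : F} (hu : u = α • p + β • r)
    (hv : v = γ • p + δ • r) (hd : α * δ - β * γ ≠ 0) : rootO h' = rootO h :=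
  rootO_eq_of hd (fun c => by rw [hu, hv, sgM_base])

theorem rootO_ne_bot {u v : V} (h : Sing u v) (hind : ∀ α β : F, α • u + β • v = 0 → α = 0 ∧ β = 0) :
    rootO h ≠ ⊥ := by
  intro h0
  have h1 : sgE h (1 : F) ∈ rootO h := sgE_mem h 1
  rw [h0, Subgroup.mem_bot] at h1
  have h2 := congrArg (fun a : OO => a.1.1) h1
  have h3 : sgM u v (1 : F) = sgM u v 0 := by
    rw [sgM_zero]
    exact h2
  exact one_ne_zero (sgM_inj hind h3)

theorem sg_conj (g : OO) {u v : V} {t : OO} {c : F} (ht : t.1.1 = sgM u v c) :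
    (g * t * g⁻¹).1.1 = sgM (g.1.1 *ᵥ u) (g.1.1 *ᵥ v) c := by
  apply mat_ext'
  intro x
  show (g.1.1 * t.1.1 * (g⁻¹).1.1) *ᵥ x = _
  rw [ht, ← mulVec_mulVec, ← mulVec_mulVec, sgM_mulVec, sgM_mulVec, mulVec_add, oo_mulVec_inv, mulVec_smul,
    mulVec_sub, mulVec_smul, mulVec_smul, oo_ff_inv, oo_ff_inv]

theorem Sing.map {u v : V} (h : Sing u v) (g : OO) : Sing (g.1.1 *ᵥ u) (g.1.1 *ᵥ v) :=
  ⟨by rw [oo_form, h.qu], by rw [oo_form, h.qv], by rw [oo_ff, h.uv]⟩

theorem rootO_conj (g : OO) {u v : V} (h : Sing u v) : conjBy (rootO h) g = rootO (h.map g) := by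
  ext t
  constructor
  · rintro ⟨y, ⟨c, hy⟩, rfl⟩
    exact ⟨c, sg_conj g hy⟩
  · rintro ⟨c, ht⟩
    refine ⟨g⁻¹ * t * g, ⟨c, ?_⟩, by
      show g * (g⁻¹ * t * g) * g⁻¹ = t
      group⟩
    have h1 := sg_conj g⁻¹ ht
    have e : g⁻¹ * t * (g⁻¹)⁻¹ = g⁻¹ * t * g := by group
    rw [e] at h1
    rw [h1, oo_inv_mulVec, oo_inv_mulVec]

/-- Dual vectors. -/
theorem exists_dual {p r : V} (hind : ∀ α β : F, α • p + β • r = 0 → α = 0 ∧ β = 0) :
    ∃ p' r' : V, ff p' p = 1 ∧ ff p' r = 0 ∧ ff r' p = 0 ∧ ff r' r = 1 := by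
  have hex : ∀ {u : V}, u ≠ 0 → ∃ x, ff x u = 1 := by
    intro u hu
    obtain ⟨x, hx⟩ : ∃ x, ff x u ≠ 0 := by
      by_contra hcon
      push Not at hcon
      exact hu (ff_nondeg hcon)
    exact ⟨(ff x u)⁻¹ • x, by rw [ff_smul_left, inv_mul_cancel₀ hx]⟩
  have hp : p ≠ 0 := by
    rintro rfl
    exact one_ne_zero (hind 1 0 (by simp)).1
  obtain ⟨v₁, h₁⟩ := hex hp
  set r₁ := r - (ff v₁ r) • p with hr₁
  have hr₁0 : r₁ ≠ 0 := by
    intro h0
    have h2 : (-(ff v₁ r)) • p + (1 : F) • r = 0 := by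
      rw [one_smul, neg_smul, add_comm, ← sub_eq_add_neg]
      exact h0
    exact one_ne_zero (hind _ _ h2).2
  obtain ⟨v₂, h₂⟩ := hex hr₁0
  have hv₁r₁ : ff v₁ r₁ = 0 := by
    rw [hr₁, ff_sub_right, ff_smul_right, h₁]
    ring
  set w := v₂ - (ff v₂ p) • v₁ with hw
  have hwp : ff w p = 0 := by
    rw [hw, ff_sub_left, ff_smul_left, h₁]
    ring
  have hwr₁ : ff w r₁ = 1 := by
    rw [hw, ff_sub_left, ff_smul_left, hv₁r₁, h₂]
    ring
  have hwr : ff w r = 1 := by
    have e : r = r₁ + (ff v₁ r) • p := by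
      rw [hr₁]
      abel
    rw [e, ff_add_right, ff_smul_right, hwr₁, hwp]
    simp
  refine ⟨v₁ - (ff v₁ r) • w, w, ?_, ?_, hwp, hwr⟩
  · rw [ff_sub_left, ff_smul_left, h₁, hwp]
    ring
  · rw [ff_sub_left, ff_smul_left, hwr]
    ring

/-- The characterization of the Siegel group as the pointwise stabilizer of `ℓ^⊥`. -/
theorem closure_eq {p r : V} (h : Sing p r) (hind : ∀ α β : F, α • p + β • r = 0 → α = 0 ∧ β = 0) :
    Subgroup.closure {σ : OO | ∀ v : V, ff v p = 0 → ff v r = 0 →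
      (σ : Matrix.GeneralLinearGroup (Fin N ⊕ Fin N) F).1 *ᵥ v = v} = rootO h := by
  apply le_antisymm
  · rw [Subgroup.closure_le]
    intro σ hσ
    obtain ⟨p', r', h1, h2, h3, h4⟩ := exists_dual hind
    -- the form of `σ`
    have hfix : ∀ x, σ.1.1 *ᵥ x = x + ff x p • (σ.1.1 *ᵥ p' - p') + ff x r • (σ.1.1 *ᵥ r' - r') := by
      intro x
      have h5 := hσ (x - ff x p • p' - ff x r • r')
        (by
          simp only [ff_sub_left, ff_smul_left, h1, h3]
          ring)
        (by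
          simp only [ff_sub_left, ff_smul_left, h2, h4]
          ring)
      rw [mulVec_sub, mulVec_sub, mulVec_smul, mulVec_smul] at h5
      have h6 : σ.1.1 *ᵥ x = (x - ff x p • p' - ff x r • r') + ff x p • σ.1.1 *ᵥ p' + ff x r • σ.1.1 *ᵥ r' := by
        rw [← h5]
        abel
      rw [h6]
      module
    -- differences lie in the line
    have hline : ∀ a : V, (∀ y, ff y p = 0 → ff y r = 0 → ff a y = 0) → a = ff a p' • p + ff a r' • r := by
      intro a ha
      have h5 : a - ff a p' • p - ff a r' • r = 0 := by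
        apply ff_nondeg
        intro z
        have h6 := ha (z - ff z p • p' - ff z r • r')
          (by
            simp only [ff_sub_left, ff_smul_left, h1, h3]
            ring)
          (by
            simp only [ff_sub_left, ff_smul_left, h2, h4]
            ring)
        simp only [ff_sub_right, ff_smul_right] at h6
        simp only [ff_sub_right, ff_smul_right]
        rw [ff_comm a z, ff_comm a p', ff_comm a r'] at *
        linear_combination h6 
      rw [sub_sub, sub_eq_zero] at h5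
      exact h5
    have hdiff : ∀ w : V, ∀ y, ff y p = 0 → ff y r = 0 → ff (σ.1.1 *ᵥ w - w) y = 0 := by
      intro w y hy1 hy2
      rw [ff_sub_left]
      have h5 := oo_ff σ w y
      rw [hσ y hy1 hy2] at h5
      rw [h5, sub_self]
    set a := σ.1.1 *ᵥ p' - p' with ha
    set b := σ.1.1 *ᵥ r' - r' with hb
    have ha' := hline a (hdiff p')
    have hb' := hline b (hdiff r')
    set a₁ := ff a p'
    set a₂ := ff a r'
    set b₁ := ff b p'
    set b₂ := ff b r'
    have hkey : ∀ x, ff x p * (a₁ * ff x p + a₂ * ff x r) + ff x r * (b₁ * ff x p + b₂ * ff x r) = 0 := by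
      intro x
      have h5 := oo_form σ x
      rw [hfix x, ha', hb'] at h5
      have e : x + ff x p • (a₁ • p + a₂ • r) + ff x r • (b₁ • p + b₂ • r) =
          x + ((ff x p * a₁ + ff x r * b₁) • p + (ff x p * a₂ + ff x r * b₂) • r) := by module
      rw [e, QQ_add, QQ_add, QQ_smul, QQ_smul, h.qu, h.qv, ff_smul_left, ff_smul_right, h.uv, ff_add_right, ff_smul_right,
        ff_smul_right] at h5
      linear_combination h5
    have e1 : a₁ = 0 := by
      have := hkey p'
      rw [h1, h2] at this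
      linear_combination this
    have e2 : b₂ = 0 := by
      have := hkey r'
      rw [h3, h4] at this
      linear_combination this
    have e3 : a₂ + b₁ = 0 := by
      have := hkey (p' + r')
      simp only [ff_add_left, h1, h2, h3, h4, e1, e2] at this
      linear_combination this
    refine ⟨a₂, ?_⟩
    apply mat_ext'
    intro x
    rw [sgM_mulVec, hfix x, ha', hb', e1, e2, show b₁ = -a₂ by linear_combination e3]
    module
  · rintro σ ⟨c, hc⟩
    apply Subgroup.subset_closure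
    intro v h1 h2
    show σ.1.1 *ᵥ v = v
    rw [hc, sgM_mulVec, h1, h2]
    simp

/-! ### Commuting pairs -/

theorem sg_commute_zero {a b c d : V} (h1 : ff a c = 0) (h2 : ff a d = 0) (h3 : ff b c = 0) (h4 : ff b d = 0)
    (x y : F) : sgM a b x * sgM c d y = sgM c d y * sgM a b x := by
  have h1' : ff c a = 0 := by rw [ff_comm]; exact h1
  have h2' : ff d a = 0 := by rw [ff_comm]; exact h2
  have h3' : ff c b = 0 := by rw [ff_comm]; exact h3
  have h4' : ff d b = 0 := by rw [ff_comm]; exact h4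
  apply mat_ext'
  intro z
  rw [← mulVec_mulVec, ← mulVec_mulVec, sgM_mulVec, sgM_mulVec, sgM_mulVec, sgM_mulVec]
  simp only [ff_add_left, ff_smul_left, ff_sub_left, h1, h2, h3, h4, h1', h2', h3', h4', mul_zero, sub_self, add_zero]
  module

/-- Lines through a common point. -/
theorem sg_commute_meet {a b c : V} (h1 : ff a b = 0) (h2 : ff c b = 0) (h3 : ff b b = 0) (x y : F) :
    sgM a b x * sgM c b y = sgM c b y * sgM a b x := by
  have h1' : ff b a = 0 := by rw [ff_comm]; exact h1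
  have h2' : ff b c = 0 := by rw [ff_comm]; exact h2
  apply mat_ext'
  intro z
  rw [← mulVec_mulVec, ← mulVec_mulVec, sgM_mulVec, sgM_mulVec, sgM_mulVec, sgM_mulVec]
  simp only [ff_add_left, ff_smul_left, ff_sub_left, h1, h2, h3, h1', h2', mul_zero, sub_self, add_zero, ff_comm c a]
  module

/-- The commutator formula. -/
theorem sg_commutator {a b c d : V} (hb : ff b b = 0) (hd : ff d d = 0) (hcd : ff c d = 0) (hab : ff a b = 0)
    (h1 : ff a c = 1) (h2 : ff a d = 0) (h3 : ff b c = 0) (h4 : ff b d = 0) (x y : F) :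
    sgM a b x * sgM c d y = sgM b d (x * y) * (sgM c d y * sgM a b x) := by
  have h1' : ff c a = 1 := by rw [ff_comm]; exact h1
  have h2' : ff d a = 0 := by rw [ff_comm]; exact h2
  have h3' : ff c b = 0 := by rw [ff_comm]; exact h3
  have h4' : ff d b = 0 := by rw [ff_comm]; exact h4
  have hcd' : ff d c = 0 := by rw [ff_comm]; exact hcd
  have hab' : ff b a = 0 := by rw [ff_comm]; exact hab
  apply mat_ext'
  intro z
  simp only [← mulVec_mulVec, sgM_mulVec]
  simp only [ff_add_left, ff_smul_left, ff_sub_left, h1, h2, h3, h4, h1', h2', h3', h4', hb, hd, hcd, hcd', hab, hab',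
    mul_zero, sub_self, add_zero, mul_one, sub_zero, zero_sub, zero_add, one_mul, zero_mul]
  module

/-- The commutator case. -/
theorem rootO_commCase {a b c d : V} (hl₁ : Sing a b) (hl₂ : Sing c d) (hl₃ : Sing b d)
    (h1 : ff a c = 1) (h2 : ff a d = 0) (h3 : ff b c = 0) {S : Set (Subgroup OO)} (hC : rootO hl₃ ∈ S) :
    RootCommutatorCase S (rootO hl₁) (rootO hl₂) := by
  have hform : ∀ s t : F, sgE hl₁ s * sgE hl₂ t * (sgE hl₁ s)⁻¹ * (sgE hl₂ t)⁻¹ = sgE hl₃ (s * t) := by
    intro s t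
    have e : sgE hl₁ s * sgE hl₂ t = sgE hl₃ (s * t) * (sgE hl₂ t * sgE hl₁ s) := oo_ext
      (sg_commutator hl₁.vv hl₂.vv hl₂.uv hl₁.uv h1 h2 h3 hl₃.uv s t)
    rw [e]
    group
  have hele : ∀ {t : OO}, t ∈ rootO hl₁ → ∃ s, t = sgE hl₁ s := by
    rintro t ⟨s, hs⟩
    exact ⟨s, oo_ext hs⟩
  have hele2 : ∀ {t : OO}, t ∈ rootO hl₂ → ∃ s, t = sgE hl₂ s := by
    rintro t ⟨s, hs⟩
    exact ⟨s, oo_ext hs⟩
  have hele3 : ∀ {t : OO}, t ∈ rootO hl₃ → ∃ s, t = sgE hl₃ s := by
    rintro t ⟨s, hs⟩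
    exact ⟨s, oo_ext hs⟩
  have hcomm : ⁅rootO hl₁, rootO hl₂⁆ = rootO hl₃ := by
    apply le_antisymm
    · rw [Subgroup.commutator_le]
      intro t₁ ht₁ t₂ ht₂
      obtain ⟨s, rfl⟩ := hele ht₁
      obtain ⟨t, rfl⟩ := hele2 ht₂
      rw [commutatorElement_def, hform]
      exact sgE_mem _ _
    · intro z hz
      obtain ⟨u, rfl⟩ := hele3 hz
      have e := hform 1 u
      rw [one_mul] at e
      rw [← e, ← commutatorElement_def]
      exact Subgroup.commutator_mem_commutator (sgE_mem _ _) (sgE_mem _ _)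
  refine ⟨hcomm ▸ hC, ?_, ?_, ?_⟩
  · rw [hcomm]
    intro z hz w hw
    obtain ⟨u, rfl⟩ := hele3 hz
    symm
    refine comm_of_sup ?_ ?_ w hw
    · intro t ht
      obtain ⟨s, rfl⟩ := hele ht
      apply oo_ext
      show sgM a b s * sgM b d u = sgM b d u * sgM a b s
      rw [sgM_swap d b, sg_commute_meet hl₁.uv hl₃.vu hl₁.vv]
    · intro t ht
      obtain ⟨s, rfl⟩ := hele2 ht
      apply oo_ext
      show sgM c d s * sgM b d u = sgM b d u * sgM c d s
      rw [sg_commute_meet hl₂.uv hl₃.uv hl₂.vv]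
  · intro t ht ht1
    obtain ⟨s, rfl⟩ := hele ht
    have hs0 : s ≠ 0 := by
      rintro rfl
      apply ht1
      apply oo_ext
      exact sgM_zero a b
    apply le_antisymm
    · rw [Subgroup.closure_le]
      rintro _ ⟨y, hy, rfl⟩
      have := Subgroup.commutator_mem_commutator (sgE_mem hl₁ s) hy
      rwa [commutatorElement_def] at this
    · rw [hcomm]
      intro z hz
      obtain ⟨u, rfl⟩ := hele3 hz
      apply Subgroup.subset_closure
      refine ⟨sgE hl₂ (u * s⁻¹), sgE_mem _ _, ?_⟩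
      show _ * _ * _ * _ = _
      rw [hform]
      congr 1
      field_simp
  · intro t ht ht1
    obtain ⟨s, rfl⟩ := hele2 ht
    have hs0 : s ≠ 0 := by
      rintro rfl
      apply ht1
      apply oo_ext
      exact sgM_zero c d
    apply le_antisymm
    · rw [Subgroup.closure_le]
      rintro _ ⟨y, hy, rfl⟩
      have := Subgroup.commutator_mem_commutator hy (sgE_mem hl₂ s)
      rwa [commutatorElement_def] at this
    · rw [hcomm]
      intro z hz
      obtain ⟨u, rfl⟩ := hele3 hz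
      apply Subgroup.subset_closure
      refine ⟨sgE hl₁ (u * s⁻¹), sgE_mem _ _, ?_⟩
      show _ * _ * _ * _ = _
      rw [hform]
      congr 1
      field_simp

/-! ### The rank one case -/

/-- Dual bases of two lines. -/
structure DualL (a b c d : Fin N ⊕ Fin N → F) : Prop where
  l1 : Sing a b
  l2 : Sing c d
  ac : ff a c = 1
  ad : ff a d = 0
  bc : ff b c = 0
  bd : ff b d = 1

theorem pMat_eMat_zero {f g v w : V} (h1 : f ⬝ᵥ v = 0) (h2 : f ⬝ᵥ w = 0) (h3 : g ⬝ᵥ v = 0) (h4 : g ⬝ᵥ w = 0) :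
    pMat f g * eMat v w = 0 := by
  ext r s
  fin_cases r <;> fin_cases s
  · simpa [Matrix.mul_apply, pMat, eMat, dotProduct] using h1
  · simpa [Matrix.mul_apply, pMat, eMat, dotProduct] using h2
  · simpa [Matrix.mul_apply, pMat, eMat, dotProduct] using h3
  · simpa [Matrix.mul_apply, pMat, eMat, dotProduct] using h4

section dual

variable {a b c d : Fin N ⊕ Fin N → F} (h : DualL a b c d)

include h

theorem DualL.h₁ : pMat (grad c) (grad b) * eMat a d = 1 := by
  apply pMat_mul_eMat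
  · rw [grad_dot, h.ac]
  · rw [grad_dot, h.l2.vu]
  · rw [grad_dot, h.l1.uv]
  · rw [grad_dot, ff_comm, h.bd]

theorem DualL.h₂ : pMat (-grad d) (grad a) * eMat (-b) c = 1 := by
  apply pMat_mul_eMat
  · rw [neg_dotProduct, dotProduct_neg, grad_dot, neg_neg, h.bd]
  · rw [neg_dotProduct, grad_dot, h.l2.uv, neg_zero]
  · rw [dotProduct_neg, grad_dot, h.l1.vu, neg_zero]
  · rw [grad_dot, ff_comm, h.ac]

theorem DualL.h₁₂ : pMat (grad c) (grad b) * eMat (-b) c = 0 := by
  apply pMat_eMat_zero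
  · rw [dotProduct_neg, grad_dot, h.bc, neg_zero]
  · rw [grad_dot, h.l2.uu]
  · rw [dotProduct_neg, grad_dot, h.l1.vv, neg_zero]
  · rw [grad_dot, ff_comm, h.bc]

theorem DualL.h₂₁ : pMat (-grad d) (grad a) * eMat a d = 0 := by
  apply pMat_eMat_zero
  · rw [neg_dotProduct, grad_dot, h.ad, neg_zero]
  · rw [neg_dotProduct, grad_dot, h.l2.vv, neg_zero]
  · rw [grad_dot, h.l1.uu]
  · rw [grad_dot, ff_comm, h.ad]

theorem DualL.cross₁ (X Y : Matrix (Fin 2) (Fin 2) F) :
    (eMat a d * X * pMat (grad c) (grad b)) * (eMat (-b) c * Y * pMat (-grad d) (grad a)) = 0 := by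
  have e : (eMat a d * X * pMat (grad c) (grad b)) * (eMat (-b) c * Y * pMat (-grad d) (grad a)) =
      eMat a d * X * (pMat (grad c) (grad b) * eMat (-b) c) * Y * pMat (-grad d) (grad a) := by
    simp only [Matrix.mul_assoc]
  rw [e, h.h₁₂]
  simp

theorem DualL.cross₂ (X Y : Matrix (Fin 2) (Fin 2) F) :
    (eMat (-b) c * Y * pMat (-grad d) (grad a)) * (eMat a d * X * pMat (grad c) (grad b)) = 0 := by
  have e : (eMat (-b) c * Y * pMat (-grad d) (grad a)) * (eMat a d * X * pMat (grad c) (grad b)) =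
      eMat (-b) c * Y * (pMat (-grad d) (grad a) * eMat a d) * X * pMat (grad c) (grad b) := by
    simp only [Matrix.mul_assoc]
  rw [e, h.h₂₁]
  simp

theorem DualL.tt_comm (X Y : Matrix.SpecialLinearGroup (Fin 2) F) :
    tvMat _ _ h.h₁ X * tvMat _ _ h.h₂ Y = tvMat _ _ h.h₂ Y * tvMat _ _ h.h₁ X := by
  rw [tvMat_apply, tvMat_apply]
  simp only [Matrix.mul_add, Matrix.add_mul, Matrix.mul_one, Matrix.one_mul, h.cross₁, h.cross₂, add_zero]
  abel

/-- The embedding of `SL₂` into the matrices. -/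
def DualL.oM : Matrix.SpecialLinearGroup (Fin 2) F →* Matrix (Fin N ⊕ Fin N) (Fin N ⊕ Fin N) F where
  toFun X := tvMat _ _ h.h₁ X * tvMat _ _ h.h₂ X
  map_one' := by simp
  map_mul' X Y := by
    rw [map_mul, map_mul, mul_assoc, mul_assoc, ← mul_assoc (tvMat _ _ h.h₁ Y), h.tt_comm Y X]
    simp only [mul_assoc]

theorem DualL.oM_mulVec (X : Matrix.SpecialLinearGroup (Fin 2) F) (x : V) :
    h.oM X *ᵥ x = x + (((X.1 0 0 - 1) * ff x c + X.1 0 1 * ff x b) • a + (X.1 1 0 * ff x c + (X.1 1 1 - 1) * ff x b) • d +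
      ((X.1 0 0 - 1) * ff x d - X.1 0 1 * ff x a) • b + (-(X.1 1 0 * ff x d) + (X.1 1 1 - 1) * ff x a) • c) := by
  show (tvMat _ _ h.h₁ X * tvMat _ _ h.h₂ X) *ᵥ x = _
  rw [tvMat_apply, tvMat_apply, Matrix.mul_add, Matrix.mul_one, Matrix.add_mul, h.cross₁, add_zero, Matrix.one_mul]
  rw [eMat_mul_pMat, eMat_mul_pMat]
  simp only [add_mulVec, one_mulVec, smul_mulVec, vecMulVec_mulVec, neg_dotProduct, grad_dot, Matrix.sub_apply,
    op_smul_eq_smul]
  have e1 : (1 : Matrix (Fin 2) (Fin 2) F) 0 0 = 1 := by simp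
  have e2 : (1 : Matrix (Fin 2) (Fin 2) F) 0 1 = 0 := by simp
  have e3 : (1 : Matrix (Fin 2) (Fin 2) F) 1 0 = 0 := by simp
  have e4 : (1 : Matrix (Fin 2) (Fin 2) F) 1 1 = 1 := by simp
  rw [e1, e2, e3, e4]
  simp only [sub_zero]
  module

theorem DualL.oM_Q (X : Matrix.SpecialLinearGroup (Fin 2) F) (x : V) : QQ (h.oM X *ᵥ x) = QQ x := by
  rw [h.oM_mulVec]
  have hdet : X.1 0 0 * X.1 1 1 - X.1 0 1 * X.1 1 0 = 1 := sl2_det X
  have hca : ff c a = 1 := by rw [ff_comm]; exact h.ac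
  have hda : ff d a = 0 := by rw [ff_comm]; exact h.ad
  have hcb : ff c b = 0 := by rw [ff_comm]; exact h.bc
  have hdb : ff d b = 1 := by rw [ff_comm]; exact h.bd
  simp only [QQ_add, QQ_smul, ff_add_left, ff_add_right, ff_smul_left, ff_smul_right, h.l1.qu, h.l1.qv, h.l2.qu, h.l2.qv,
    h.l1.uu, h.l1.vv, h.l2.uu, h.l2.vv, h.l1.uv, h.l1.vu, h.l2.uv, h.l2.vu, h.ac, h.ad, h.bc, h.bd, hca, hda, hcb, hdb]
  generalize ff x a = A
  generalize ff x b = B
  generalize ff x c = C
  generalize ff x d = D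
  generalize QQ x = w
  linear_combination (A * C + B * D) * hdet

/-- The embedding of `SL₂` into the isometry group. -/
def DualL.oHom : Matrix.SpecialLinearGroup (Fin 2) F →* OO :=
  (h.oM.toHomUnits).codRestrict (Cfsg.isometryGroup F (Cfsg.quadFormPlus N F)) (fun X u _ => h.oM_Q X u)

theorem DualL.oHom_coe (X : Matrix.SpecialLinearGroup (Fin 2) F) : (h.oHom X).1.1 = h.oM X := rfl

theorem DualL.oHom_inj : Function.Injective h.oHom := by
  intro X Y hXY
  have h0 : h.oM X = h.oM Y := congrArg (fun g : OO => g.1.1) hXY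
  have hda : ff d a = 0 := by rw [ff_comm]; exact h.ad
  have hdb : ff d b = 1 := by rw [ff_comm]; exact h.bd
  have key1 : ∀ Z : Matrix.SpecialLinearGroup (Fin 2) F, h.oM Z *ᵥ a = Z.1 0 0 • a + Z.1 1 0 • d := by
    intro Z
    rw [h.oM_mulVec, h.ac, h.l1.uu, h.l1.uv, h.ad]
    module
  have key2 : ∀ Z : Matrix.SpecialLinearGroup (Fin 2) F, h.oM Z *ᵥ d = Z.1 0 1 • a + Z.1 1 1 • d := by
    intro Z
    rw [h.oM_mulVec, h.l2.vu, hda, hdb, h.l2.vv]
    module
  have k1 : X.1 0 0 • a + X.1 1 0 • d = Y.1 0 0 • a + Y.1 1 0 • d := by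
    rw [← key1, ← key1, h0]
  have k2 : X.1 0 1 • a + X.1 1 1 • d = Y.1 0 1 • a + Y.1 1 1 • d := by
    rw [← key2, ← key2, h0]
  have f1 := congrArg (fun v => ff v c) k1
  have f2 := congrArg (fun v => ff v b) k1
  have f3 := congrArg (fun v => ff v c) k2
  have f4 := congrArg (fun v => ff v b) k2
  simp only [ff_add_left, ff_smul_left, h.ac, h.l2.vu, h.l1.uv, hdb, mul_one, mul_zero, add_zero, zero_add] at f1 f2 f3 f4
  exact sl2_ext f1 f3 f2 f4

theorem DualL.oHom_bU (y : F) : (h.oHom (bU y)).1.1 = sgM a b (-y) := by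
  apply mat_ext'
  intro x
  rw [h.oHom_coe, h.oM_mulVec, sgM_mulVec]
  simp only [bU_00, bU_01, bU_10, bU_11]
  module

theorem DualL.oHom_aL (y : F) : (h.oHom (aL y)).1.1 = sgM c d y := by
  apply mat_ext'
  intro x
  rw [h.oHom_coe, h.oM_mulVec, sgM_mulVec]
  simp only [aL_00, aL_01, aL_10, aL_11]
  module

theorem DualL.upper : (upperUnipotentSL2 F).map h.oHom = rootO h.l1 := by
  ext t
  constructor
  · rintro ⟨X, hX, rfl⟩
    rw [eq_bU hX]
    exact ⟨_, h.oHom_bU _⟩
  · rintro ⟨s, hs⟩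
    refine ⟨bU (-s), bU_mem _, ?_⟩
    apply oo_ext
    rw [h.oHom_bU, neg_neg, hs]

theorem DualL.lower : (lowerUnipotentSL2 F).map h.oHom = rootO h.l2 := by
  ext t
  constructor
  · rintro ⟨X, hX, rfl⟩
    rw [eq_aL hX]
    exact ⟨_, h.oHom_aL _⟩
  · rintro ⟨s, hs⟩
    refine ⟨aL s, aL_mem _, ?_⟩
    apply oo_ext
    rw [h.oHom_aL, hs]

theorem DualL.rankOne : IsRankOnePair (rootO h.l1) (rootO h.l2) := by
  rw [← h.upper, ← h.lower]
  exact rankOne_map h.oHom h.oHom_inj isRankOnePair_lower_upper.symm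

theorem DualL.psl2 : IsPSL2PairOver F (rootO h.l1) (rootO h.l2) := by
  rw [← h.upper, ← h.lower]
  apply psl2_of_hom
  rw [(MonoidHom.ker_eq_bot_iff h.oHom).mpr h.oHom_inj]
  exact bot_le

end dual

/-! ### Pairs of lines -/

/-- The pairing determinant. -/
def DD (p r s t : Fin N ⊕ Fin N → F) : F := ff p s * ff r t - ff p t * ff r s

/-- Independence. -/
def Ind (p r : Fin N ⊕ Fin N → F) : Prop := ∀ α β : F, α • p + β • r = 0 → α = 0 ∧ β = 0

theorem Ind.symm {p r : V} (h : Ind p r) : Ind r p := fun α β e => (h β α (by rw [add_comm]; exact e)).symm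

theorem Ind.left_ne {p r : V} (h : Ind p r) : p ≠ 0 := by
  rintro rfl
  exact one_ne_zero (h 1 0 (by simp)).1

theorem Ind.right_ne {p r : V} (h : Ind p r) : r ≠ 0 := h.symm.left_ne

theorem exists_dual_line {p r s t : V} (hl₁ : Sing p r) (hl₂ : Sing s t) (hD : DD p r s t ≠ 0) :
    ∃ (s' t' : V) (h : DualL p r s' t'), rootO h.l2 = rootO hl₂ := by
  set D := DD p r s t with hDdef
  have hDe : D = ff p s * ff r t - ff p t * ff r s := rfl
  set s' := (D⁻¹ * ff r t) • s + (-(D⁻¹ * ff r s)) • t with hs'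
  set t' := (-(D⁻¹ * ff p t)) • s + (D⁻¹ * ff p s) • t with ht'
  have hS : Sing s' t' := by
    constructor
    · rw [hs', QQ_add, QQ_smul, QQ_smul, hl₂.qu, hl₂.qv, ff_smul_left, ff_smul_right, hl₂.uv]
      ring
    · rw [ht', QQ_add, QQ_smul, QQ_smul, hl₂.qu, hl₂.qv, ff_smul_left, ff_smul_right, hl₂.uv]
      ring
    · rw [hs', ht']
      simp only [ff_add_left, ff_add_right, ff_smul_left, ff_smul_right, hl₂.uu, hl₂.vv, hl₂.uv, hl₂.vu]
      ring
  have hval : ∀ u, ff u s' = D⁻¹ * (ff r t * ff u s - ff r s * ff u t) := by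
    intro u
    rw [hs', ff_add_right, ff_smul_right, ff_smul_right]
    ring
  have hval' : ∀ u, ff u t' = D⁻¹ * (ff p s * ff u t - ff p t * ff u s) := by
    intro u
    rw [ht', ff_add_right, ff_smul_right, ff_smul_right]
    ring
  have hDi : D⁻¹ * D = 1 := inv_mul_cancel₀ hD
  refine ⟨s', t', ⟨hl₁, hS, ?_, ?_, ?_, ?_⟩, ?_⟩
  · rw [hval]
    rw [← hDi, hDe]
    ring
  · rw [hval']
    ring
  · rw [hval]
    ring
  · rw [hval', ← hDi, hDe]
  · apply rootO_base hs' ht'
    have : D⁻¹ * ff r t * (D⁻¹ * ff p s) - -(D⁻¹ * ff r s) * -(D⁻¹ * ff p t) = D⁻¹ * (D⁻¹ * D) := by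
      rw [hDe]
      ring
    rw [this, hDi, mul_one]
    exact inv_ne_zero hD

theorem rootO_rankOne {p r s t : V} (hl₁ : Sing p r) (hl₂ : Sing s t) (hD : DD p r s t ≠ 0) :
    IsRankOnePair (rootO hl₁) (rootO hl₂) := by
  obtain ⟨s', t', h, e⟩ := exists_dual_line hl₁ hl₂ hD
  rw [← e]
  exact h.rankOne

theorem rootO_psl2 {p r s t : V} (hl₁ : Sing p r) (hl₂ : Sing s t) (hD : DD p r s t ≠ 0) :
    IsPSL2PairOver F (rootO hl₁) (rootO hl₂) := by
  obtain ⟨s', t', h, e⟩ := exists_dual_line hl₁ hl₂ hD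
  rw [← e]
  exact h.psl2

/-- Rank one of the pairing: normal form. -/
theorem pair_nf {S : Set (Subgroup OO)} (hS : ∀ (u v : V) (h : Sing u v), Ind u v → rootO h ∈ S)
    {p r s t : V} (hl₁ : Sing p r) (hl₂ : Sing s t) (hi₁ : Ind p r) (hi₂ : Ind s t)
    (he : ff p s ≠ 0) (hD : DD p r s t = 0) :
    ⁅rootO hl₁, rootO hl₂⁆ = ⊥ ∨ RootCommutatorCase S (rootO hl₁) (rootO hl₂) := by
  set e := ff p s with hedef
  have hDe : ff p s * ff r t - ff p t * ff r s = 0 := hD
  rw [← hedef] at hDe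
  set lam := ff r s / e with hlam
  set mu := ff p t / e with hmu
  set b := (-lam) • p + (1 : F) • r with hb
  set c := e⁻¹ • s + (0 : F) • t with hc
  set d := (-mu) • s + (1 : F) • t with hd
  have hab : Sing p b := by
    constructor
    · exact hl₁.qu
    · rw [hb, QQ_add, QQ_smul, QQ_smul, hl₁.qu, hl₁.qv, ff_smul_left, ff_smul_right, hl₁.uv]
      ring
    · rw [hb, ff_add_right, ff_smul_right, ff_smul_right, hl₁.uu, hl₁.uv]
      ring
  have hpb : Sing p r := hl₁
  have hcd : Sing c d := by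
    constructor
    · rw [hc, QQ_add, QQ_smul, QQ_smul, hl₂.qu, hl₂.qv, ff_smul_left, ff_smul_right, hl₂.uv]
      ring
    · rw [hd, QQ_add, QQ_smul, QQ_smul, hl₂.qu, hl₂.qv, ff_smul_left, ff_smul_right, hl₂.uv]
      ring
    · rw [hc, hd]
      simp only [ff_add_left, ff_add_right, ff_smul_left, ff_smul_right, hl₂.uu, hl₂.vv, hl₂.uv, hl₂.vu]
      ring
  have e1 : rootO hab = rootO hl₁ := by
    apply rootO_base (α := 1) (β := 0) (γ := -lam) (δ := 1) (by simp) hb
    simp
  have e2 : rootO hcd = rootO hl₂ := by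
    apply rootO_base (α := e⁻¹) (β := 0) (γ := -mu) (δ := 1) hc hd
    simp [he]
  have hei : e⁻¹ * e = 1 := inv_mul_cancel₀ he
  have hpc : ff p c = 1 := by
    rw [hc, ff_add_right, ff_smul_right, ff_smul_right, ← hedef, hei]
    ring
  have hpd : ff p d = 0 := by
    rw [hd, ff_add_right, ff_smul_right, ff_smul_right, ← hedef, hmu]
    field_simp
    ring
  have hbc : ff b c = 0 := by
    rw [hb, hc]
    simp only [ff_add_left, ff_add_right, ff_smul_left, ff_smul_right, ← hedef, hlam]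
    field_simp
    ring
  have hbd : ff b d = 0 := by
    rw [hb, hd]
    simp only [ff_add_left, ff_add_right, ff_smul_left, ff_smul_right, ← hedef, hlam, hmu, hl₁.uv]
    field_simp
    linear_combination hDe
  have hlb : Sing b d := ⟨hab.qv, hcd.qv, hbd⟩
  rw [← e1, ← e2]
  by_cases hi : Ind b d
  · right
    exact rootO_commCase hab hcd hlb hpc hpd hbc (hS _ _ hlb hi)
  · left
    -- dependent vectors
    have hb0 : b ≠ 0 := by
      intro h0
      have := (hi₁ (-lam) 1 h0).2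
      exact one_ne_zero this
    have hd0 : d ≠ 0 := by
      intro h0
      have := (hi₂ (-mu) 1 h0).2
      exact one_ne_zero this
    obtain ⟨ν, hν0, hν⟩ : ∃ ν : F, ν ≠ 0 ∧ d = ν • b := by
      unfold Ind at hi
      push Not at hi
      obtain ⟨α, β, h1, h2⟩ := hi
      have hβ : β ≠ 0 := by
        rintro rfl
        rw [zero_smul, add_zero] at h1
        have hα := (smul_eq_zero.mp h1).resolve_right hb0
        exact h2 hα rfl
      have hα : α ≠ 0 := by
        rintro rfl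
        rw [zero_smul, zero_add] at h1
        exact hd0 ((smul_eq_zero.mp h1).resolve_left hβ)
      refine ⟨-(β⁻¹ * α), by simp [hα, hβ], ?_⟩
      have h3 : d = β⁻¹ • (β • d) := by
        rw [smul_smul, inv_mul_cancel₀ hβ, one_smul]
      rw [h3, eq_neg_of_add_eq_zero_right h1, smul_neg, smul_smul, neg_smul]
    have hcb : ff c b = 0 := by rw [ff_comm]; exact hbc
    have hlcb : Sing c b := ⟨hcd.qu, hab.qv, hcb⟩
    have e3 : rootO hcd = rootO hlcb := by
      apply rootO_base (α := 1) (β := 0) (γ := 0) (δ := ν) (by simp) (by rw [hν]; simp)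
      simp [hν0]
    rw [e3]
    apply commutator_eq_bot_of_comm
    rintro g ⟨x, hx⟩ g' ⟨y, hy⟩
    apply oo_ext
    show g.1.1 * g'.1.1 = g'.1.1 * g.1.1
    rw [hx, hy, sg_commute_meet hab.uv hcb hab.vv]

theorem pair_zero {S : Set (Subgroup OO)} (hS : ∀ (u v : V) (h : Sing u v), Ind u v → rootO h ∈ S)
    {p r s t : V} (hl₁ : Sing p r) (hl₂ : Sing s t) (hi₁ : Ind p r) (hi₂ : Ind s t) (hD : DD p r s t = 0) :
    ⁅rootO hl₁, rootO hl₂⁆ = ⊥ ∨ RootCommutatorCase S (rootO hl₁) (rootO hl₂) := by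
  have hDe : ff p s * ff r t - ff p t * ff r s = 0 := hD
  by_cases h1 : ff p s = 0
  · by_cases h2 : ff p t = 0
    · by_cases h3 : ff r s = 0
      · by_cases h4 : ff r t = 0
        · left
          apply commutator_eq_bot_of_comm
          rintro g ⟨x, hx⟩ g' ⟨y, hy⟩
          apply oo_ext
          show g.1.1 * g'.1.1 = g'.1.1 * g.1.1
          rw [hx, hy, sg_commute_zero h1 h2 h3 h4]
        · have := pair_nf hS hl₁.symm hl₂.symm hi₁.symm hi₂.symm h4 (by
            show ff r t * ff p s - ff r s * ff p t = 0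
            linear_combination hDe)
          rwa [rootO_swap hl₁, rootO_swap hl₂] at this
      · have := pair_nf hS hl₁.symm hl₂ hi₁.symm hi₂ h3 (by
          show ff r s * ff p t - ff r t * ff p s = 0
          linear_combination -hDe)
        rwa [rootO_swap hl₁] at this
    · have := pair_nf hS hl₁ hl₂.symm hi₁ hi₂.symm h2 (by
        show ff p t * ff r s - ff p s * ff r t = 0
        linear_combination -hDe)
      rwa [rootO_swap hl₂] at this
  · exact pair_nf hS hl₁ hl₂ hi₁ hi₂ h1 hD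

/-! ### Connectivity -/

/-- Existence of singular vectors in general position. -/
theorem exists_sing_nb (hN : 3 ≤ N) {x x' u₁ u₂ : V} (hx : QQ x = 0) (hx' : QQ x' = 0)
    (hxx : (x = 0 ∧ x' = 0) ∨ ff x' x = 1) (hu₁ : QQ u₁ = 0) (hu₂ : QQ u₂ = 0) (h1 : ff x u₁ = 0) (h2 : ff x u₂ = 0)
    (hn1 : ∀ c : F, u₁ ≠ c • x) (hn2 : ∀ c : F, u₂ ≠ c • x) :
    ∃ y, QQ y = 0 ∧ ff y x = 0 ∧ ff y u₁ ≠ 0 ∧ ff y u₂ ≠ 0 := by
  have hvx : ∀ v : V, ff v x * ff x' x = ff v x := by
    intro v
    rcases hxx with ⟨rfl, -⟩ | h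
    · rw [ff_zero_right, zero_mul]
    · rw [h, mul_one]
  -- step (a)
  have ha : ∀ u : V, (∀ c : F, u ≠ c • x) → ∃ z, ff z x = 0 ∧ ff z u ≠ 0 := by
    intro u hu
    by_contra hcon
    push Not at hcon
    apply hu (ff x' u)
    have h0 : u - ff x' u • x = 0 := by
      apply ff_nondeg
      intro v
      have h3 := hcon (v - ff v x • x') (by
        rw [ff_sub_left, ff_smul_left, hvx, sub_self])
      rw [ff_sub_left, ff_smul_left] at h3
      rw [ff_sub_right, ff_smul_right]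
      linear_combination h3
    exact sub_eq_zero.mp h0
  obtain ⟨z₁, hz₁, hz₁'⟩ := ha u₁ hn1
  obtain ⟨z₂, hz₂, hz₂'⟩ := ha u₂ hn2
  obtain ⟨z, hz, hzu₁, hzu₂⟩ : ∃ z, ff z x = 0 ∧ ff z u₁ ≠ 0 ∧ ff z u₂ ≠ 0 := by
    by_cases h3 : ff z₁ u₂ = 0
    · by_cases h4 : ff z₂ u₁ = 0
      · refine ⟨z₁ + z₂, by rw [ff_add_left, hz₁, hz₂, add_zero], ?_, ?_⟩
        · rwa [ff_add_left, h4, add_zero]
        · rwa [ff_add_left, h3, zero_add]
      · exact ⟨z₂, hz₂, h4, hz₂'⟩
    · exact ⟨z₁, hz₁, hz₁', h3⟩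
  have hu₁u₁ : ff u₁ u₁ = 0 := ff_self_zero hu₁
  have hu₂u₂ : ff u₂ u₂ = 0 := ff_self_zero hu₂
  have hu₁x : ff u₁ x = 0 := by rw [ff_comm]; exact h1
  have hu₂x : ff u₂ x = 0 := by rw [ff_comm]; exact h2
  by_cases hd : ff u₁ u₂ = 0
  · -- case (c)
    refine ⟨z + (-(QQ z / ff z u₁)) • u₁, ?_, ?_, ?_, ?_⟩
    · rw [QQ_add, QQ_smul, hu₁, ff_smul_right]
      field_simp
      ring
    · rw [ff_add_left, ff_smul_left, hz, hu₁x]
      ring
    · rw [ff_add_left, ff_smul_left, hu₁u₁, mul_zero, add_zero]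
      exact hzu₁
    · rw [ff_add_left, ff_smul_left, hd, mul_zero, add_zero]
      exact hzu₂
  · -- case (d)
    set d := ff u₁ u₂ with hddef
    have hu₂u₁ : ff u₂ u₁ = d := by rw [ff_comm]
    obtain ⟨w, hw1, hw2, hw3, hw⟩ : ∃ w, ff w x = 0 ∧ ff w u₁ = 0 ∧ ff w u₂ = 0 ∧ QQ w ≠ 0 := by
      -- the complementary pair
      set x₁ := x' - (ff x' u₂ / d) • u₁ - (ff x' u₁ / d) • u₂ with hx₁
      have hx₁u₁ : ff x₁ u₁ = 0 := by
        rw [hx₁]
        simp only [ff_sub_left, ff_smul_left, hu₁u₁, hu₂u₁]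
        field_simp
        ring
      have hx₁u₂ : ff x₁ u₂ = 0 := by
        rw [hx₁]
        simp only [ff_sub_left, ff_smul_left, hu₂u₂, ← hddef]
        field_simp
        ring
      have hx₁x : ff x₁ x = ff x' x := by
        rw [hx₁]
        simp only [ff_sub_left, ff_smul_left, hu₁x, hu₂x]
        ring
      set x₂ := x₁ - QQ x₁ • x with hx₂
      have hxx0 : ff x x = 0 := ff_self_zero hx
      have hx₂u₁ : ff x₂ u₁ = 0 := by
        rw [hx₂, ff_sub_left, ff_smul_left, hx₁u₁, h1]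
        ring
      have hx₂u₂ : ff x₂ u₂ = 0 := by
        rw [hx₂, ff_sub_left, ff_smul_left, hx₁u₂, h2]
        ring
      have hx₂x : ff x₂ x = ff x' x := by
        rw [hx₂, ff_sub_left, ff_smul_left, hx₁x, hxx0]
        ring
      have hvx₂ : ∀ v : V, ff v x * ff x₂ x = ff v x := by
        intro v
        rw [hx₂x]
        exact hvx v
      have hQx₂ : QQ x₂ = 0 := by
        rcases hxx with ⟨rfl, rfl⟩ | h
        · have h5 : x₁ = 0 := by
            rw [hx₁]
            simp [ff_zero_left]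
          rw [hx₂, h5]
          simp [QQ_zero]
        · have : QQ x₂ = QQ x₁ - QQ x₁ * ff x₁ x := by
            rw [hx₂, sub_eq_add_neg, QQ_add, show -(QQ x₁ • x) = (-QQ x₁) • x by simp, QQ_smul, hx, ff_smul_right]
            ring
          rw [this, hx₁x, h]
          ring
      have hx₂x₂ : ff x₂ x₂ = 0 := ff_self_zero hQx₂
      have hvx₃ : ∀ v : V, ff v x₂ * ff x x₂ = ff v x₂ := by
        intro v
        rcases hxx with ⟨rfl, rfl⟩ | h
        · have h5 : x₁ = 0 := by
            rw [hx₁]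
            simp [ff_zero_left]
          have : x₂ = 0 := by
            rw [hx₂, h5]
            simp [QQ_zero]
          rw [this, ff_zero_right, zero_mul]
        · rw [ff_comm x x₂, hx₂x, h, mul_one]
      -- the projection
      let π : V → V := fun v => v - (ff v u₂ / d) • u₁ - (ff v u₁ / d) • u₂ - ff v x₂ • x - ff v x • x₂
      have hπ1 : ∀ v, ff (π v) u₁ = 0 := by
        intro v
        simp only [π, ff_sub_left, ff_smul_left, hu₁u₁, hu₂u₁, h1, hx₂u₁]
        field_simp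
        ring
      have hπ2 : ∀ v, ff (π v) u₂ = 0 := by
        intro v
        simp only [π, ff_sub_left, ff_smul_left, hu₂u₂, ← hddef, h2, hx₂u₂]
        field_simp
        ring
      have hπ3 : ∀ v, ff (π v) x = 0 := by
        intro v
        simp only [π, ff_sub_left, ff_smul_left, hu₁x, hu₂x, hxx0, hvx₂]
        ring
      have hπ4 : ∀ v, ff (π v) x₂ = 0 := by
        intro v
        simp only [π, ff_sub_left, ff_smul_left, hx₂x₂, hvx₃]
        rw [ff_comm u₁ x₂, ff_comm u₂ x₂, hx₂u₁, hx₂u₂]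
        ring
      have hπadd : ∀ v v', π (v + v') = π v + π v' := by
        intro v v'
        simp only [π, ff_add_left]
        module
      by_contra hcon
      push Not at hcon
      have hall : ∀ v, QQ (π v) = 0 := fun v => hcon (π v) (hπ3 v) (hπ1 v) (hπ2 v)
      have hff : ∀ v v', ff (π v) (π v') = 0 := by
        intro v v'
        have := QQ_add (π v) (π v')
        rw [← hπadd, hall, hall, hall] at this
        linear_combination -this
      have hzero : ∀ v, π v = 0 := by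
        intro v
        apply ff_nondeg
        intro z'
        have e : z' = π z' + (ff z' u₂ / d) • u₁ + (ff z' u₁ / d) • u₂ + ff z' x₂ • x + ff z' x • x₂ := by
          simp only [π]
          abel
        rw [ff_comm, e]
        simp only [ff_add_right, ff_smul_right, hff, hπ1, hπ2, hπ3, hπ4]
        ring
      -- dimension count
      classical
      have hspan : (⊤ : Submodule F V) ≤ Submodule.span F ((({u₁, u₂, x, x₂} : Finset V)) : Set V) := by
        intro v _
        have e : v = (ff v u₂ / d) • u₁ + (ff v u₁ / d) • u₂ + ff v x₂ • x + ff v x • x₂ := by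
          have := hzero v
          simp only [π] at this
          have h5 : v - (ff v u₂ / d) • u₁ - (ff v u₁ / d) • u₂ - ff v x₂ • x - ff v x • x₂ = 0 := this
          have h6 : v = (v - (ff v u₂ / d) • u₁ - (ff v u₁ / d) • u₂ - ff v x₂ • x - ff v x • x₂) +
            ((ff v u₂ / d) • u₁ + (ff v u₁ / d) • u₂ + ff v x₂ • x + ff v x • x₂) := by abel
          rw [h5, zero_add] at h6
          exact h6
        rw [e]
        have hm : ∀ y ∈ ({u₁, u₂, x, x₂} : Finset V), y ∈ Submodule.span F ((({u₁, u₂, x, x₂} : Finset V)) : Set V) :=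
          fun y hy => Submodule.subset_span hy
        refine Submodule.add_mem _ (Submodule.add_mem _ (Submodule.add_mem _ ?_ ?_) ?_) ?_
        · exact Submodule.smul_mem _ _ (hm _ (by simp))
        · exact Submodule.smul_mem _ _ (hm _ (by simp))
        · exact Submodule.smul_mem _ _ (hm _ (by simp))
        · exact Submodule.smul_mem _ _ (hm _ (by simp))
      have hf1 := finrank_span_finset_le_card (R := F) (({u₁, u₂, x, x₂} : Finset V))
      have hf2 : Set.finrank F ((({u₁, u₂, x, x₂} : Finset V)) : Set V) = Module.finrank F V := by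
        unfold Set.finrank
        rw [top_le_iff.mp hspan, finrank_top]
      have hf3 : Module.finrank F V = N + N := by
        rw [Module.finrank_fintype_fun_eq_card, Fintype.card_sum, Fintype.card_fin]
      have hf4 : (({u₁, u₂, x, x₂} : Finset V)).card ≤ 4 := Finset.card_le_four
      omega
    refine ⟨w + u₁ + (-(QQ w / d)) • u₂, ?_, ?_, ?_, ?_⟩
    · rw [QQ_add, QQ_add, QQ_smul, hu₁, hu₂, ff_add_left, ff_smul_right, ff_smul_right, hw3, hw2, ← hddef]
      field_simp
      ring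
    · rw [ff_add_left, ff_add_left, ff_smul_left, hw1, hu₁x, hu₂x]
      ring
    · rw [ff_add_left, ff_add_left, ff_smul_left, hw2, hu₁u₁, hu₂u₁]
      intro h0
      apply hw
      field_simp at h0
      linear_combination -h0
    · rw [ff_add_left, ff_add_left, ff_smul_left, hw3, hu₂u₂, ← hddef]
      intro h0
      apply hd
      linear_combination h0

theorem Sing.comb {p r : V} (h : Sing p r) (α β : F) : QQ (α • p + β • r) = 0 := by
  rw [QQ_add, QQ_smul, QQ_smul, h.qu, h.qv, ff_smul_left, ff_smul_right, h.uv]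
  ring

/-- The common neighbour. -/
theorem exists_common_line (hN : 3 ≤ N) {p r s t : V} (hl₁ : Sing p r) (hl₂ : Sing s t) (hi₁ : Ind p r) (hi₂ : Ind s t) :
    ∃ x y : V, Sing x y ∧ Ind x y ∧ DD p r x y ≠ 0 ∧ DD x y s t ≠ 0 := by
  have hp0 := hi₁.left_ne
  have hs0 := hi₂.left_ne
  obtain ⟨x, hx, -, hxp, hxs⟩ := exists_sing_nb (x := 0) (x' := 0) (u₁ := p) (u₂ := s) hN QQ_zero QQ_zero
    (Or.inl ⟨rfl, rfl⟩) hl₁.qu hl₂.qu (ff_zero_left _) (ff_zero_left _) (fun c => by rw [smul_zero]; exact hp0)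
    (fun c => by rw [smul_zero]; exact hs0)
  have hx0 : x ≠ 0 := by
    rintro rfl
    exact hxp (ff_zero_left _)
  obtain ⟨x₁, hx₁⟩ : ∃ x₁, ff x₁ x = 1 := by
    obtain ⟨z, hz⟩ : ∃ z, ff z x ≠ 0 := by
      by_contra hcon
      push Not at hcon
      exact hx0 (ff_nondeg hcon)
    exact ⟨(ff z x)⁻¹ • z, by rw [ff_smul_left, inv_mul_cancel₀ hz]⟩
  have hxx : ff x x = 0 := ff_self_zero hx
  set x' := x₁ - QQ x₁ • x with hx'
  have hx'x : ff x' x = 1 := by
    rw [hx', ff_sub_left, ff_smul_left, hx₁, hxx]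
    ring
  have hQx' : QQ x' = 0 := by
    rw [hx', sub_eq_add_neg, QQ_add, show -(QQ x₁ • x) = (-QQ x₁) • x by simp, QQ_smul, hx, ff_smul_right, hx₁]
    ring
  set u₁ := ff x r • p + (-ff x p) • r with hu₁
  set u₂ := ff x t • s + (-ff x s) • t with hu₂
  have hQu₁ : QQ u₁ = 0 := hl₁.comb _ _
  have hQu₂ : QQ u₂ = 0 := hl₂.comb _ _
  have hxu₁ : ff x u₁ = 0 := by
    rw [hu₁, ff_add_right, ff_smul_right, ff_smul_right]
    ring
  have hxu₂ : ff x u₂ = 0 := by
    rw [hu₂, ff_add_right, ff_smul_right, ff_smul_right]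
    ring
  have hn1 : ∀ c : F, u₁ ≠ c • x := by
    intro c hc
    have h3 : ff u₁ p = 0 := by
      rw [hu₁, ff_add_left, ff_smul_left, ff_smul_left, hl₁.uu, hl₁.vu]
      ring
    rw [hc, ff_smul_left] at h3
    have hc0 : c = 0 := (mul_eq_zero.mp h3).resolve_right hxp
    rw [hc0, zero_smul] at hc
    have := (hi₁ _ _ hc).2
    exact hxp (neg_eq_zero.mp this)
  have hn2 : ∀ c : F, u₂ ≠ c • x := by
    intro c hc
    have h3 : ff u₂ s = 0 := by
      rw [hu₂, ff_add_left, ff_smul_left, ff_smul_left, hl₂.uu, hl₂.vu]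
      ring
    rw [hc, ff_smul_left] at h3
    have hc0 : c = 0 := (mul_eq_zero.mp h3).resolve_right hxs
    rw [hc0, zero_smul] at hc
    have := (hi₂ _ _ hc).2
    exact hxs (neg_eq_zero.mp this)
  obtain ⟨y, hy, hyx, hyu₁, hyu₂⟩ := exists_sing_nb hN hx hQx' (Or.inr hx'x) hQu₁ hQu₂ hxu₁ hxu₂ hn1 hn2
  refine ⟨x, y, ⟨hx, hy, by rw [ff_comm]; exact hyx⟩, ?_, ?_, ?_⟩
  · intro α β h0
    have h3 : ff (α • x + β • y) u₁ = 0 := by rw [h0, ff_zero_left]
    rw [ff_add_left, ff_smul_left, ff_smul_left, hxu₁, mul_zero, zero_add] at h3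
    have hβ : β = 0 := (mul_eq_zero.mp h3).resolve_right hyu₁
    rw [hβ, zero_smul, add_zero] at h0
    exact ⟨(smul_eq_zero.mp h0).resolve_right hx0, hβ⟩
  · intro h0
    apply hyu₁
    have h3 : ff p x * ff r y - ff p y * ff r x = 0 := h0
    rw [hu₁, ff_add_right, ff_smul_right, ff_smul_right, ff_comm y p, ff_comm y r, ff_comm x r, ff_comm x p]
    linear_combination -h3
  · intro h0
    apply hyu₂
    have h3 : ff x s * ff y t - ff x t * ff y s = 0 := h0
    rw [hu₂, ff_add_right, ff_smul_right, ff_smul_right]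
    linear_combination -h3

end Cfsg.Agent.Lib.Root.Siegel
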