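import Mathlib

/-!
Recognition of `SL₂(2)` and `SL₂(3)` from generators `a, c` with `a c a = c a c` and `a ^ p = c ^ p = 1`.
-/

set_option autoImplicit false

namespace Cfsg.Agent.Lib.Root

open Matrix

section Forms

variable {P : Type*} [Group P]

/-- The elements `1, I, J, K` attached to `A, C`. -/
def sl3Rho (A C : P) (r : Fin 4) : P :=
  match r with
  | 0 => 1
  | 1 => A * C * A
  | 2 => C * A⁻¹
  | 3 => A⁻¹ * C

/-- The normal form in the group generated. -/
def sl3Word (A C : P) (e : Fin 2) (r : Fin 4) (m : Fin 3) : P :=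
  ((A * C * A) * (A * C * A)) ^ (e : ℕ) * sl3Rho A C r * A ^ (m : ℕ)

lemma sl3Word_map {Q : Type*} [Group Q] (f : P →* Q) (A C : P) (e : Fin 2) (r : Fin 4) (m : Fin 3) :
    f (sl3Word A C e r m) = sl3Word (f A) (f C) e r m := by
  unfold sl3Word
  fin_cases r <;> simp [sl3Rho]

lemma q8_rel {I J K : P} (h1 : I * J = K) (h2 : J * K = I) (h3 : K * I = J) :
    J * J = I * I ∧ K * K = I * I ∧ I * K = I * I * J ∧ J * I = I * I * K ∧ K * J = I * I * I ∧
      I * I * (I * I) = 1 := by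
  subst h1
  have hJJ : J * J = I * I := by
    calc J * J = J * (I * J * I) := by rw [h3]
      _ = (J * (I * J)) * I := by group
      _ = I * I := by rw [h2]
  have hKK : I * J * (I * J) = I * I := by
    calc I * J * (I * J) = I * (J * (I * J)) := by group
      _ = I * I := by rw [h2]
  refine ⟨hJJ, hKK, by group, ?_, ?_, ?_⟩
  · calc J * I = J * (J * (I * J)) := by rw [h2]
      _ = J * J * (I * J) := by group
      _ = I * I * (I * J) := by rw [hJJ]
  · calc I * J * J = I * J * (I * J * I) := by rw [h3]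
      _ = (I * J * (I * J)) * I := by group
      _ = I * I * I := by rw [hKK]
  · have h4 : J⁻¹ * I * J = I⁻¹ := by
      have : J⁻¹ * (I * J * I) = 1 := by rw [h3]; group
      calc J⁻¹ * I * J = J⁻¹ * (I * J * I) * I⁻¹ := by group
        _ = I⁻¹ := by rw [this]; group
    have h5 : J⁻¹ * (I * I) * J = I⁻¹ * I⁻¹ := by
      calc J⁻¹ * (I * I) * J = (J⁻¹ * I * J) * (J⁻¹ * I * J) := by group
        _ = I⁻¹ * I⁻¹ := by rw [h4]
    have h6 : J⁻¹ * (I * I) * J = I * I := by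
      rw [← hJJ]; group
    rw [h6] at h5
    calc I * I * (I * I) = (I⁻¹ * I⁻¹) * (I * I) := by rw [← h5]
      _ = 1 := by group

lemma sl3_form {A C : P} (hA3 : A * A * A = 1) (hC3 : C * C * C = 1) (hb : A * C * A = C * A * C) :
    ∀ g ∈ Subgroup.closure ({A, C} : Set P), ∃ e r m, g = sl3Word A C e r m := by
  have hAi : A⁻¹ = A * A := by
    rw [inv_eq_iff_mul_eq_one, ← mul_assoc]; exact hA3
  have hAii : A⁻¹ * A⁻¹ = A := by
    calc A⁻¹ * A⁻¹ = A⁻¹ * A⁻¹ * (A * A * A) := by rw [hA3, mul_one]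
      _ = A := by group
  have hCi : C⁻¹ = C * C := by
    rw [inv_eq_iff_mul_eq_one, ← mul_assoc]; exact hC3
  set I := A * C * A with hI
  set J := C * A⁻¹ with hJ
  set K := A⁻¹ * C with hK
  have hIJ : I * J = K := by
    have h1 : I * J = A * (C * A * C) * A⁻¹ := by rw [hI, hJ]; group
    rw [h1, ← hb, hK]
    calc A * (A * C * A) * A⁻¹ = A * A * C := by group
      _ = A⁻¹ * C := by rw [hAi]
  have hconjI : A⁻¹ * I * A = J := by
    rw [hI, hJ]
    calc A⁻¹ * (A * C * A) * A = C * (A * A) := by group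
      _ = C * A⁻¹ := by rw [hAi]
  have hconjJ : A⁻¹ * J * A = K := by
    rw [hJ, hK]; group
  have hconjK : A⁻¹ * K * A = I := by
    rw [hK, hI]
    calc A⁻¹ * (A⁻¹ * C) * A = (A⁻¹ * A⁻¹) * C * A := by group
      _ = A * C * A := by rw [hAii]
  have hmulconj : ∀ x y : P, A⁻¹ * (x * y) * A = (A⁻¹ * x * A) * (A⁻¹ * y * A) := by
    intro x y; group
  have hJK : J * K = I := by
    have := hmulconj I J
    rw [hIJ, hconjI, hconjJ, hconjK] at this
    exact this.symm
  have hKI : K * I = J := by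
    have := hmulconj J K
    rw [hJK, hconjI, hconjJ, hconjK] at this
    exact this.symm
  obtain ⟨hJJ, hKK, hIK, hJI, hKJ, hZZ⟩ := q8_rel hIJ hJK hKI
  set Z := I * I with hZ
  -- the table
  let qq : Fin 3 → P := ![J, I, K]
  have hq : ∀ (r : Fin 4) (t : Fin 3), ∃ (e' : Fin 2) (r' : Fin 4),
      sl3Rho A C r * qq t = Z ^ (e' : ℕ) * sl3Rho A C r' := by
    intro r t
    fin_cases r <;> fin_cases t
    · refine ⟨0, 2, ?_⟩
      show 1 * J = Z ^ (0 : ℕ) * J
      rw [pow_zero]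
    · refine ⟨0, 1, ?_⟩
      show 1 * I = Z ^ (0 : ℕ) * I
      rw [pow_zero]
    · refine ⟨0, 3, ?_⟩
      show 1 * K = Z ^ (0 : ℕ) * K
      rw [pow_zero]
    · refine ⟨0, 3, ?_⟩
      show I * J = Z ^ (0 : ℕ) * K
      rw [pow_zero, one_mul, hIJ]
    · refine ⟨1, 0, ?_⟩
      show I * I = Z ^ (1 : ℕ) * 1
      rw [pow_one, mul_one]
    · refine ⟨1, 2, ?_⟩
      show I * K = Z ^ (1 : ℕ) * J
      rw [pow_one, hIK]
    · refine ⟨1, 0, ?_⟩
      show J * J = Z ^ (1 : ℕ) * 1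
      rw [pow_one, mul_one, hJJ]
    · refine ⟨1, 3, ?_⟩
      show J * I = Z ^ (1 : ℕ) * K
      rw [pow_one, hJI]
    · refine ⟨0, 1, ?_⟩
      show J * K = Z ^ (0 : ℕ) * I
      rw [pow_zero, one_mul, hJK]
    · refine ⟨1, 1, ?_⟩
      show K * J = Z ^ (1 : ℕ) * I
      rw [pow_one, hKJ]
    · refine ⟨0, 2, ?_⟩
      show K * I = Z ^ (0 : ℕ) * J
      rw [pow_zero, one_mul, hKI]
    · refine ⟨1, 0, ?_⟩
      show K * K = Z ^ (1 : ℕ) * 1
      rw [pow_one, mul_one, hKK]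
  have hm : ∀ m : Fin 3, ∃ (t : Fin 3) (m' : Fin 3), A ^ (m : ℕ) * C = qq t * A ^ (m' : ℕ) := by
    intro m
    fin_cases m
    · refine ⟨0, 1, ?_⟩
      show A ^ (0 : ℕ) * C = J * A ^ (1 : ℕ)
      rw [pow_zero, pow_one, one_mul, hJ]
      group
    · refine ⟨1, 2, ?_⟩
      show A ^ (1 : ℕ) * C = I * A ^ (2 : ℕ)
      rw [pow_one, pow_two, hI]
      calc A * C = A * C * (A * A * A) := by rw [hA3, mul_one]
        _ = A * C * A * (A * A) := by group
    · refine ⟨2, 0, ?_⟩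
      show A ^ (2 : ℕ) * C = K * A ^ (0 : ℕ)
      rw [pow_zero, pow_two, mul_one, hK, hAi]
  have hz : ∀ e e' : Fin 2, ∃ e'' : Fin 2, Z ^ (e : ℕ) * Z ^ (e' : ℕ) = Z ^ (e'' : ℕ) := by
    intro e e'
    fin_cases e <;> fin_cases e'
    · exact ⟨0, by simp⟩
    · exact ⟨1, by simp⟩
    · exact ⟨1, by simp⟩
    · refine ⟨0, ?_⟩
      show Z ^ (1 : ℕ) * Z ^ (1 : ℕ) = Z ^ (0 : ℕ)
      rw [pow_one, pow_zero, hZZ]
  have hstepA : ∀ (e : Fin 2) (r : Fin 4) (m : Fin 3), ∃ e' r' m',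
      sl3Word A C e r m * A = sl3Word A C e' r' m' := by
    intro e r m
    fin_cases m
    · refine ⟨e, r, 1, ?_⟩
      show Z ^ (e : ℕ) * sl3Rho A C r * A ^ (0 : ℕ) * A = Z ^ (e : ℕ) * sl3Rho A C r * A ^ (1 : ℕ)
      simp
    · refine ⟨e, r, 2, ?_⟩
      show Z ^ (e : ℕ) * sl3Rho A C r * A ^ (1 : ℕ) * A = Z ^ (e : ℕ) * sl3Rho A C r * A ^ (2 : ℕ)
      rw [pow_one, pow_two, mul_assoc]
    · refine ⟨e, r, 0, ?_⟩
      show Z ^ (e : ℕ) * sl3Rho A C r * A ^ (2 : ℕ) * A = Z ^ (e : ℕ) * sl3Rho A C r * A ^ (0 : ℕ)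
      rw [pow_two, pow_zero, mul_assoc, hA3]
  have hstepC : ∀ (e : Fin 2) (r : Fin 4) (m : Fin 3), ∃ e' r' m',
      sl3Word A C e r m * C = sl3Word A C e' r' m' := by
    intro e r m
    obtain ⟨t, m', h1⟩ := hm m
    obtain ⟨e', r', h2⟩ := hq r t
    obtain ⟨e'', h3⟩ := hz e e'
    refine ⟨e'', r', m', ?_⟩
    show Z ^ (e : ℕ) * sl3Rho A C r * A ^ (m : ℕ) * C = Z ^ (e'' : ℕ) * sl3Rho A C r' * A ^ (m' : ℕ)
    rw [mul_assoc, h1, ← mul_assoc, mul_assoc (Z ^ (e : ℕ)), h2, ← mul_assoc, h3]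
  intro g hg
  induction hg using Subgroup.closure_induction_right with
  | one => exact ⟨0, 0, 0, by simp [sl3Word, sl3Rho]⟩
  | mul_right x hx y hy ih =>
    obtain ⟨e, r, m, rfl⟩ := ih
    rcases hy with rfl | rfl
    · exact hstepA e r m
    · exact hstepC e r m
  | mul_inv_cancel x hx y hy ih =>
    obtain ⟨e, r, m, rfl⟩ := ih
    rcases hy with rfl | rfl
    · rw [hAi, ← mul_assoc]
      obtain ⟨e', r', m', h1⟩ := hstepA e r m
      rw [h1]
      exact hstepA e' r' m'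
    · rw [hCi, ← mul_assoc]
      obtain ⟨e', r', m', h1⟩ := hstepC e r m
      rw [h1]
      exact hstepC e' r' m'

lemma sl3Word_mem (A C : P) (e : Fin 2) (r : Fin 4) (m : Fin 3) :
    sl3Word A C e r m ∈ Subgroup.closure ({A, C} : Set P) := by
  have hA : A ∈ Subgroup.closure ({A, C} : Set P) := Subgroup.subset_closure (by simp)
  have hC : C ∈ Subgroup.closure ({A, C} : Set P) := Subgroup.subset_closure (by simp)
  have hI : A * C * A ∈ Subgroup.closure ({A, C} : Set P) :=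
    Subgroup.mul_mem _ (Subgroup.mul_mem _ hA hC) hA
  unfold sl3Word
  refine Subgroup.mul_mem _ (Subgroup.mul_mem _ (Subgroup.pow_mem _ (Subgroup.mul_mem _ hI hI) _) ?_)
    (Subgroup.pow_mem _ hA _)
  fin_cases r
  · exact Subgroup.one_mem _
  · exact hI
  · exact Subgroup.mul_mem _ hC (Subgroup.inv_mem _ hA)
  · exact Subgroup.mul_mem _ (Subgroup.inv_mem _ hA) hC

end Forms

/-- `SL₂(3)`. -/
abbrev SL23 := Matrix.SpecialLinearGroup (Fin 2) (ZMod 3)

/-- The upper generator of `SL₂(3)`. -/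
def sl3a : SL23 := ⟨!![1, 1; 0, 1], by decide⟩

/-- The lower generator of `SL₂(3)`. -/
def sl3c : SL23 := ⟨!![1, 0; -1, 1], by decide⟩

theorem sl3Word_eq_one : ∀ (e : Fin 2) (r : Fin 4) (m : Fin 3),
    sl3Word sl3a sl3c e r m = 1 → e = 0 ∧ r = 0 ∧ m = 0 := by
  decide +kernel

theorem sl3Word_surj : ∀ g : SL23, ∃ (e : Fin 2) (r : Fin 4) (m : Fin 3),
    sl3Word sl3a sl3c e r m = g := by
  decide +kernel

/-- The universal property of `SL₂(3)`. -/
theorem exists_hom_sl3 {X : Type*} [Group X] {a c : X} (ha : a * a * a = 1) (hc : c * c * c = 1)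
    (hb : a * c * a = c * a * c) : ∃ f : SL23 →* X, f sl3a = a ∧ f sl3c = c := by
  have ha0 : sl3a * sl3a * sl3a = 1 := by decide +kernel
  have hc0 : sl3c * sl3c * sl3c = 1 := by decide +kernel
  have hb0 : sl3a * sl3c * sl3a = sl3c * sl3a * sl3c := by decide +kernel
  let A : X × SL23 := (a, sl3a)
  let C : X × SL23 := (c, sl3c)
  have hA3 : A * A * A = 1 := Prod.ext ha ha0
  have hC3 : C * C * C = 1 := Prod.ext hc hc0
  have hAC : A * C * A = C * A * C := Prod.ext hb hb0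
  let H := Subgroup.closure ({A, C} : Set (X × SL23))
  let π : H →* SL23 := (MonoidHom.snd X SL23).comp H.subtype
  have hinj : Function.Injective π := by
    rw [injective_iff_map_eq_one]
    rintro ⟨g, hg⟩ h1
    obtain ⟨e, r, m, rfl⟩ := sl3_form hA3 hC3 hAC g hg
    have h2 : sl3Word sl3a sl3c e r m = 1 := by
      have h3 : (MonoidHom.snd X SL23) (sl3Word A C e r m) = 1 := h1
      rw [sl3Word_map] at h3
      exact h3
    obtain ⟨rfl, rfl, rfl⟩ := sl3Word_eq_one e r m h2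
    apply Subtype.ext
    simp [sl3Word, sl3Rho]
  have hsurj : Function.Surjective π := by
    intro g
    obtain ⟨e, r, m, rfl⟩ := sl3Word_surj g
    refine ⟨⟨sl3Word A C e r m, sl3Word_mem A C e r m⟩, ?_⟩
    change (MonoidHom.snd X SL23) (sl3Word A C e r m) = _
    rw [sl3Word_map]
    rfl
  let eqv := MulEquiv.ofBijective π ⟨hinj, hsurj⟩
  have hAm : A ∈ H := Subgroup.subset_closure (by simp)
  have hCm : C ∈ H := Subgroup.subset_closure (by simp)
  refine ⟨(MonoidHom.fst X SL23).comp (H.subtype.comp eqv.symm.toMonoidHom), ?_, ?_⟩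
  · have : eqv.symm sl3a = ⟨A, hAm⟩ := by
      rw [MulEquiv.symm_apply_eq]
      rfl
    simp [this, A]
  · have : eqv.symm sl3c = ⟨C, hCm⟩ := by
      rw [MulEquiv.symm_apply_eq]
      rfl
    simp [this, C]

/-- `SL₂(2)`. -/
abbrev SL22 := Matrix.SpecialLinearGroup (Fin 2) (ZMod 2)

/-- The upper generator of `SL₂(2)`. -/
def sl2a : SL22 := ⟨!![1, 1; 0, 1], by decide⟩

/-- The lower generator of `SL₂(2)`. -/
def sl2c : SL22 := ⟨!![1, 0; 1, 1], by decide⟩

section Forms2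

variable {P : Type*} [Group P]

/-- The normal form in `S₃`. -/
def sl2Word (A C : P) (i : Fin 6) : P :=
  match i with
  | 0 => 1
  | 1 => A
  | 2 => C
  | 3 => A * C
  | 4 => C * A
  | 5 => A * C * A

lemma sl2Word_map {Q : Type*} [Group Q] (f : P →* Q) (A C : P) (i : Fin 6) :
    f (sl2Word A C i) = sl2Word (f A) (f C) i := by
  fin_cases i <;> simp [sl2Word]

lemma sl2Word_mem (A C : P) (i : Fin 6) :
    sl2Word A C i ∈ Subgroup.closure ({A, C} : Set P) := by
  have hA : A ∈ Subgroup.closure ({A, C} : Set P) := Subgroup.subset_closure (by simp)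
  have hC : C ∈ Subgroup.closure ({A, C} : Set P) := Subgroup.subset_closure (by simp)
  fin_cases i
  · exact Subgroup.one_mem _
  · exact hA
  · exact hC
  · exact Subgroup.mul_mem _ hA hC
  · exact Subgroup.mul_mem _ hC hA
  · exact Subgroup.mul_mem _ (Subgroup.mul_mem _ hA hC) hA

lemma sl2_form {A C : P} (hA2 : A * A = 1) (hC2 : C * C = 1) (hb : A * C * A = C * A * C) :
    ∀ g ∈ Subgroup.closure ({A, C} : Set P), ∃ i, g = sl2Word A C i := by
  have hAi : A⁻¹ = A := inv_eq_of_mul_eq_one_left hA2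
  have hCi : C⁻¹ = C := inv_eq_of_mul_eq_one_left hC2
  have hstepA : ∀ i, ∃ j, sl2Word A C i * A = sl2Word A C j := by
    intro i
    fin_cases i
    · exact ⟨1, one_mul A⟩
    · exact ⟨0, hA2⟩
    · exact ⟨4, rfl⟩
    · exact ⟨5, rfl⟩
    · refine ⟨2, ?_⟩
      show C * A * A = C
      rw [mul_assoc, hA2, mul_one]
    · refine ⟨3, ?_⟩
      show A * C * A * A = A * C
      rw [mul_assoc, hA2, mul_one]
  have hstepC : ∀ i, ∃ j, sl2Word A C i * C = sl2Word A C j := by
    intro i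
    fin_cases i
    · exact ⟨2, one_mul C⟩
    · exact ⟨3, rfl⟩
    · exact ⟨0, hC2⟩
    · refine ⟨1, ?_⟩
      show A * C * C = A
      rw [mul_assoc, hC2, mul_one]
    · refine ⟨5, ?_⟩
      show C * A * C = A * C * A
      rw [hb]
    · refine ⟨4, ?_⟩
      show A * C * A * C = C * A
      rw [hb, mul_assoc, hC2, mul_one]
  intro g hg
  induction hg using Subgroup.closure_induction_right with
  | one => exact ⟨0, rfl⟩
  | mul_right x hx y hy ih =>
    obtain ⟨i, rfl⟩ := ih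
    rcases hy with rfl | rfl
    · exact hstepA i
    · exact hstepC i
  | mul_inv_cancel x hx y hy ih =>
    obtain ⟨i, rfl⟩ := ih
    rcases hy with rfl | rfl
    · rw [hAi]; exact hstepA i
    · rw [hCi]; exact hstepC i

end Forms2

theorem sl2Word_eq_one : ∀ i : Fin 6, sl2Word sl2a sl2c i = 1 → i = 0 := by
  decide +kernel

theorem sl2Word_surj : ∀ g : SL22, ∃ i : Fin 6, sl2Word sl2a sl2c i = g := by
  decide +kernel

/-- The universal property of `SL₂(2)`. -/
theorem exists_hom_sl2 {X : Type*} [Group X] {a c : X} (ha : a * a = 1) (hc : c * c = 1)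
    (hb : a * c * a = c * a * c) : ∃ f : SL22 →* X, f sl2a = a ∧ f sl2c = c := by
  have ha0 : sl2a * sl2a = 1 := by decide +kernel
  have hc0 : sl2c * sl2c = 1 := by decide +kernel
  have hb0 : sl2a * sl2c * sl2a = sl2c * sl2a * sl2c := by decide +kernel
  let A : X × SL22 := (a, sl2a)
  let C : X × SL22 := (c, sl2c)
  have hA2 : A * A = 1 := Prod.ext ha ha0
  have hC2 : C * C = 1 := Prod.ext hc hc0
  have hAC : A * C * A = C * A * C := Prod.ext hb hb0
  let H := Subgroup.closure ({A, C} : Set (X × SL22))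
  let π : H →* SL22 := (MonoidHom.snd X SL22).comp H.subtype
  have hinj : Function.Injective π := by
    rw [injective_iff_map_eq_one]
    rintro ⟨g, hg⟩ h1
    obtain ⟨i, rfl⟩ := sl2_form hA2 hC2 hAC g hg
    have h2 : sl2Word sl2a sl2c i = 1 := by
      have h3 : (MonoidHom.snd X SL22) (sl2Word A C i) = 1 := h1
      rw [sl2Word_map] at h3
      exact h3
    obtain rfl := sl2Word_eq_one i h2
    rfl
  have hsurj : Function.Surjective π := by
    intro g
    obtain ⟨i, rfl⟩ := sl2Word_surj g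
    refine ⟨⟨sl2Word A C i, sl2Word_mem A C i⟩, ?_⟩
    change (MonoidHom.snd X SL22) (sl2Word A C i) = _
    rw [sl2Word_map]
    rfl
  let eqv := MulEquiv.ofBijective π ⟨hinj, hsurj⟩
  have hAm : A ∈ H := Subgroup.subset_closure (by simp)
  have hCm : C ∈ H := Subgroup.subset_closure (by simp)
  refine ⟨(MonoidHom.fst X SL22).comp (H.subtype.comp eqv.symm.toMonoidHom), ?_, ?_⟩
  · have : eqv.symm sl2a = ⟨A, hAm⟩ := by
      rw [MulEquiv.symm_apply_eq]
      rfl
    simp [this, A]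
  · have : eqv.symm sl2c = ⟨C, hCm⟩ := by
      rw [MulEquiv.symm_apply_eq]
      rfl
    simp [this, C]

/-- Classification of the kernels for `p = 3`. -/
theorem sl3_kernel : ∀ g : SL23, g = 1 ∨ g = -1 ∨ ∃ h k : SL23,
    k * g * k⁻¹ = sl3a * sl3c * sl3a ∨
      k * (g * h * g⁻¹ * h⁻¹) * k⁻¹ = sl3a * sl3c * sl3a := by
  decide +kernel

theorem sl3_center : ∀ g : SL23, g ∈ Subgroup.center SL23 ↔ g = 1 ∨ g = -1 := by
  intro g
  rw [Subgroup.mem_center_iff]
  revert g
  decide +kernel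

theorem sl2_kernel : ∀ g : SL22, g = 1 ∨ g = sl2a * sl2c ∨ g = (sl2a * sl2c)⁻¹ ∨ ∃ k : SL22,
    k * g * k⁻¹ = sl2a := by
  decide +kernel

end Cfsg.Agent.Lib.Root
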