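import Mathlib
import Cfsg.Agent.Lib.Root.RankOne

/-!
A conjugation invariant family of subgroups acting pairwise unipotently acts unipotently.
-/

set_option autoImplicit false

namespace Cfsg.Agent.Lib.Root

open Cfsg

section Alg

variable {k A : Type*} [Field k] [Ring A] [Algebra k A]

/-- Closed under products. -/
def MulClosed (S : Submodule k A) : Prop := S * S ≤ S

/-- Nilpotent. -/
def IsNilS (S : Submodule k A) : Prop := ∃ n : ℕ, S ^ n = ⊥

lemma MulClosed.mul_mem {S : Submodule k A} (h : MulClosed S) {x y : A} (hx : x ∈ S) (hy : y ∈ S) :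
    x * y ∈ S := h (Submodule.mul_mem_mul hx hy)

lemma IsNilS.mono {S T : Submodule k A} (hle : S ≤ T) (h : IsNilS T) : IsNilS S := by
  obtain ⟨n, hn⟩ := h
  refine ⟨n, ?_⟩
  rw [eq_bot_iff, ← hn]
  exact pow_le_pow_left' hle n

lemma MulClosed.pow_succ_le {S : Submodule k A} (h : MulClosed S) (i : ℕ) :
    S ^ (i + 1 + 1) ≤ S ^ (i + 1) := by
  rw [pow_succ]
  calc S ^ (i + 1) * S = S ^ i * (S * S) := by rw [pow_succ, mul_assoc]
    _ ≤ S ^ i * S := by gcongr; exact h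
    _ = S ^ (i + 1) := (pow_succ _ _).symm

lemma MulClosed.pow_le {S : Submodule k A} (h : MulClosed S) (i j : ℕ) (hij : i ≤ j) :
    S ^ (j + 1) ≤ S ^ (i + 1) := by
  induction j, hij using Nat.le_induction with
  | base => exact le_rfl
  | succ j _ ih => exact le_trans (h.pow_succ_le j) ih

lemma list_prod_mem_pow (S : Submodule k A) (l : List A) (hl : ∀ x ∈ l, x ∈ S) :
    l.prod ∈ S ^ l.length := by
  induction l with
  | nil => simp [Submodule.one_le.mp le_rfl]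
  | cons a l ih =>
    rw [List.prod_cons, List.length_cons, pow_succ']
    exact Submodule.mul_mem_mul (hl a (List.mem_cons_self ..))
      (ih (fun x hx => hl x (List.mem_cons_of_mem _ hx)))

/-- In a nilpotent closed submodule, `T + T²` generation forces equality. -/
lemma le_of_le_sup_mul {T T' : Submodule k A} (hT : MulClosed T) (hT' : MulClosed T') (hle : T ≤ T')
    (hnil : IsNilS T') (h : T' ≤ T ⊔ T' * T') : T' ≤ T := by
  have key : ∀ i : ℕ, T' ≤ T ⊔ T' ^ (i + 1) := by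
    intro i
    induction i with
    | zero => simp
    | succ i ih =>
      refine le_trans h (sup_le le_sup_left ?_)
      refine le_trans (Submodule.smul_mono ih ih) ?_
      change (T ⊔ T' ^ (i + 1)) * (T ⊔ T' ^ (i + 1)) ≤ _
      rw [Submodule.sup_mul, Submodule.mul_sup, Submodule.mul_sup]
      refine sup_le (sup_le (le_trans hT le_sup_left) ?_) (sup_le ?_ ?_)
      · have h3 : T * T' ^ (i + 1) ≤ T' * T' ^ (i + 1) := by gcongr
        refine le_trans h3 ?_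
        rw [← pow_succ']
        exact le_sup_right
      · have h3 : T' ^ (i + 1) * T ≤ T' ^ (i + 1) * T' := by gcongr
        refine le_trans h3 ?_
        rw [← pow_succ]
        exact le_sup_right
      · rw [← pow_add]
        refine le_trans (hT'.pow_le (i + 1) (i + 1 + i) (by omega)) ?_
        exact le_sup_right
  obtain ⟨n, hn⟩ := hnil
  have h1 := key n
  have h2 : T' ^ (n + 1) = ⊥ := by
    rw [pow_succ, hn, Submodule.bot_mul]
  rwa [h2, sup_bot_eq] at h1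

end Alg

section Rep

variable {k M H : Type*} [Field k] [AddCommGroup M] [Module k M] [Group H]
  (ρ : H →* Module.End k M)

/-- The unipotent action. -/
def UnipOn (U : Subgroup H) : Prop :=
  ∃ n : ℕ, ∀ l : List H, (∀ g ∈ l, g ∈ U) → l.length = n → (l.map fun g => ρ g - 1).prod = 0

/-- The augmentation span. -/
def augI (U : Subgroup H) : Submodule k (Module.End k M) :=
  Submodule.span k ((fun g => ρ g - 1) '' (U : Set H))

variable {ρ}

lemma sub_one_mem_augI {U : Subgroup H} {g : H} (hg : g ∈ U) : ρ g - 1 ∈ augI ρ U :=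
  Submodule.subset_span ⟨g, hg, rfl⟩

lemma rho_mul_sub (g h : H) : ρ (g * h) - 1 = (ρ g - 1) * (ρ h - 1) + (ρ g - 1) + (ρ h - 1) := by
  rw [map_mul]
  noncomm_ring

lemma augI_mulClosed (U : Subgroup H) : MulClosed (augI ρ U) := by
  unfold MulClosed augI
  rw [Submodule.span_mul_span, Submodule.span_le]
  rintro _ ⟨_, ⟨g, hg, rfl⟩, _, ⟨h, hh, rfl⟩, rfl⟩
  simp only
  have e : (ρ g - 1) * (ρ h - 1) = (ρ (g * h) - 1) - (ρ g - 1) - (ρ h - 1) := by
    rw [rho_mul_sub]; abel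
  rw [e]
  exact Submodule.sub_mem _ (Submodule.sub_mem _ (Submodule.subset_span ⟨_, U.mul_mem hg hh, rfl⟩)
    (Submodule.subset_span ⟨_, hg, rfl⟩)) (Submodule.subset_span ⟨_, hh, rfl⟩)

lemma augI_mono {U V : Subgroup H} (h : U ≤ V) : augI ρ U ≤ augI ρ V :=
  Submodule.span_mono (Set.image_mono h)

/-- Nilpotent closed submodules give subgroups. -/
def gpOf (ρ : H →* Module.End k M) {S : Submodule k (Module.End k M)} (hS : MulClosed S)
    (hn : IsNilS S) : Subgroup H where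
  carrier := {g | ρ g - 1 ∈ S}
  one_mem' := by simp
  mul_mem' := by
    intro g h hg hh
    change ρ (g * h) - 1 ∈ S
    rw [rho_mul_sub]
    exact S.add_mem (S.add_mem (hS.mul_mem hg hh) hg) hh
  inv_mem' := by
    intro g hg
    change ρ g⁻¹ - 1 ∈ S
    change ρ g - 1 ∈ S at hg
    obtain ⟨n, hn⟩ := hn
    set r := ρ g - 1 with hr
    set u := ρ g⁻¹ - 1 with hu
    have h0 : u = -r + (-r) * u := by
      have h1 : ρ g * ρ g⁻¹ = 1 := by rw [← map_mul, mul_inv_cancel, map_one]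
      have e1 : ρ g = 1 + r := by rw [hr]; abel
      have e2 : ρ g⁻¹ = 1 + u := by rw [hu]; abel
      rw [e1, e2] at h1
      have h2 : r + u + r * u = 0 := by
        have : (1 + r) * (1 + u) = 1 + (r + u + r * u) := by noncomm_ring
        rw [this] at h1
        simpa using h1
      rw [neg_mul]
      have h3 : u = (r + u + r * u) + -r + -(r * u) := by abel
      rw [h2, zero_add] at h3
      exact h3
    have hpow : ∀ i : ℕ, (-r) ^ (i + 1) ∈ S := by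
      intro i
      induction i with
      | zero => simpa using hg
      | succ i ih =>
        rw [pow_succ]
        exact hS.mul_mem ih (S.neg_mem hg)
    have key : ∀ i : ℕ, ∃ s ∈ S, u = s + (-r) ^ (i + 1) * u := by
      intro i
      induction i with
      | zero => exact ⟨-r, S.neg_mem hg, by simpa using h0⟩
      | succ i ih =>
        obtain ⟨s, hs, he⟩ := ih
        refine ⟨s + (-r) ^ (i + 1 + 1), S.add_mem hs (hpow _), ?_⟩
        have e2 : (-r) ^ (i + 1) * u = (-r) ^ (i + 1 + 1) + (-r) ^ (i + 1 + 1) * u := by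
          conv_lhs => rw [h0]
          rw [mul_add, pow_succ (-r) (i + 1), mul_assoc]
        rw [add_assoc, ← e2]
        exact he
    obtain ⟨s, hs, he⟩ := key n
    have h5 : (-r) ^ (n + 1) = 0 := by
      have h6 : (-r) ^ n ∈ S ^ n := Submodule.pow_mem_pow _ (S.neg_mem hg) n
      rw [hn, Submodule.mem_bot] at h6
      rw [pow_succ, h6, zero_mul]
    rw [h5, zero_mul, add_zero] at he
    rw [he]
    exact hs

lemma mem_gpOf {S : Submodule k (Module.End k M)} (hS : MulClosed S) (hn : IsNilS S) {g : H} :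
    g ∈ gpOf ρ hS hn ↔ ρ g - 1 ∈ S := Iff.rfl

lemma augI_le_of_le_gpOf {S : Submodule k (Module.End k M)} (hS : MulClosed S) (hn : IsNilS S)
    {U : Subgroup H} (h : U ≤ gpOf ρ hS hn) : augI ρ U ≤ S := by
  unfold augI
  rw [Submodule.span_le]
  rintro _ ⟨g, hg, rfl⟩
  exact h hg

/-- Unipotence and nilpotence. -/
lemma unipOn_iff {U : Subgroup H} : UnipOn ρ U ↔ IsNilS (augI ρ U) := by
  constructor
  · rintro ⟨n, hn⟩
    refine ⟨n, ?_⟩
    unfold augI
    rw [Submodule.span_pow, Submodule.span_eq_bot]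
    intro x hx
    rw [Set.mem_pow] at hx
    obtain ⟨f, rfl⟩ := hx
    have hch : ∀ i : Fin n, ∃ g ∈ U, (f i : Module.End k M) = ρ g - 1 := by
      intro i
      obtain ⟨g, hg, he⟩ := (f i).2
      exact ⟨g, hg, he.symm⟩
    choose g hg he using hch
    have := hn (List.ofFn g) (by
      intro x hx
      obtain ⟨i, rfl⟩ := (List.mem_ofFn' _ _).mp hx
      exact hg i) (by simp)
    have e : (List.ofFn g).map (fun g => ρ g - 1) = List.ofFn fun i => (f i : Module.End k M) := by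
      rw [List.map_ofFn]
      congr 1
      funext i
      simp [he]
    rw [← e]
    exact this
  · rintro ⟨n, hn⟩
    refine ⟨n, ?_⟩
    intro l hl hln
    have := list_prod_mem_pow (augI ρ U) (l.map fun g => ρ g - 1) (by
      intro x hx
      obtain ⟨g, hg, rfl⟩ := List.mem_map.mp hx
      exact sub_one_mem_augI (hl g hg))
    rw [List.length_map, hln, hn, Submodule.mem_bot] at this
    exact this

section Family

variable {𝒲 : Set (Subgroup H)}

/-- `A` lies in `1 + S`. -/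
def InS (ρ : H →* Module.End k M) (S : Submodule k (Module.End k M)) (A : Subgroup H) : Prop :=
  ∀ g ∈ A, ρ g - 1 ∈ S

/-- `A` normalizes `T`. -/
def NormS (ρ : H →* Module.End k M) (T : Submodule k (Module.End k M)) (A : Subgroup H) : Prop :=
  ∀ g ∈ A, ∀ t ∈ T, ρ g * t * ρ g⁻¹ ∈ T

lemma augI_le_of_inS {S : Submodule k (Module.End k M)} (hS : MulClosed S) (hn : IsNilS S)
    {𝒱 : Set (Subgroup H)} (h : ∀ A ∈ 𝒱, InS ρ S A) : augI ρ (⨆ A ∈ 𝒱, A) ≤ S :=
  augI_le_of_le_gpOf hS hn (iSup₂_le fun A hA g hg => h A hA g hg)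

lemma rho_conj_sub (g h : H) : ρ (g * h * g⁻¹) - 1 = ρ g * (ρ h - 1) * ρ g⁻¹ := by
  have h1 : ρ g * ρ g⁻¹ = 1 := by rw [← map_mul, mul_inv_cancel, map_one]
  rw [map_mul, map_mul, mul_sub, sub_mul, mul_one, h1]

/-- A normalizing member outside `T`. -/
theorem exists_normalizing [FiniteDimensional k M]
    (hinv : ∀ A ∈ 𝒲, ∀ g ∈ ⨆ A ∈ 𝒲, A, conjBy A g ∈ 𝒲)
    {R : Submodule k (Module.End k M)} (hR : MulClosed R) (hRn : IsNilS R)
    {𝒱 𝒰 : Set (Subgroup H)} (h𝒱 : 𝒱 ⊆ 𝒲) (h𝒱R : ∀ A ∈ 𝒱, InS ρ R A) (h𝒰 : 𝒰 ⊆ 𝒲)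
    (hRe : R = augI ρ (⨆ A ∈ 𝒰, A)) (hne : augI ρ (⨆ A ∈ 𝒱, A) ≠ R)
    (h𝒰R : ∀ A ∈ 𝒰, InS ρ R A) :
    ∃ A ∈ 𝒲, InS ρ R A ∧ ¬ InS ρ (augI ρ (⨆ A ∈ 𝒱, A)) A ∧ NormS ρ (augI ρ (⨆ A ∈ 𝒱, A)) A := by
  set T := augI ρ (⨆ A ∈ 𝒱, A) with hT
  have hTR : T ≤ R := augI_le_of_inS hR hRn h𝒱R
  have hTcl : MulClosed T := augI_mulClosed _
  have hTnil : IsNilS T := hRn.mono hTR
  have base : ∃ A ∈ 𝒲, InS ρ R A ∧ ¬ InS ρ T A := by
    by_contra hcon
    push Not at hcon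
    apply hne
    apply le_antisymm hTR
    rw [hRe]
    exact augI_le_of_inS hTcl hTnil (fun A hA => hcon A (h𝒰 hA) (h𝒰R A hA))
  suffices hmain : ∀ T' : Submodule k (Module.End k M), MulClosed T' → T' ≤ R → T ≤ T' →
      (∃ A ∈ 𝒲, InS ρ R A ∧ InS ρ T' A ∧ ¬ InS ρ T A) →
      ∃ A ∈ 𝒲, InS ρ R A ∧ ¬ InS ρ T A ∧ NormS ρ T A by
    obtain ⟨A, hA, h1, h2⟩ := base
    exact hmain R hR le_rfl hTR ⟨A, hA, h1, h1, h2⟩
  intro T'
  induction T' using WellFoundedLT.induction with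
  | ind T' ih =>
    rintro hcl hle hTT' ⟨A, hA, hAR, hAT', hAT⟩
    have hT'nil : IsNilS T' := hRn.mono hle
    set T'' := T ⊔ T' * T' with hT''
    have hT''le : T'' ≤ T' := sup_le hTT' hcl
    have hT''cl : MulClosed T'' := by
      have h1 : T'' * T'' ≤ T' * T' := Submodule.smul_mono hT''le hT''le
      exact le_trans h1 le_sup_right
    have hne' : T'' ≠ T' := by
      intro h
      have h2 : T' ≤ T := le_of_le_sup_mul hTcl hcl hTT' hT'nil (by rw [← hT'', h])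
      exact hAT (fun g hg => h2 (hAT' g hg))
    by_cases hex : ∃ C ∈ 𝒲, InS ρ R C ∧ InS ρ T'' C ∧ ¬ InS ρ T C
    · exact ih T'' (lt_of_le_of_ne hT''le hne') hT''cl (le_trans hT''le hle) le_sup_left hex
    · push Not at hex
      refine ⟨A, hA, hAR, hAT, ?_⟩
      intro g hg t ht
      have hgm : g ∈ ⨆ A ∈ 𝒲, A := (le_iSup₂ (f := fun A (_ : A ∈ 𝒲) => A) A hA) hg
      have hr : ρ g - 1 ∈ T' := hAT' g hg
      have hu : ρ g⁻¹ - 1 ∈ T' := (gpOf ρ hcl hT'nil).inv_mem (show g ∈ gpOf ρ hcl hT'nil from hr)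
      have conj_T'' : ∀ x ∈ T'', ρ g * x * ρ g⁻¹ ∈ T'' := by
        intro x hx
        have hxT' := hT''le hx
        set r := ρ g - 1 with hrdef
        set u := ρ g⁻¹ - 1 with hudef
        have e1 : ρ g = 1 + r := by rw [hrdef]; abel
        have e2 : ρ g⁻¹ = 1 + u := by rw [hudef]; abel
        have e3 : ρ g * x * ρ g⁻¹ = x + r * x + x * u + (r * x) * u := by
          rw [e1, e2]; noncomm_ring
        rw [e3]
        have m : ∀ {p q : Module.End k M}, p ∈ T' → q ∈ T' → p * q ∈ T'' := fun hp hq =>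
          (le_sup_right : T' * T' ≤ T'') (Submodule.mul_mem_mul hp hq)
        exact T''.add_mem (T''.add_mem (T''.add_mem hx (m hr hxT')) (m hxT' hu))
          (m (hcl.mul_mem hr hxT') hu)
      -- conjugates of generators
      have hP : (⨆ A ∈ 𝒱, A) ≤ (gpOf ρ hTcl hTnil).comap (MulAut.conj g).toMonoidHom := by
        refine iSup₂_le fun C hC c hc => ?_
        change g * c * g⁻¹ ∈ gpOf ρ hTcl hTnil
        have hD : conjBy C g ∈ 𝒲 := hinv C (h𝒱 hC) g hgm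
        have hDT'' : InS ρ T'' (conjBy C g) := by
          intro x hx
          have hx' := mem_conjBy.mp hx
          have e : x = g * (g⁻¹ * x * g) * g⁻¹ := by group
          rw [e, rho_conj_sub]
          apply conj_T''
          exact (le_sup_left : T ≤ T'') (sub_one_mem_augI
            ((le_iSup₂ (f := fun A (_ : A ∈ 𝒱) => A) C hC) hx'))
        have hDR : InS ρ R (conjBy C g) := fun x hx => hle (hT''le (hDT'' x hx))
        exact hex _ hD hDR hDT'' _ (conj_mem_conjBy hc)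
      -- span induction
      have hspan : ∀ t ∈ T, ρ g * t * ρ g⁻¹ ∈ T := by
        intro t ht
        refine Submodule.span_induction ?_ ?_ ?_ ?_ ht
        · rintro _ ⟨h, hh, rfl⟩
          simp only
          rw [← rho_conj_sub]
          exact hP hh
        · simp
        · intro x y _ _ hx hy
          rw [mul_add, add_mul]
          exact T.add_mem hx hy
        · intro a x _ hx
          rw [mul_smul_comm, smul_mul_assoc]
          exact T.smul_mem a hx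
      exact hspan t ht

end Family

section Restrict

/-- The vectors annihilated by `T`. -/
def annS (T : Submodule k (Module.End k M)) : Submodule k M where
  carrier := {m | ∀ t ∈ T, t m = 0}
  add_mem' := by
    intro a b ha hb t ht
    rw [map_add, ha t ht, hb t ht, add_zero]
  zero_mem' := by
    intro t _
    exact map_zero t
  smul_mem' := by
    intro c a ha t ht
    rw [map_smul, ha t ht, smul_zero]

/-- The normalizer of `T`. -/
def normS (ρ : H →* Module.End k M) (T : Submodule k (Module.End k M)) : Subgroup H where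
  carrier := {h | (∀ t ∈ T, ρ h * t * ρ h⁻¹ ∈ T) ∧ (∀ t ∈ T, ρ h⁻¹ * t * ρ h ∈ T)}
  one_mem' := by
    simp
  mul_mem' := by
    rintro a b ⟨ha, ha'⟩ ⟨hb, hb'⟩
    refine ⟨fun t ht => ?_, fun t ht => ?_⟩
    · have := ha _ (hb t ht)
      simpa [mul_assoc] using this
    · have := hb' _ (ha' t ht)
      simpa [mul_assoc] using this
  inv_mem' := by
    rintro a ⟨ha, ha'⟩
    refine ⟨fun t ht => ?_, fun t ht => ?_⟩
    · simpa using ha' t ht
    · simpa using ha t ht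

lemma normS_preserves {T : Submodule k (Module.End k M)} {h : H} (hh : h ∈ normS ρ T) {m : M}
    (hm : m ∈ annS T) : ρ h m ∈ annS T := by
  intro t ht
  have h1 := hh.2 t ht
  have h2 := hm _ h1
  have e : ρ h * (ρ h⁻¹ * t * ρ h) = t * ρ h := by
    have : ρ h * ρ h⁻¹ = 1 := by rw [← map_mul, mul_inv_cancel, map_one]
    rw [← mul_assoc, ← mul_assoc, this, one_mul]
  have h3 : (ρ h * (ρ h⁻¹ * t * ρ h)) m = ρ h ((ρ h⁻¹ * t * ρ h) m) := rfl
  have h4 : (t * ρ h) m = t (ρ h m) := rfl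
  rw [← h4, ← e, h3, h2, map_zero]

/-- Restriction of the representation. -/
def restrictRep (ρ : H →* Module.End k M) (T : Submodule k (Module.End k M)) :
    ↥(normS ρ T) →* Module.End k ↥(annS T) where
  toFun h := (ρ (h : H)).restrict (fun _ hm => normS_preserves h.2 hm)
  map_one' := by
    ext m
    simp
  map_mul' := by
    intro a b
    ext m
    simp

/-- The representation on the quotient. -/
def quotRep (ρ : H →* Module.End k M) (T : Submodule k (Module.End k M)) :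
    ↥(normS ρ T) →* Module.End k (M ⧸ annS T) where
  toFun h := (annS T).mapQ (annS T) (ρ (h : H)) (fun _ hm => normS_preserves h.2 hm)
  map_one' := by
    ext m
    simp
  map_mul' := by
    intro a b
    ext m
    simp

lemma restrict_prod (T : Submodule k (Module.End k M)) (l : List ↥(normS ρ T)) (m : ↥(annS T)) :
    (((l.map fun g => restrictRep ρ T g - 1).prod m : ↥(annS T)) : M) =
      (l.map fun g : ↥(normS ρ T) => ρ (g : H) - 1).prod m := by
  induction l generalizing m with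
  | nil => simp
  | cons a l ih =>
    simp only [List.map_cons, List.prod_cons]
    rw [Module.End.mul_apply, Module.End.mul_apply, ← ih]
    simp [restrictRep]

lemma quot_prod (T : Submodule k (Module.End k M)) (l : List ↥(normS ρ T)) (m : M) :
    (l.map fun g => quotRep ρ T g - 1).prod ((annS T).mkQ m) =
      (annS T).mkQ ((l.map fun g : ↥(normS ρ T) => ρ (g : H) - 1).prod m) := by
  induction l generalizing m with
  | nil => simp
  | cons a l ih =>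
    simp only [List.map_cons, List.prod_cons]
    rw [Module.End.mul_apply, Module.End.mul_apply, ih]
    simp [quotRep]

/-- Combining the action on the annihilator and the quotient. -/
lemma unipOn_of_restrict_quot {T : Submodule k (Module.End k M)} {U : Subgroup H}
    (hU : U ≤ normS ρ T) (h₁ : UnipOn (restrictRep ρ T) (U.comap (normS ρ T).subtype))
    (h₂ : UnipOn (quotRep ρ T) (U.comap (normS ρ T).subtype)) : UnipOn ρ U := by
  obtain ⟨n₁, hn₁⟩ := h₁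
  obtain ⟨n₂, hn₂⟩ := h₂
  refine ⟨n₁ + n₂, ?_⟩
  intro l hl hlen
  have hl' : ∀ g ∈ l, g ∈ normS ρ T := fun g hg => hU (hl g hg)
  lift l to List ↥(normS ρ T) using hl'
  have hU' : ∀ g ∈ l, g ∈ U.comap (normS ρ T).subtype := by
    intro g hg
    exact hl _ (List.mem_map_of_mem hg)
  rw [List.length_map] at hlen
  have hsplit : l = l.take n₁ ++ l.drop n₁ := (List.take_append_drop _ _).symm
  have h1 : (l.take n₁).length = n₁ := by
    rw [List.length_take]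
    omega
  have h2 : (l.drop n₁).length = n₂ := by
    rw [List.length_drop]
    omega
  have hm₁ := hn₁ (l.take n₁) (fun g hg => hU' g (List.mem_of_mem_take hg)) h1
  have hm₂ := hn₂ (l.drop n₁) (fun g hg => hU' g (List.mem_of_mem_drop hg)) h2
  rw [List.map_map]
  change (l.map fun g : ↥(normS ρ T) => ρ (g : H) - 1).prod = 0
  rw [hsplit, List.map_append, List.prod_append]
  ext m
  rw [Module.End.mul_apply]
  have h3 : ((l.drop n₁).map fun g : ↥(normS ρ T) => ρ (g : H) - 1).prod m ∈ annS T := by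
    have := quot_prod T (l.drop n₁) m
    rw [hm₂] at this
    rw [← Submodule.Quotient.mk_eq_zero]
    exact this.symm
  have h4 := restrict_prod T (l.take n₁) ⟨_, h3⟩
  rw [hm₁] at h4
  simpa using h4.symm

end Restrict

end Rep

section Main

universe uk uM uH

variable {k : Type uk} {M : Type uM} {H : Type uH} [Field k] [AddCommGroup M] [Module k M] [Group H]
  {ρ : H →* Module.End k M}

lemma UnipOn.mono {U V : Subgroup H} (h : U ≤ V) (hV : UnipOn ρ V) : UnipOn ρ U := by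
  obtain ⟨n, hn⟩ := hV
  exact ⟨n, fun l hl hlen => hn l (fun g hg => h (hl g hg)) hlen⟩

lemma annS_ne_top {T : Submodule k (Module.End k M)} (hT : T ≠ ⊥) : annS T ≠ ⊤ := by
  intro h
  apply hT
  rw [eq_bot_iff]
  intro t ht
  rw [Submodule.mem_bot]
  ext m
  have hm : m ∈ annS T := by rw [h]; trivial
  exact hm t ht

lemma annS_ne_bot {T : Submodule k (Module.End k M)} (hT : T ≠ ⊥) (hn : IsNilS T) : annS T ≠ ⊥ := by
  classical
  have hex : ∃ n : ℕ, T ^ n = ⊥ := hn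
  have hn0 : Nat.find hex ≠ 0 := by
    intro h0
    have h1 := Nat.find_spec hex
    rw [h0, pow_zero] at h1
    apply hT
    rw [eq_bot_iff]
    intro t _
    have h2 : (1 : Module.End k M) ∈ (1 : Submodule k (Module.End k M)) := Submodule.one_le.mp le_rfl
    rw [h1, Submodule.mem_bot] at h2
    rw [Submodule.mem_bot]
    calc t = t * 1 := (mul_one t).symm
      _ = 0 := by rw [h2, mul_zero]
  obtain ⟨j, hj⟩ := Nat.exists_eq_succ_of_ne_zero hn0
  have hspec := Nat.find_spec hex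
  rw [hj] at hspec
  have hmin : T ^ j ≠ ⊥ := by
    have := Nat.find_min hex (m := j) (by omega)
    exact this
  obtain ⟨x, hx, hx1⟩ := (Submodule.ne_bot_iff _).mp hmin
  obtain ⟨m₀, hm₀⟩ : ∃ m₀, x m₀ ≠ 0 := by
    by_contra hcon
    push Not at hcon
    exact hx1 (LinearMap.ext hcon)
  intro hb
  have hm : x m₀ ∈ annS T := by
    intro t ht
    have h1 : t * x ∈ T ^ (j + 1) := by
      rw [pow_succ']
      exact Submodule.mul_mem_mul ht hx
    have hj' : T ^ (j + 1) = ⊥ := hspec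
    rw [hj', Submodule.mem_bot] at h1
    have h2 : (t * x) m₀ = 0 := by rw [h1]; rfl
    exact h2
  rw [hb, Submodule.mem_bot] at hm
  exact hm₀ hm

variable [FiniteDimensional k M]

lemma finrank_annS_lt {T : Submodule k (Module.End k M)} (hT : T ≠ ⊥) :
    Module.finrank k ↥(annS T) < Module.finrank k M :=
  Submodule.finrank_lt (annS_ne_top hT)

lemma finrank_quot_lt {T : Submodule k (Module.End k M)} (hT : T ≠ ⊥) (hn : IsNilS T) :
    Module.finrank k (M ⧸ annS T) < Module.finrank k M := by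
  have h1 := Submodule.finrank_quotient_add_finrank (annS T)
  have h2 : 0 < Module.finrank k ↥(annS T) := by
    rw [Module.finrank_pos_iff]
    exact Submodule.nontrivial_iff_ne_bot.mpr (annS_ne_bot hT hn)
  omega

/-- The hypothesis of the inductive step. -/
def UnipIH (k : Type uk) [Field k] (d : ℕ) (H' : Type uH) [Group H'] : Prop :=
  ∀ (M' : Type uM) [AddCommGroup M'] [Module k M'] [FiniteDimensional k M'],
    Module.finrank k M' < d → ∀ (ρ' : H' →* Module.End k M') (𝒲' : Set (Subgroup H')),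
      (∀ A ∈ 𝒲', ∀ B ∈ 𝒲', UnipOn ρ' (A ⊔ B)) →
      (∀ A ∈ 𝒲', ∀ g ∈ ⨆ A ∈ 𝒲', A, conjBy A g ∈ 𝒲') → UnipOn ρ' (⨆ A ∈ 𝒲', A)

variable {𝒲 : Set (Subgroup H)}

/-- The members normalizing `T` generate a unipotent group. -/
theorem unipOn_normalizing
    {T : Submodule k (Module.End k M)} (hTne : T ≠ ⊥) (hTn : IsNilS T)
    (IH : UnipIH.{uk, uM, uH} k (Module.finrank k M) ↥(normS ρ T))
    (hpair : ∀ A ∈ 𝒲, ∀ B ∈ 𝒲, UnipOn ρ (A ⊔ B))
    (hinv : ∀ A ∈ 𝒲, ∀ g ∈ ⨆ A ∈ 𝒲, A, conjBy A g ∈ 𝒲) :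
    UnipOn ρ (⨆ C ∈ {C | C ∈ 𝒲 ∧ NormS ρ T C}, C) := by
  set L : Set (Subgroup H) := {C | C ∈ 𝒲 ∧ NormS ρ T C} with hL
  set N := normS ρ T with hN
  have hLN : ∀ C ∈ L, C ≤ N := by
    intro C hC g hg
    refine ⟨hC.2 g hg, fun t ht => ?_⟩
    have := hC.2 g⁻¹ (C.inv_mem hg) t ht
    simpa using this
  have hsup : (⨆ C ∈ L, C) ≤ N := iSup₂_le hLN
  have hsupW : (⨆ C ∈ L, C) ≤ ⨆ A ∈ 𝒲, A :=
    iSup₂_le fun C hC => le_iSup₂ (f := fun A (_ : A ∈ 𝒲) => A) C hC.1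
  set 𝒲₁ : Set (Subgroup ↥N) := (fun C => C.comap N.subtype) '' L with h𝒲₁
  have hmapsup : (⨆ X ∈ 𝒲₁, X).map N.subtype = ⨆ C ∈ L, C := by
    apply le_antisymm
    · rw [Subgroup.map_le_iff_le_comap]
      refine iSup₂_le ?_
      rintro _ ⟨C, hC, rfl⟩ g hg
      exact (le_iSup₂ (f := fun A (_ : A ∈ L) => A) C hC) hg
    · refine iSup₂_le fun C hC g hg => ?_
      have hgN : g ∈ N := hLN C hC hg
      refine ⟨⟨g, hgN⟩, ?_, rfl⟩
      exact (le_iSup₂ (f := fun X (_ : X ∈ 𝒲₁) => X) _ ⟨C, hC, rfl⟩)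
        (show (⟨g, hgN⟩ : ↥N) ∈ C.comap N.subtype from hg)
  have hcomap : (⨆ C ∈ L, C).comap N.subtype = ⨆ X ∈ 𝒲₁, X := by
    rw [← hmapsup]
    exact Subgroup.comap_map_eq_self_of_injective N.subtype_injective _
  have hinv₁ : ∀ X ∈ 𝒲₁, ∀ g ∈ ⨆ X ∈ 𝒲₁, X, conjBy X g ∈ 𝒲₁ := by
    rintro _ ⟨C, hC, rfl⟩ g hg
    have hg' : (g : H) ∈ ⨆ C ∈ L, C := by
      rw [← hmapsup]
      exact ⟨g, hg, rfl⟩
    refine ⟨conjBy C (g : H), ⟨hinv C hC.1 _ (hsupW hg'), ?_⟩, ?_⟩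
    · intro x hx t ht
      have hx' := mem_conjBy.mp hx
      have e : x = g * ((g : H)⁻¹ * x * g) * (g : H)⁻¹ := by group
      set c := (g : H)⁻¹ * x * g with hc
      have h1 : ρ (g : H)⁻¹ * t * ρ (g : H) ∈ T := g.2.2 t ht
      have h2 := hC.2 c hx' _ h1
      have h3 := g.2.1 _ h2
      have hinv' : x⁻¹ = g * c⁻¹ * (g : H)⁻¹ := by rw [e]; group
      have hmm1 : ρ (g : H) * ρ (g : H)⁻¹ = 1 := by rw [← map_mul, mul_inv_cancel, map_one]
      have hmm2 : ρ (g : H)⁻¹ * ρ (g : H) = 1 := by rw [← map_mul, inv_mul_cancel, map_one]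
      have e2 : ρ x * t * ρ x⁻¹ = ρ (g : H) * (ρ c * (ρ (g : H)⁻¹ * t * ρ (g : H)) * ρ c⁻¹) * ρ (g : H)⁻¹ := by
        rw [hinv']
        conv_lhs => rw [e]
        simp only [map_mul]
        simp only [mul_assoc]
      rw [e2]
      exact h3
    · ext y
      simp only [Subgroup.mem_comap, Subgroup.subtype_apply, mem_conjBy]
      simp
  have hLunip : ∀ A ∈ L, ∀ B ∈ L, UnipOn ρ (A ⊔ B) := fun A hA B hB => hpair A hA.1 B hB.1
  have hsupcomap : ∀ A B : Subgroup H, A.comap N.subtype ⊔ B.comap N.subtype ≤ (A ⊔ B).comap N.subtype :=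
    fun A B => sup_le (Subgroup.comap_mono le_sup_left) (Subgroup.comap_mono le_sup_right)
  have h₁ : UnipOn (restrictRep ρ T) (⨆ X ∈ 𝒲₁, X) := by
    apply IH _ (finrank_annS_lt hTne) _ 𝒲₁ _ hinv₁
    rintro _ ⟨A, hA, rfl⟩ _ ⟨B, hB, rfl⟩
    obtain ⟨n, hn⟩ := hLunip A hA B hB
    refine ⟨n, fun l hl hlen => ?_⟩
    have h0 := hn (l.map (fun g : ↥N => (g : H))) (by
      intro g hg
      obtain ⟨g', hg', rfl⟩ := List.mem_map.mp hg
      exact hsupcomap A B (hl g' hg')) (by simpa using hlen)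
    rw [List.map_map] at h0
    ext m
    have := restrict_prod T l m
    rw [show (l.map fun g : ↥(normS ρ T) => ρ (g : H) - 1) =
      l.map ((fun g => ρ g - 1) ∘ fun g : ↥N => (g : H)) from rfl, h0] at this
    simpa using this
  have h₂ : UnipOn (quotRep ρ T) (⨆ X ∈ 𝒲₁, X) := by
    apply IH _ (finrank_quot_lt hTne hTn) _ 𝒲₁ _ hinv₁
    rintro _ ⟨A, hA, rfl⟩ _ ⟨B, hB, rfl⟩
    obtain ⟨n, hn⟩ := hLunip A hA B hB
    refine ⟨n, fun l hl hlen => ?_⟩
    have h0 := hn (l.map (fun g : ↥N => (g : H))) (by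
      intro g hg
      obtain ⟨g', hg', rfl⟩ := List.mem_map.mp hg
      exact hsupcomap A B (hl g' hg')) (by simpa using hlen)
    rw [List.map_map] at h0
    apply LinearMap.ext
    intro m
    induction m using Submodule.Quotient.induction_on with
    | H m =>
      have := quot_prod T l m
      rw [show (l.map fun g : ↥(normS ρ T) => ρ (g : H) - 1) =
        l.map ((fun g => ρ g - 1) ∘ fun g : ↥N => (g : H)) from rfl, h0] at this
      simpa using this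
  refine unipOn_of_restrict_quot hsup ?_ ?_
  · rw [hcomap]; exact h₁
  · rw [hcomap]; exact h₂

/-- Members of a nilpotent group conjugate inside. -/
lemma normS_of_inS {T : Submodule k (Module.End k M)} (hcl : MulClosed T) (hn : IsNilS T)
    {C : Subgroup H} (hC : InS ρ T C) : NormS ρ T C := by
  intro g hg t ht
  have hr : ρ g - 1 ∈ T := hC g hg
  have hu : ρ g⁻¹ - 1 ∈ T := hC g⁻¹ (C.inv_mem hg)
  have e1 : ρ g = 1 + (ρ g - 1) := by abel
  have e2 : ρ g⁻¹ = 1 + (ρ g⁻¹ - 1) := by abel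
  set r := ρ g - 1
  set u := ρ g⁻¹ - 1
  have e3 : ρ g * t * ρ g⁻¹ = t + r * t + t * u + (r * t) * u := by
    rw [e1, e2]; noncomm_ring
  rw [e3]
  exact T.add_mem (T.add_mem (T.add_mem ht (hcl.mul_mem hr ht)) (hcl.mul_mem ht hu))
    (hcl.mul_mem (hcl.mul_mem hr ht) hu)

/-- The algebras attached to good subfamilies. -/
def goodFam (ρ : H →* Module.End k M) (𝒲 : Set (Subgroup H)) : Set (Submodule k (Module.End k M)) :=
  {R | IsNilS R ∧ ∃ 𝒰 ⊆ 𝒲, R = augI ρ (⨆ A ∈ 𝒰, A)}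

/-- Maximal good algebras. -/
def IsMaxGood (ρ : H →* Module.End k M) (𝒲 : Set (Subgroup H)) (R : Submodule k (Module.End k M)) :
    Prop := R ∈ goodFam ρ 𝒲 ∧ ∀ R' ∈ goodFam ρ 𝒲, R ≤ R' → R' = R

lemma exists_maxGood {R : Submodule k (Module.End k M)} (hR : R ∈ goodFam ρ 𝒲) :
    ∃ R', IsMaxGood ρ 𝒲 R' ∧ R ≤ R' := by
  obtain ⟨R', ⟨hR', hle⟩, hmax⟩ := (wellFounded_gt (α := Submodule k (Module.End k M))).has_min
    {S | S ∈ goodFam ρ 𝒲 ∧ R ≤ S} ⟨R, hR, le_rfl⟩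
  refine ⟨R', ⟨hR', fun R'' hR'' hle' => ?_⟩, hle⟩
  by_contra hne
  exact hmax R'' ⟨hR'', le_trans hle hle'⟩ (lt_of_le_of_ne hle' (Ne.symm hne))

/-- The members in `S`. -/
def membS (ρ : H →* Module.End k M) (𝒲 : Set (Subgroup H)) (S : Submodule k (Module.End k M)) :
    Set (Subgroup H) := {A | A ∈ 𝒲 ∧ InS ρ S A}

lemma IsMaxGood.closed {R : Submodule k (Module.End k M)} (h : IsMaxGood ρ 𝒲 R) : MulClosed R := by
  obtain ⟨-, 𝒰, -, rfl⟩ := h.1
  exact augI_mulClosed _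

lemma sub_one_mem_of_mem {𝒰 : Set (Subgroup H)} {A : Subgroup H} (hA : A ∈ 𝒰) {g : H} (hg : g ∈ A) :
    ρ g - 1 ∈ augI ρ (⨆ A ∈ 𝒰, A) :=
  sub_one_mem_augI ((le_iSup₂ (f := fun A (_ : A ∈ 𝒰) => A) A hA) hg)

/-- The step producing a larger intersection. -/
theorem exists_larger
    (hinv : ∀ A ∈ 𝒲, ∀ g ∈ ⨆ A ∈ 𝒲, A, conjBy A g ∈ 𝒲)
    (hpair : ∀ A ∈ 𝒲, ∀ B ∈ 𝒲, UnipOn ρ (A ⊔ B))
    (IH : ∀ T : Submodule k (Module.End k M), T ≠ ⊥ → IsNilS T →
      UnipOn ρ (⨆ C ∈ {C | C ∈ 𝒲 ∧ NormS ρ T C}, C))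
    {R₁ R₂ : Submodule k (Module.End k M)} (h₁ : IsMaxGood ρ 𝒲 R₁) (h₂ : IsMaxGood ρ 𝒲 R₂)
    (hne : R₁ ≠ R₂) (hT : augI ρ (⨆ A ∈ membS ρ 𝒲 R₁ ∩ membS ρ 𝒲 R₂, A) ≠ ⊥) :
    ∃ R₁' R₂', IsMaxGood ρ 𝒲 R₁' ∧ IsMaxGood ρ 𝒲 R₂' ∧ R₁' ≠ R₂' ∧
      augI ρ (⨆ A ∈ membS ρ 𝒲 R₁ ∩ membS ρ 𝒲 R₂, A) <
        augI ρ (⨆ A ∈ membS ρ 𝒲 R₁' ∩ membS ρ 𝒲 R₂', A) := by
  set 𝒱 := membS ρ 𝒲 R₁ ∩ membS ρ 𝒲 R₂ with h𝒱
  set T := augI ρ (⨆ A ∈ 𝒱, A) with hTdef
  have hR₁cl := h₁.closed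
  have hR₂cl := h₂.closed
  have hR₁n : IsNilS R₁ := h₁.1.1
  have hR₂n : IsNilS R₂ := h₂.1.1
  have hT₁ : T ≤ R₁ := augI_le_of_inS hR₁cl hR₁n (fun A hA => hA.1.2)
  have hT₂ : T ≤ R₂ := augI_le_of_inS hR₂cl hR₂n (fun A hA => hA.2.2)
  have hTcl : MulClosed T := augI_mulClosed _
  have hTn : IsNilS T := hR₁n.mono hT₁
  have hTne₁ : T ≠ R₁ := by
    intro h
    have h3 := h₁.2 R₂ h₂.1 (by rw [← h]; exact hT₂)
    exact hne h3.symm
  have hTne₂ : T ≠ R₂ := by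
    intro h
    have h3 := h₂.2 R₁ h₁.1 (by rw [← h]; exact hT₁)
    exact hne h3
  obtain ⟨𝒰₁, h𝒰₁, he₁⟩ := h₁.1.2
  obtain ⟨𝒰₂, h𝒰₂, he₂⟩ := h₂.1.2
  obtain ⟨A, hA, hAR, hAT, hAN⟩ := exists_normalizing hinv hR₁cl hR₁n
    (𝒱 := 𝒱) (𝒰 := 𝒰₁) (fun C hC => hC.1.1) (fun C hC => hC.1.2) h𝒰₁ he₁ hTne₁
    (fun C hC g hg => by rw [he₁]; exact sub_one_mem_of_mem hC hg)
  obtain ⟨B, hB, hBR, hBT, hBN⟩ := exists_normalizing hinv hR₂cl hR₂n
    (𝒱 := 𝒱) (𝒰 := 𝒰₂) (fun C hC => hC.1.1) (fun C hC => hC.2.2) h𝒰₂ he₂ hTne₂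
    (fun C hC g hg => by rw [he₂]; exact sub_one_mem_of_mem hC hg)
  -- the normalizing members
  set L : Set (Subgroup H) := {C | C ∈ 𝒲 ∧ NormS ρ T C} with hL
  have hLgood : augI ρ (⨆ C ∈ L, C) ∈ goodFam ρ 𝒲 :=
    ⟨unipOn_iff.mp (IH T hT hTn), L, fun C hC => hC.1, rfl⟩
  obtain ⟨R₃, h₃, hle₃⟩ := exists_maxGood hLgood
  have hLmem : ∀ C ∈ L, C ∈ membS ρ 𝒲 R₃ := fun C hC =>
    ⟨hC.1, fun g hg => hle₃ (sub_one_mem_of_mem hC hg)⟩
  have h𝒱L : ∀ C ∈ 𝒱, C ∈ L := fun C hC =>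
    ⟨hC.1.1, normS_of_inS hTcl hTn (fun g hg => sub_one_mem_of_mem hC hg)⟩
  -- general conclusion
  have gen : ∀ {R : Submodule k (Module.End k M)} {D : Subgroup H}, IsMaxGood ρ 𝒲 R →
      (∀ C ∈ 𝒱, C ∈ membS ρ 𝒲 R) → D ∈ membS ρ 𝒲 R → D ∈ L → ¬ InS ρ T D →
      T < augI ρ (⨆ A ∈ membS ρ 𝒲 R ∩ membS ρ 𝒲 R₃, A) := by
    intro R D _ h𝒱R hD hDL hDT
    have hle : T ≤ augI ρ (⨆ A ∈ membS ρ 𝒲 R ∩ membS ρ 𝒲 R₃, A) := by
      apply augI_mono
      refine iSup₂_le fun C hC => ?_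
      exact le_iSup₂ (f := fun A (_ : A ∈ membS ρ 𝒲 R ∩ membS ρ 𝒲 R₃) => A) C
        ⟨h𝒱R C hC, hLmem C (h𝒱L C hC)⟩
    refine lt_of_le_of_ne hle ?_
    intro he
    apply hDT
    intro g hg
    rw [he]
    exact sub_one_mem_of_mem (𝒰 := membS ρ 𝒲 R ∩ membS ρ 𝒲 R₃) ⟨hD, hLmem D hDL⟩ hg
  by_cases h13 : R₁ = R₃
  · have h23 : R₂ ≠ R₃ := fun h => hne (h13.trans h.symm)
    exact ⟨R₂, R₃, h₂, h₃, h23, gen h₂ (fun C hC => hC.2) ⟨hB, hBR⟩ ⟨hB, hBN⟩ hBT⟩
  · exact ⟨R₁, R₃, h₁, h₃, h13, gen h₁ (fun C hC => hC.1) ⟨hA, hAR⟩ ⟨hA, hAN⟩ hAT⟩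

/-- No two different maximal good algebras share a non-trivial member. -/
theorem no_common
    (hinv : ∀ A ∈ 𝒲, ∀ g ∈ ⨆ A ∈ 𝒲, A, conjBy A g ∈ 𝒲)
    (hpair : ∀ A ∈ 𝒲, ∀ B ∈ 𝒲, UnipOn ρ (A ⊔ B))
    (IH : ∀ T : Submodule k (Module.End k M), T ≠ ⊥ → IsNilS T →
      UnipOn ρ (⨆ C ∈ {C | C ∈ 𝒲 ∧ NormS ρ T C}, C)) :
    ∀ T : Submodule k (Module.End k M), ∀ R₁ R₂, IsMaxGood ρ 𝒲 R₁ → IsMaxGood ρ 𝒲 R₂ → R₁ ≠ R₂ →
      augI ρ (⨆ A ∈ membS ρ 𝒲 R₁ ∩ membS ρ 𝒲 R₂, A) = T → T ≠ ⊥ → False := by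
  intro T
  induction T using WellFoundedGT.induction with
  | ind T ih =>
    rintro R₁ R₂ h₁ h₂ hne rfl hT
    obtain ⟨R₁', R₂', h₁', h₂', hne', hlt⟩ := exists_larger hinv hpair IH h₁ h₂ hne hT
    refine ih _ hlt R₁' R₂' h₁' h₂' hne' rfl ?_
    intro hb
    rw [hb] at hlt
    exact not_lt_bot hlt

/-- The inductive step of the main theorem. -/
theorem unipOn_family_step
    (hpair : ∀ A ∈ 𝒲, ∀ B ∈ 𝒲, UnipOn ρ (A ⊔ B))
    (hinv : ∀ A ∈ 𝒲, ∀ g ∈ ⨆ A ∈ 𝒲, A, conjBy A g ∈ 𝒲)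
    (IH : ∀ T : Submodule k (Module.End k M), T ≠ ⊥ → IsNilS T →
      UnipOn ρ (⨆ C ∈ {C | C ∈ 𝒲 ∧ NormS ρ T C}, C)) :
    UnipOn ρ (⨆ A ∈ 𝒲, A) := by
  by_cases htriv : ∀ A ∈ 𝒲, ∀ g ∈ A, ρ g = 1
  · refine ⟨1, fun l hl hlen => ?_⟩
    obtain ⟨g, rfl⟩ := List.length_eq_one_iff.mp hlen
    have hker : (⨆ A ∈ 𝒲, A) ≤ ρ.ker := iSup₂_le fun A hA g hg => htriv A hA g hg
    have h1 : ρ g = 1 := hker (hl g (List.mem_singleton.mpr rfl))
    simp [h1]
  push Not at htriv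
  obtain ⟨A₀, hA₀, g₀, hg₀, hg₀1⟩ := htriv
  have hsingle : (⨆ A ∈ ({A₀} : Set (Subgroup H)), A) = A₀ := by simp
  have hR₀ : augI ρ A₀ ∈ goodFam ρ 𝒲 := by
    refine ⟨?_, {A₀}, by simpa using hA₀, by rw [hsingle]⟩
    have := hpair A₀ hA₀ A₀ hA₀
    rw [sup_idem] at this
    exact unipOn_iff.mp this
  obtain ⟨R, hR, hleR⟩ := exists_maxGood hR₀
  have hA₀R : A₀ ∈ membS ρ 𝒲 R := ⟨hA₀, fun g hg => hleR (sub_one_mem_augI hg)⟩
  have hall : ∀ B ∈ 𝒲, InS ρ R B := by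
    intro B hB
    have hsup : (⨆ A ∈ ({A₀, B} : Set (Subgroup H)), A) = A₀ ⊔ B := by
      apply le_antisymm
      · refine iSup₂_le fun C hC => ?_
        rcases hC with rfl | hC
        · exact le_sup_left
        · rw [Set.mem_singleton_iff] at hC
          rw [hC]; exact le_sup_right
      · exact sup_le (le_iSup₂ (f := fun A (_ : A ∈ ({A₀, B} : Set (Subgroup H))) => A) A₀ (by simp))
          (le_iSup₂ (f := fun A (_ : A ∈ ({A₀, B} : Set (Subgroup H))) => A) B (by simp))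
    have hR' : augI ρ (A₀ ⊔ B) ∈ goodFam ρ 𝒲 := by
      refine ⟨unipOn_iff.mp (hpair A₀ hA₀ B hB), {A₀, B}, ?_, by rw [hsup]⟩
      rintro C (rfl | hC)
      · exact hA₀
      · rw [Set.mem_singleton_iff] at hC
        rw [hC]
        exact hB
    obtain ⟨R', h', hle'⟩ := exists_maxGood hR'
    have hEq : R = R' := by
      by_contra hne
      refine no_common hinv hpair IH _ R R' hR h' hne rfl ?_
      intro hb
      apply hg₀1
      have h2 : ρ g₀ - 1 ∈ augI ρ (⨆ A ∈ membS ρ 𝒲 R ∩ membS ρ 𝒲 R', A) :=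
        sub_one_mem_of_mem (A := A₀) (𝒰 := membS ρ 𝒲 R ∩ membS ρ 𝒲 R') ⟨hA₀R, hA₀, fun g hg =>
          hle' (sub_one_mem_augI ((le_sup_left : A₀ ≤ A₀ ⊔ B) hg))⟩ hg₀
      rw [hb, Submodule.mem_bot] at h2
      exact sub_eq_zero.mp h2
    rw [hEq]
    exact fun g hg => hle' (sub_one_mem_augI ((le_sup_right : B ≤ A₀ ⊔ B) hg))
  rw [unipOn_iff]
  exact hR.1.1.mono (augI_le_of_inS hR.closed hR.1.1 hall)

/-- The main theorem (statement for fixed universes with induction on the dimension). -/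
theorem unipOn_family_aux (n : ℕ) :
    ∀ (M : Type uM) [AddCommGroup M] [Module k M] [FiniteDimensional k M] (H : Type uH) [Group H]
      (ρ : H →* Module.End k M) (𝒲 : Set (Subgroup H)), Module.finrank k M = n →
      (∀ A ∈ 𝒲, ∀ B ∈ 𝒲, UnipOn ρ (A ⊔ B)) →
      (∀ A ∈ 𝒲, ∀ g ∈ ⨆ A ∈ 𝒲, A, conjBy A g ∈ 𝒲) → UnipOn ρ (⨆ A ∈ 𝒲, A) := by
  induction n using Nat.strong_induction_on with
  | _ n ih =>
    intro M _ _ _ H _ ρ 𝒲 hn hpair hinv
    refine unipOn_family_step hpair hinv fun T hT hTn => ?_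
    refine unipOn_normalizing hT hTn ?_ hpair hinv
    intro M' _ _ _ hlt ρ' 𝒲' hpair' hinv'
    exact ih _ (hn ▸ hlt) M' _ ρ' 𝒲' rfl hpair' hinv'

end Main

/-- The main theorem. -/
theorem unipOn_family {k : Type*} {M : Type*} {H : Type*} [Field k] [AddCommGroup M] [Module k M]
    [Group H] [FiniteDimensional k M] (ρ : H →* Module.End k M) (𝒲 : Set (Subgroup H))
    (hpair : ∀ A ∈ 𝒲, ∀ B ∈ 𝒲, UnipOn ρ (A ⊔ B))
    (hinv : ∀ A ∈ 𝒲, ∀ g ∈ ⨆ A ∈ 𝒲, A, conjBy A g ∈ 𝒲) : UnipOn ρ (⨆ A ∈ 𝒲, A) :=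
  unipOn_family_aux _ M H ρ 𝒲 rfl hpair hinv

end Cfsg.Agent.Lib.Root
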